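import Cfsg.Agent.H14.CoxAll
/-! Centre and generators of the Weyl groups. -/
set_option autoImplicit false
namespace H22.CoxW
open H14 H14.RootSys

variable {ι : Type*} {n : ℕ} [Fintype ι] [DecidableEq ι] {R : RootSys ι (Fin n)} {M : CoxeterMatrix (Fin n)}

/-- the product of a word -/
def wd (M : CoxeterMatrix (Fin n)) (L : List (Fin n)) : M.Group := (L.map M.simple).prod

theorem wd_append (L L' : List (Fin n)) : wd M (L ++ L') = wd M L * wd M L' := by simp [wd]

theorem wd_flatten (L : List (List (Fin n))) : wd M L.flatten = (L.map (wd M)).prod := by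
  induction L with
  | nil => rfl
  | cons a L ih => rw [List.flatten_cons, wd_append, ih, List.map_cons, List.prod_cons]

variable {e : R.W ≃* M.Group} (he : ∀ i, e ⟨R.sr i, R.sr_mem_W i⟩ = M.simple i)
include he

theorem wd_eq (L : List (Fin n)) : wd M L = e ⟨R.wprod L, R.wprod_mem_W L⟩ := by
  induction L with
  | nil => exact (map_one e).symm
  | cons a L ih => rw [wd, List.map_cons, List.prod_cons, ← wd, ih, ← he, ← map_mul]; exact congrArg e (Subtype.ext (by simp))

theorem weq {L L' : List (Fin n)} : wd M L = wd M L' ↔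
    ∀ k, L.foldr R.sref (R.simple k) = L'.foldr R.sref (R.simple k) := by
  rw [wd_eq he, wd_eq he, e.apply_eq_iff_eq, Subtype.mk_eq_mk]
  simp only [← wprod_apply]
  exact ⟨fun h k => by rw [h], R.eq_of_simple (R.wprod_mem_Aut _) (R.wprod_mem_Aut _)⟩

theorem gen (I : List (Fin n)) (hI : I.Nodup) (W : Fin n → List ℕ)
    (h : ∀ i k, ((W i).map fun a => (List.finRange n :: (List.finRange n).reverse :: I.map fun j => [j]).getD a []).flatten.foldr
      R.sref (R.simple k) = R.sref i (R.simple k)) :
    ∃ T : Finset M.Group, T.card = I.length ∧ (∀ t ∈ T, ∃ (g : M.Group) (i : Fin n), t = g * M.simple i * g⁻¹) ∧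
      Subgroup.closure (({((List.finRange n).map M.simple).prod} : Set M.Group) ∪ ↑T) = ⊤ := by
  classical
  have hi : Function.Injective M.simple := fun i j h => R.sr_injective (by
    simpa [← he] using h)
  refine ⟨(I.map M.simple).toFinset, by rw [List.toFinset_card_of_nodup (hI.map hi), List.length_map],
    fun t ht => ?_, ?_⟩
  · obtain ⟨i, -, rfl⟩ := List.mem_map.1 (List.mem_toFinset.1 ht)
    exact ⟨1, i, by simp⟩
  rw [eq_top_iff, ← M.toCoxeterSystem.subgroup_closure_range_simple, Subgroup.closure_le]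
  rintro _ ⟨i, rfl⟩
  have h1 := (weq he (L' := [i])).2 (h i)
  rw [wd_flatten] at h1
  refine (show _ = M.toCoxeterSystem.simple i by simpa [wd] using h1) ▸ Subgroup.list_prod_mem _ fun x hx => ?_
  simp only [List.mem_map] at hx
  obtain ⟨a, -, rfl⟩ := hx
  have hc : wd M (List.finRange n) ∈ Subgroup.closure (({((List.finRange n).map M.simple).prod} : Set M.Group) ∪
    ↑(I.map M.simple).toFinset) := Subgroup.subset_closure (.inl rfl)
  rcases a with _ | _ | a
  · exact hc
  · have := inv_mem hc
    rwa [wd_eq he, ← map_inv, show (⟨_, R.wprod_mem_W (List.finRange n)⟩ : R.W)⁻¹ = ⟨_, R.wprod_mem_W _⟩ from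
      Subtype.ext (R.wprod_reverse _).symm, ← wd_eq he] at this
  · show wd M ((I.map fun j => [j]).getD a []) ∈ _
    rcases lt_or_ge a I.length with ha | ha
    · rw [List.getD_eq_getElem _ _ (by simpa), List.getElem_map]
      exact Subgroup.subset_closure (.inr (by simpa [wd] using ⟨_, List.getElem_mem ha, rfl⟩))
    · rw [List.getD_eq_default _ _ (by simpa)]; exact one_mem _

theorem cent_cases (h1 : ∀ i y, R.sref i y = R.neg y → y = R.simple i ∨ y = R.neg (R.simple i))
    (h2 : ∀ ε : Fin n → Bool, (∀ i j, ε i ≠ ε j → R.sref i (R.simple j) = R.simple j) → ∀ i j, ε i = ε j)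
    {z : M.Group} (hz : z ∈ Subgroup.center M.Group) :
    z = 1 ∨ ∀ k, (e.symm z).1 (R.simple k) = R.neg (R.simple k) := by
  obtain ⟨z, rfl⟩ := e.surjective z
  rw [e.symm_apply_apply]
  have hA := R.W_le_Aut z.2
  have h3 : ∀ i, z.1 (R.simple i) = R.simple i ∨ z.1 (R.simple i) = R.neg (R.simple i) := fun i => h1 _ _ (by
    have := Subgroup.mem_center_iff.1 hz (M.simple i)
    rw [← he, ← map_mul, ← map_mul, e.apply_eq_iff_eq] at this
    have := congrArg (fun w : R.W => w.1 (R.simple i)) this
    simpa [← refl_simple, sr, Aut.neg hA] using this)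
  have h4 := h2 (fun i => decide (z.1 (R.simple i) = R.simple i)) fun i j h => by
    have := Aut.pair_eq hA (R.simple i) (R.simple j)
    refine R.cf_inj ?_
    rw [← refl_simple, cf_refl, show R.pair (R.simple i) (R.simple j) = 0 from ?_]; simp
    rcases h3 i with hi | hi <;> rcases h3 j with hj | hj <;> simp [hi, hj, R.neg_ne] at h this ⊢ <;> omega
  by_cases h : ∀ k, z.1 (R.simple k) = R.simple k
  · exact .inl (by rw [show z = 1 from Subtype.ext (R.eq_of_simple hA (one_mem _) h), map_one])
  · push Not at h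
    obtain ⟨k, hk⟩ := h
    exact .inr fun j => (h3 j).resolve_left fun h => hk (by simpa [h] using h4 j k)

theorem cent_two (h1 : ∀ i y, R.sref i y = R.neg y → y = R.simple i ∨ y = R.neg (R.simple i))
    (h2 : ∀ ε : Fin n → Bool, (∀ i j, ε i ≠ ε j → R.sref i (R.simple j) = R.simple j) → ∀ i j, ε i = ε j)
    (m : ℕ) (k0 : Fin n) (h3 : ∀ k, (List.replicate m (List.finRange n)).flatten.foldr R.sref (R.simple k) = R.neg (R.simple k)) :
    Nat.card (Subgroup.center M.Group) = 2 ∧
      Subgroup.center M.Group ≤ Subgroup.zpowers ((List.finRange n).map M.simple).prod := by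
  generalize hL : (List.replicate m (List.finRange n)).flatten = L at h3
  have hA := R.wprod_mem_Aut L
  have h4 : ∀ r, R.wprod L r = R.neg r := fun r => R.cf_inj (by
    rw [Aut.cf_lin hA, R.cf_neg, ← sum_cf_single (R.cf r)]
    simp only [lin, wprod_apply, h3, R.cf_neg, R.cf_simple, sum_cf_single, smul_neg, Finset.sum_neg_distrib])
  have h5 : ∀ z, z ∈ Subgroup.center M.Group ↔ z = 1 ∨ z = wd M L := fun z => by
    refine ⟨fun hz => (cent_cases he h1 h2 hz).imp_right fun h => ?_, ?_⟩
    · rw [wd_eq he, ← e.symm_apply_eq]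
      exact Subtype.ext (R.eq_of_simple (R.W_le_Aut (e.symm z).2) hA fun k => (h k).trans (h4 _).symm)
    · rintro (rfl | rfl)
      · exact one_mem _
      · refine Subgroup.mem_center_iff.2 fun g => ?_
        obtain ⟨g, rfl⟩ := e.surjective g
        rw [wd_eq he, ← map_mul, ← map_mul]
        exact congrArg e (Subtype.ext (Equiv.ext fun r => by simp [h4, Aut.neg (R.W_le_Aut g.2)]))
  refine ⟨?_, fun z hz => ?_⟩
  · rw [Nat.card_congr (Equiv.subtypeEquivRight (q := (· ∈ ({1, wd M L} : Set _))) (by simpa using h5)),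
      Nat.card_coe_set_eq, Set.ncard_pair fun h => R.neg_ne (R.simple k0) ?_]
    rw [← h3]; exact ((weq he (L := [])).1 h k0).symm
  · rcases (h5 z).1 hz with rfl | rfl
    · exact one_mem _
    · rw [← hL, wd_flatten, List.map_replicate, List.prod_replicate]
      exact pow_mem (Subgroup.mem_zpowers _) _

theorem cent_one (h1 : ∀ i y, R.sref i y = R.neg y → y = R.simple i ∨ y = R.neg (R.simple i))
    (h2 : ∀ ε : Fin n → Bool, (∀ i j, ε i ≠ ε j → R.sref i (R.simple j) = R.simple j) → ∀ i j, ε i = ε j)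
    (L : List (Fin n)) (σ : Fin n → Fin n) (h3 : ∀ k, L.foldr R.sref (R.simple k) = R.neg (R.simple (σ k)))
    (k0 : Fin n) (h4 : R.simple (σ k0) ≠ R.simple k0) : Subgroup.center M.Group = ⊥ := by
  refine eq_bot_iff.2 fun z hz => (cent_cases he h1 h2 hz).resolve_right fun h => h4 ?_
  have h5 : ∀ k, ((e.symm z).1 * R.wprod L) (R.simple k) = R.simple (σ k) := fun k => by
    rw [Equiv.Perm.mul_apply, wprod_apply, h3, Aut.neg (R.W_le_Aut (e.symm z).2), h, R.neg_neg]
  rw [← h5, R.eq_one_of_pos_simple (mul_mem (e.symm z).2 (R.wprod_mem_W L)) fun k => h5 k ▸ R.pos_simple _]; rfl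

end H22.CoxW
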