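import Mathlib

/-! # Powers in finite cyclic groups -/

set_option autoImplicit false

namespace H22

theorem cyc_exists_pow_iff {B : Type*} [CommGroup B] [IsCyclic B] [Finite B] (a : B) (n : ℕ) :
    (∃ c, c ^ n = a) ↔ a ^ (Nat.card B / (Nat.card B).gcd n) = 1 := by
  have : (powMonoidHom n : B →* B).range = (powMonoidHom (Nat.card B / (Nat.card B).gcd n) : B →* B).ker :=
    Subgroup.eq_of_le_of_card_ge (fun x hx => by
      rw [MonoidHom.mem_ker, powMonoidHom_apply, ← IsCyclic.card_powMonoidHom_range]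
      exact congrArg Subtype.val (pow_card_eq_one' (x := (⟨x, hx⟩ : (powMonoidHom n : B →* B).range)))) (by
      rw [IsCyclic.card_powMonoidHom_ker, IsCyclic.card_powMonoidHom_range]
      exact Nat.gcd_le_right _ (Nat.div_pos (Nat.gcd_le_left _ Nat.card_pos) (Nat.gcd_pos_of_pos_left _ Nat.card_pos)))
  exact SetLike.ext_iff.1 this a

theorem fld_exists_pow_iff {F : Type*} [Field F] [Fintype F] {a : F} (ha : a ≠ 0) (n : ℕ) :
    (∃ c, c ≠ 0 ∧ c ^ n * a = 1) ↔ orderOf a ∣ (Fintype.card F - 1) / (Fintype.card F - 1).gcd n := by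
  have := cyc_exists_pow_iff (Units.mk0 a ha)⁻¹ n
  rw [Nat.card_units, Nat.card_eq_fintype_card, inv_pow, inv_eq_one, ← orderOf_dvd_iff_pow_eq_one,
    ← orderOf_units] at this
  refine Iff.trans ⟨fun ⟨c, h1, h2⟩ => ⟨Units.mk0 c h1, eq_inv_of_mul_eq_one_left (Units.ext h2)⟩,
    fun ⟨c, h⟩ => ⟨c, c.ne_zero, congrArg Units.val (eq_inv_iff_mul_eq_one.1 h)⟩⟩ this

theorem val_div_gcd (p : ℕ) [Fact p.Prime] {N n : ℕ} (hN : N ≠ 0) (hn : n ≠ 0) :
    padicValNat p (N / N.gcd n) = padicValNat p N - min (padicValNat p N) (padicValNat p n) := by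
  simp only [← Nat.factorization_def _ (Fact.out : p.Prime)]
  rw [Nat.factorization_div (Nat.gcd_dvd_left _ _), Nat.factorization_gcd hN hn]
  rfl

end H22
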