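import Cfsg.Agent.H22.EL9
import Cfsg.Agent.H12.StabBridge

/-! Elusive actions on subspaces: unitary groups. -/

set_option autoImplicit false

namespace H22

open Module Polynomial H12 H12.CForm Pointwise H25.El

variable {F V W : Type*} [Field F] [AddCommGroup V] [Module F V] [AddCommGroup W] [Module F W] {r : ℕ}
  {u : End F V} {U U' W₀ U₀ X Z A B : Submodule F V} {Ω : Submodule F V → Prop} {m n q : ℕ} {z : F}

theorem diag_mem {ι : Type*} [Fintype ι] [DecidableEq ι] {w : ι → F} {X : Submodule F (ι → F)}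
    (h : Iv (Matrix.toLin' (Matrix.diagonal w)) X) {j : ι} (hj : ∀ k ≠ j, w k ≠ w j) {x : ι → F} (hx : x ∈ X) :
    Pi.single j (x j) ∈ X := by
  have key : ∀ s : Finset ι, (fun i => (∏ k ∈ s, (w i - w k)) * x i) ∈ X := fun s => by
    induction s using Finset.induction_on with
    | empty => simpa
    | insert a s ha ih =>
      convert sub_mem (h _ ih) (X.smul_mem (w a) ih) using 1
      ext i; simp [Finset.prod_insert ha, Matrix.mulVec_diagonal]; ring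
  have h0 : ∏ k ∈ Finset.univ.erase j, (w j - w k) ≠ 0 :=
    Finset.prod_ne_zero_iff.2 fun k hk => sub_ne_zero.2 (hj k (Finset.ne_of_mem_erase hk)).symm
  convert X.smul_mem (∏ k ∈ Finset.univ.erase j, (w j - w k))⁻¹ (key (Finset.univ.erase j)) using 1
  ext i
  by_cases e : i = j
  · subst e; simp [h0]
  · simp [e, Finset.prod_eq_zero (f := fun k => w i - w k) (Finset.mem_erase.2 ⟨e, Finset.mem_univ i⟩) (sub_self (w i))]

theorem prod_zpow₀ {ι : Type*} (h : z ≠ 0) (s : Finset ι) (f : ι → ℤ) : ∏ i ∈ s, z ^ f i = z ^ ∑ i ∈ s, f i := by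
  induction s using Finset.cons_induction with
  | empty => simp
  | cons a s ha ih => rw [Finset.prod_cons, Finset.sum_cons, ih, zpow_add₀ h]

theorem ord_two_iff [Fact r.Prime] (h : r ≠ 2) : orderOf (q : ZMod r) = 2 ↔ r ∣ q + 1 := by
  rw [← ZMod.natCast_eq_zero_iff, Nat.cast_succ, ← eq_neg_iff_add_eq_zero]
  have h2 : (-1 : ZMod r) ≠ 1 := fun e => h ((Nat.prime_dvd_prime_iff_eq Fact.out Nat.prime_two).1
    ((ZMod.natCast_eq_zero_iff 2 r).1 (by push_cast; linear_combination -e)))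
  refine ⟨fun e => (sq_eq_one_iff.1 (e ▸ pow_orderOf_eq_one _)).resolve_left fun e' => by simp [e'] at e, fun e => ?_⟩
  rw [e]; exact orderOf_eq_prime (by simp) h2

variable [Fintype F] (hF : Fintype.card F = q ^ 2)
include hF

theorem succ_dvd_card : q + 1 ∣ Nat.card F - 1 :=
  ⟨q - 1, by rw [Nat.card_eq_fintype_card, hF, ← Nat.sq_sub_sq, one_pow]⟩

theorem cast_ne_of_dvd (h : r ∣ q + 1) : (r : F) ≠ 0 := fun e => by
  obtain ⟨k, hk⟩ := h
  have h1 : (q : F) ^ 2 = 0 := by rw [← Nat.cast_pow, ← hF]; exact FiniteField.cast_card_eq_zero F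
  have := congrArg (Nat.cast (R := F)) hk
  simp [e, pow_eq_zero_iff two_ne_zero |>.1 h1] at this

theorem not_el_diag (w : Fin n → F) (h1 : ∀ i, w i ^ (q + 1) = 1) (h2 : ∏ i, w i = 1) (h3 : ∀ i, w i ^ r = z)
    (S : Finset (Fin n)) (hS : ∀ j ∈ S, ∀ k ≠ j, w k ≠ w j) (hn : 2 ≤ n) (h0 : 2 * m ≤ n) (hm : n < 2 * m + S.card)
    {Ω : Submodule F (Fin n → F) → Prop} (hΩ : ∀ X, Ω X → finrank F X = m ∧ (H11.hermC (Fin n) hF).TS X) :
    ¬ El (InS (H11.hermC (Fin n) hF)) r Ω := fun H => by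
  have hC := H11.hermC_nondeg (ι := Fin n) hF
  have a1 : ∀ x y, (H11.hermC (Fin n) hF).B (Matrix.toLin' (Matrix.diagonal w) x) (Matrix.toLin' (Matrix.diagonal w) y) =
      (H11.hermC (Fin n) hF).B x y := fun x y => by
    simp only [H11.hermC_B, Matrix.toLin'_apply, Matrix.mulVec_diagonal]
    exact Finset.sum_congr rfl fun i _ => by linear_combination (y i * x i ^ q) * h1 i
  obtain ⟨j, hj⟩ := Finset.card_pos.1 (show 0 < S.card by omega)
  have := Fin.nontrivial_iff_two_le.2 hn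
  obtain ⟨X, b1, b2⟩ := H _ ⟨⟨a1, fun x => a1 x x⟩, by simp [h2]⟩ ⟨z, by
    rw [← Matrix.toLin'_pow, toLin'_eq_alg, Matrix.diagonal_pow, Matrix.smul_one_eq_diagonal]; congr 1; ext; simp [h3]⟩
    fun c e => by
      obtain ⟨k, hk⟩ := exists_ne j
      rw [toLin'_eq_alg, Matrix.smul_one_eq_diagonal, Matrix.diagonal_eq_diagonal_iff] at e
      exact hS j hj k hk ((e k).trans (e j).symm)
  obtain ⟨rfl, b3⟩ := hΩ X b1
  have hq := H11.two_le_of_card_sq hF
  have c1 : ((H11.hermC (Fin n) hF).gram fun j : S => Pi.single j.1 (1 : F)).det ≠ 0 := by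
    rw [show CForm.gram _ _ = 1 by
      ext a b; simp [H11.hermC_B, Pi.single_apply, Matrix.one_apply, show q ≠ 0 by omega, Subtype.val_inj]]
    simp
  have c2 := nondegOn_span_of_det_gram c1
  have c3 := hC.finrank_add_finrank_perp (Submodule.span F (Set.range fun j : S => Pi.single j.1 (1 : F)))
  rw [finrank_span_eq_card (linearIndependent_of_det_gram c1)] at c3
  have := HasTS.two_mul_le (hC.restrict_perp c2) (hasTS_restrict.2 ⟨X, fun x hx => (mem_perp_span _).2 ?_, b3, rfl⟩)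
  · simp at c3; omega
  · rintro _ ⟨j, rfl⟩
    simpa [H11.hermC_N, H11.hermC_B, Pi.single_apply, show q ≠ 0 by omega, apply_ite] using
      b3.1 _ (diag_mem b2 (hS j j.2) hx)

variable [FiniteDimensional F V] [FiniteDimensional F W] {hF} {C : CForm (H11.hermT hF) V}

theorem exists_sub_herm (hC : C.Nondeg) (hZ : C.NondegOn Z) {k : ℕ} (h : k ≤ finrank F Z) :
    ∃ X ≤ Z, C.NondegOn X ∧ finrank F X = k := by
  obtain ⟨X, b1, b2, b3⟩ := exists_emb hC hZ (H11.hermC_nondeg (ι := Fin k) hF) (hermT_iso hF (cprod_nondeg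
    (H11.hermC_nondeg hF) (H11.hermC_nondeg (ι := Fin (finrank F Z - k)) hF)) (C.restrict_nondeg_iff.2 hZ) (by simp; omega))
  exact ⟨X, b1, b2, by simpa using b3.finrank_eq.symm⟩

theorem herm_nd_iff (hW : C.NondegOn W₀) (X : Submodule F V) :
    C.NondegOn X ∧ finrank F X = finrank F W₀ ↔ (C.restrict X).Iso (C.restrict W₀) :=
  have := C.restrict_nondeg_iff.2 hW
  ⟨fun h => hermT_iso hF (C.restrict_nondeg_iff.2 h.1) this h.2,
    fun h => ⟨C.restrict_nondeg_iff.1 (h.symm.nondeg this), h.finrank_eq⟩⟩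

variable [hr : Fact r.Prime]

section nl
variable (hd : r ∣ q + 1) (h1 : z ^ (q + 1) = 1) (h2 : z ^ ((q + 1) / r) ≠ 1)
include hd

omit [FiniteDimensional F V] [FiniteDimensional F W] in
variable (hF) in
theorem exists_primU : ∃ ζ : F, IsPrimitiveRoot ζ r :=
  let ⟨ζ, h⟩ := exists_root_of_order (hd.trans (succ_dvd_card hF)); ⟨ζ, h ▸ IsPrimitiveRoot.orderOf ζ⟩

include h1 h2

omit [FiniteDimensional F V] [FiniteDimensional F W] in
variable (hF) in
theorem nl_root {l : F} (h : l ^ r = z) : r = 2 ∧ l ^ q * l = -1 := by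
  have a1 : (l ^ (q + 1)) ^ r = 1 := by rw [← pow_mul, mul_comm, pow_mul, h, h1]
  have a2 : l ^ (q + 1) ≠ 1 := fun e => h2 (by rw [← h, ← pow_mul, Nat.mul_div_cancel' hd, e])
  have hq := H11.two_le_of_card_sq hF
  have a3 : (l ^ (q + 1)) ^ (q - 1) = 1 := by
    rw [← pow_mul, ← Nat.sq_sub_sq, one_pow, ← hF]
    exact FiniteField.pow_card_sub_one_eq_one _ (by rintro rfl; simp [hr.out.ne_zero] at a1)
  have a4 := orderOf_dvd_of_pow_eq_one a3
  rw [orderOf_eq_prime a1 a2] at a4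
  obtain rfl : r = 2 := (Nat.prime_dvd_prime_iff_eq hr.out Nat.prime_two).1 (by
    simpa [show q + 1 - (q - 1) = 2 by omega] using Nat.dvd_sub hd a4)
  exact ⟨rfl, by simpa [pow_succ] using (sq_eq_one_iff.1 a1).resolve_left a2⟩

theorem nl_type (hC : C.Nondeg) (hu : InI C u) (h : u ^ r = algebraMap F _ z) :
    ∃ N, finrank F V = r * N ∧ HasType u (.replicate N (Polynomial.X ^ r - Polynomial.C z)) := by
  obtain ⟨ζ, hζ⟩ := exists_primU hF hd
  have key : ∀ l, l ^ r = z → r * kd u (Polynomial.X - Polynomial.C l) = finrank F V := fun l hl => by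
    obtain ⟨rfl, e⟩ := nl_root hF hd h1 h2 hl
    exact two_mul_kd (by simpa using cast_ne_of_dvd hF hd) hC hu h hl e
  obtain ⟨N, hN⟩ : r ∣ finrank F V := by
    by_cases e : ∃ l, l ^ r = z
    exacts [let ⟨l, hl⟩ := e; ⟨_, (key l hl).symm⟩, dvd_of_pow hr.out hζ (not_exists.1 e) h]
  have h0 : ∀ a ∈ Multiset.replicate N (Polynomial.X ^ r - Polynomial.C z), a ≠ 0 := fun a ha => by
    rw [Multiset.eq_of_mem_replicate ha]; exact X_pow_sub_C_ne_zero hr.out.pos z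
  obtain ⟨A, hA⟩ := exists_of_type (V := V) h0 (by simp [hN, mul_comm])
  have := (hA.aeval_eq_zero_iff h0 (Polynomial.X ^ r - Polynomial.C z)).2 fun a ha => by rw [Multiset.eq_of_mem_replicate ha]
  refine ⟨N, hN, hA.of_sim (sim_of_pow hr.out hζ (by rintro rfl; simp at h1) (by simpa [sub_eq_zero] using this) h rfl
    fun l hl => Nat.eq_of_mul_eq_mul_left hr.out.pos ?_)⟩
  rw [key l hl, hA, Multiset.map_replicate, Multiset.sum_replicate, dg_comm, dg_of_dvd (dvd_iff_isRoot.2 (by simp [hl])), hN]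
  simp

theorem nl_det (hC : C.Nondeg) (hu : InI C u) (h : u ^ r = algebraMap F _ z) :
    ∃ N, finrank F V = r * N ∧ LinearMap.det u = ((-1) ^ (r + 1) * z) ^ N := by
  obtain ⟨N, a, b⟩ := nl_type hd h1 h2 hC hu h
  refine ⟨N, a, ?_⟩
  rw [LinearMap.det_eq_sign_charpoly_coeff, H27.Sp.charpoly_of_type (fun a ha => by
    rw [Multiset.eq_of_mem_replicate ha]; exact monic_X_pow_sub_C _ hr.out.ne_zero) b, a, coeff_zero_eq_eval_zero]
  simp [hr.out.ne_zero, pow_mul, ← mul_pow, pow_succ]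

theorem nl_fp (hC : C.Nondeg) : FP C r z := fun u u' a b c d => by
  obtain ⟨N, a1, a2⟩ := nl_type hd h1 h2 hC a c
  obtain ⟨N', a3, a4⟩ := nl_type hd h1 h2 hC b d
  obtain rfl := Nat.eq_of_mul_eq_mul_left hr.out.pos (a1.symm.trans a3)
  exact herm_fsim (H11.frob_ne_id hF) hC hC a b (a2.sim a4)

omit [FiniteDimensional F V] [FiniteDimensional F W] in
theorem nl_sq (h : r = 2) : ∃ l, l ^ r = z := by
  subst h
  obtain ⟨k, hk⟩ := hd
  have hq := H11.two_le_of_card_sq hF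
  obtain ⟨l, hl⟩ := (FiniteField.isSquare_iff (ringChar_ne_two_iff.2 (by simpa using cast_ne_of_dvd hF ⟨k, hk⟩))
    (a := z) (by rintro rfl; simp at h1)).2 (by
      rw [hF, show q ^ 2 / 2 = (q + 1) * (k - 1) by
        obtain ⟨k, rfl⟩ : ∃ j, k = j + 1 := ⟨k - 1, by omega⟩
        rw [show q = 2 * k + 1 by omega]; simp; ring_nf; omega, pow_mul, h1, one_pow])
  exact ⟨l, by rw [hl, sq]⟩

theorem nl_rp (hC : C.Nondeg) : Rp C r z ↔ r ∣ finrank F V := by
  refine ⟨fun ⟨u, a, b⟩ => let ⟨N, c, _⟩ := nl_type hd h1 h2 hC a b; ⟨N, c⟩, fun h => ?_⟩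
  by_cases e : r = 2
  · obtain ⟨l, hl⟩ := nl_sq (hF := hF) hd h1 h2 e
    obtain ⟨N, hN⟩ := h
    exact rp_of_hasTS (cast_ne_of_dvd hF hd) hC (hermT_hasTS hF N hC (e ▸ hN.ge)) (e ▸ hN) ((pow_succ z q).symm.trans h1) hl
  · obtain ⟨ζ, hζ⟩ := exists_primU hF hd
    obtain ⟨A, hA⟩ := exists_pow_of_dvd hr.out z h
    obtain ⟨S, hS⟩ := exists_SQ_of_pow hr.out hζ (H11.frob_frob hF) hA ((pow_succ' z q).symm.trans h1)
      fun l hl => (e (nl_root hF hd h1 h2 hl).1).elim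
    obtain ⟨D, a, b⟩ := exists_herm (H11.frob_ne_id hF) S hS
    exact Rp.iso ⟨A, b, hA⟩ (hermT_iso hF a hC rfl) hC

end nl

theorem el_su_of [Nontrivial V] (hd : r ∣ q + 1) (hC : C.Nondeg) (hn : finrank F V = n)
    (H1 : ∀ u (l : F), InI C u → l ^ (q + 1) = 1 → l ^ n * LinearMap.det u = 1 → u ^ r = 1 → (∀ z, u ≠ algebraMap F _ z) →
      ∃ X, Ω X ∧ Iv u X) (H2 : NLc r (q + 1) n → ∀ u z, InI C u → u ^ r = algebraMap F _ z → z ^ (q + 1) = 1 →
        z ^ ((q + 1) / r) ≠ 1 → ∃ X, Ω X ∧ Iv u X) : El (InS C) r Ω := by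
  rintro u ⟨a, b⟩ ⟨z, c⟩ d
  have h1 : z ^ (q + 1) = 1 := (pow_succ z q).trans (norm_of_isom hC (c ▸ isom_pow a r))
  by_cases h2 : z ^ ((q + 1) / r) = 1
  · obtain ⟨l, a1, rfl⟩ := exists_pow_of (succ_dvd_card hF) h1 (.inr h2)
    have h0 : l ≠ 0 := by rintro rfl; simp at a1
    simpa only [iv_smul (inv_ne_zero h0)] using H1 (l⁻¹ • u) l (isom_smul a (by
      change l⁻¹ ^ q * l⁻¹ = 1
      rw [← pow_succ, inv_pow, a1, inv_one])) a1 (by simp [hn, b, h0]) (smul_pow_one h0 c) fun z e => d (l * z) (by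
        rw [map_mul, ← e, ← Algebra.smul_def, smul_inv_smul₀ h0])
  · obtain ⟨N, a1, a2⟩ := nl_det hd h1 h2 hC a c
    exact H2 (nlc_of (succ_dvd_card hF) hd (hn ▸ finrank_pos.ne') (hn ▸ a1) h1 h2 (a2 ▸ b)) u z a c h1 h2

theorem El.su_nl [Nontrivial V] (H : El (InS C) r Ω) (hd : r ∣ q + 1) (hC : C.Nondeg) (h : NLc r (q + 1) (finrank F V)) :
    ∃ u z X, InI C u ∧ u ^ r = algebraMap F _ z ∧ z ^ (q + 1) = 1 ∧ z ^ ((q + 1) / r) ≠ 1 ∧ Ω X ∧ Iv u X := by
  obtain ⟨z, N, a1, a2, a3, a4⟩ := h.exists (F := F) (succ_dvd_card hF) hd finrank_pos.ne'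
  obtain ⟨u, b1, b2⟩ := (nl_rp hd a2 a3 hC).2 ⟨N, a1⟩
  obtain ⟨N', b3, b4⟩ := nl_det hd a2 a3 hC b1 b2
  obtain rfl := Nat.eq_of_mul_eq_mul_left hr.out.pos (a1.symm.trans b3)
  obtain ⟨X, c1, c2⟩ := H u ⟨b1, b4.trans a4⟩ ⟨z, b2⟩ fun c e => a3 (by
    subst e
    rw [← map_pow, (FaithfulSMul.algebraMap_injective _ _).eq_iff] at b2
    rw [← b2, ← pow_mul, Nat.mul_div_cancel' hd, pow_succ]
    exact norm_of_isom hC b1)
  exact ⟨u, z, X, b1, b2, a2, a3, c1, c2⟩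

section gu
variable (h0 : (r : F) ≠ 0) (h2 : r ≠ 2) {i b c : ℕ} (hi : i = orderOf (q : ZMod r)) (hb : b = if Even i then i / 2 else i)
  (hc : c = if i % 4 = 0 then i else if i % 4 = 2 then i / 2 else 2 * i) (hC : C.Nondeg) (hn : finrank F V = n)
include h0 h2 hi hb hc hC hn

theorem nd_gu (hW : C.NondegOn W₀) (hm : finrank F W₀ = m) (hΩ : ∀ X, Ω X ↔ (C.restrict X).Iso (C.restrict W₀))
    (h : r ∣ Nat.card {X // Ω X}) : (∀ u, InI C u → u ^ r = 1 → u ≠ 1 → ∃ X, Ω X ∧ Iv u X) ↔ c ≤ m ∧ m % c ≤ n % c := by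
  obtain ⟨δ, a1, a2, a4, a5, a3⟩ := dl_herm (hr := hr.out) (h0 := h0) hF h2 hi hb hc
  have e := hC.finrank_add_finrank_perp W₀
  obtain ⟨c1, c2, c3⟩ := nd_main (C := C) a1 hC hW (fs_herm hC) (mx_herm a5 hC a1 a2)
    (mx_herm a5 (C.restrict_nondeg_iff.2 hW) a1 a2) (mx_herm a5 (hC.restrict_perp hW) a1 a2) hΩ h
  rw [c1]
  rw [show finrank F (C.perp W₀) = n - m by omega, hn, hm] at *
  have := sub_div_mod (c := c) (m := m) (n := n) (a2 ▸ mul_pos a1.pos a4) (by omega)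
  omega

theorem ts_gu (hm : 2 * m ≤ n) (hΩ : ∀ X, Ω X ↔ finrank F X = m ∧ C.TS X) (h : r ∣ Nat.card {X // Ω X}) :
    (∀ u, InI C u → u ^ r = 1 → u ≠ 1 → ∃ X, Ω X ∧ Iv u X) ↔
      b ≤ m ∧ 2 * (m % b) ≤ n % c ∧ (i % 4 ≠ 2 ∨ (r - 1) / b + 2 * (m / b) ≤ n / b) := by
  obtain ⟨δ, a1, a2, a4, a5, a3⟩ := dl_herm (hr := hr.out) (h0 := h0) hF h2 hi hb hc
  obtain ⟨U, b1, b2⟩ := hermT_hasTS hF m hC (by omega)
  obtain ⟨H, b3, b4, b5⟩ := exists_hypS hC b1
  have e := hC.finrank_add_finrank_perp H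
  obtain ⟨c1, c2⟩ := ts_main (C := C) a5 a1 hC b3 b1 b4 b2 (b2 ▸ b5) (fs_herm hC) (mx_herm a5 hC a1 a2)
    (mx_herm a5 (hC.restrict_perp b3) a1 a2) hΩ h
  rw [c1]
  rw [show finrank F (C.perp H) = n - 2 * m by omega, hn] at *
  have := sub_div_mod (c := c) (m := 2 * m) (n := n) (a2 ▸ mul_pos a1.pos a4) (by omega)
  have := two_div_mod (m := m) a4
  have := (Nat.div_pos_iff (a := m)).trans (and_iff_right a4)
  have := Nat.mul_div_mul_left m b two_pos
  have := Nat.mul_mod_mul_left 2 m b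
  clear hb hc a5
  rcases a3 with ⟨rfl, a3⟩ | ⟨rfl, a3⟩
  · rw [one_mul] at a2; subst a2; omega
  · subst a2; omega

end gu

omit [FiniteDimensional F W] in
theorem el_su_gu [Nontrivial V] (hd : ¬ r ∣ q + 1) (hC : C.Nondeg) :
    El (InS C) r Ω ↔ ∀ u, InI C u → u ^ r = 1 → u ≠ 1 → ∃ X, Ω X ∧ Iv u X :=
  el_S hC fun z h h' => by_contra fun e => hd (orderOf_eq_prime h' e ▸ orderOf_dvd_of_pow_eq_one ((pow_succ z q).trans h))

theorem nd_su [Nontrivial V] (hd : r ∣ q + 1) (hC : C.Nondeg) (hW : C.NondegOn W₀)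
    (hΩ : ∀ X, Ω X ↔ (C.restrict X).Iso (C.restrict W₀))
    (H : r ≠ 2 → ∀ u, InI C u → u ^ r = 1 → u ≠ 1 → ∃ X, Ω X ∧ Iv u X) :
    El (InS C) r Ω ↔ r ∣ finrank F W₀ ∨ ¬ NLc r (q + 1) (finrank F V) := by
  have n1 := C.restrict_nondeg_iff.2 hW
  have e := hC.finrank_add_finrank_perp W₀
  refine ⟨fun h => or_iff_not_imp_right.2 fun h' => ?_, fun h => el_su_of hd hC rfl (fun u l a _ _ b c => ?_)
    fun h' u z a b c d => ?_⟩
  · obtain ⟨u, z, X, a, b, c, d, e, f⟩ := h.su_nl hd hC (not_not.1 h')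
    exact (nl_rp hd c d n1).1 ((nd_pow hC hW (nl_fp hd c d hC) a b).1 ⟨X, (hΩ X).1 e, f⟩).1
  · by_cases h2 : r = 2
    · subst h2
      obtain ⟨Z, a1, a2⟩ := inv_split (by simpa using cast_ne_of_dvd hF hd) hC a b
      have := hC.finrank_add_finrank_perp Z
      obtain ⟨A, b1, b2, b3⟩ := exists_sub_herm hC a1 (min_le_left _ (finrank F W₀))
      obtain ⟨B, b4, b5, b6⟩ := exists_sub_herm hC (hC.nondegOn_perp a1) (k := finrank F W₀ - finrank F Z) (by omega)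
      have h := b4.trans (C.perp_anti b1)
      exact ⟨_, (hΩ _).2 ((herm_nd_iff hW _).1 ⟨nondegOn_sup b2 b5 h, by rw [finrank_sup_orth b2 h]; omega⟩), a2.iv b1 b4⟩
    · exact H h2 u a b fun e => c 1 (by simp [e])
  · have h1 := h.resolve_right (not_not.2 h')
    simpa only [hΩ] using (nd_pow hC hW (nl_fp hd c d hC) a b).2 ⟨(nl_rp hd c d n1).2 h1,
      (nl_rp hd c d (hC.restrict_perp hW)).2 ((Nat.dvd_add_right h1).1 (e ▸ h'.1))⟩

theorem ts_nl (hd : r ∣ q + 1) (hC : C.Nondeg) (hm : 2 * m ≤ finrank F V) (h : r = 2 ∨ r ∣ m) (h' : r ∣ finrank F V)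
    (a : InI C u) (b : u ^ r = algebraMap F _ z) (c : z ^ (q + 1) = 1) (d : z ^ ((q + 1) / r) ≠ 1) :
    ∃ X : Submodule F V, (finrank F X = m ∧ C.TS X) ∧ Iv u X :=
  ts_pow (cast_ne_of_dvd hF hd) ((pow_succ z q).symm.trans c) hC (hermT_hasTS hF m hC hm) (nl_fp hd c d hC) a b hr.out
    (h.imp_left (nl_sq (hF := hF) hd c d)) fun H h1 _ h2 => (nl_rp hd c d (hC.restrict_perp h1)).2 ((Nat.dvd_add_right
      (h2 ▸ h.elim (fun e => e ▸ dvd_mul_right _ _) (dvd_mul_of_dvd_right · _))).1 (hC.finrank_add_finrank_perp H ▸ h'))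

variable (hF) {Ω : Submodule F (Fin n → F) → Prop} (hn : 2 ≤ n) (hm : 2 * m ≤ n)
  (hΩ : ∀ X, Ω X ↔ finrank F X = m ∧ (H11.hermC (Fin n) hF).TS X)
include hn hm hΩ

omit hr in
theorem ts_su_two (hd : 2 ∣ q + 1) :
    El (InS (H11.hermC (Fin n) hF)) 2 Ω ↔ 2 * m < n ∨ padicValNat 2 (q + 1) ≤ padicValNat 2 n := by
  have hC := H11.hermC_nondeg (ι := Fin n) hF
  have h2 : (2 : F) ≠ 0 := by simpa using cast_ne_of_dvd hF hd
  have h3 : (-1 : F) ≠ 1 := fun e => h2 (by linear_combination -e)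
  obtain ⟨n, rfl⟩ : ∃ k, n = k + 1 := ⟨n - 1, by omega⟩
  refine ⟨fun H => by_contra fun h => ?_, fun h => el_su_of hd hC (finrank_fin_fun F) (fun u l a b c d _ => ?_)
    fun h' u z a b c d => ?_⟩
  · push Not at h
    obtain ⟨a, k, hk, e⟩ := Nat.exists_eq_two_pow_mul_odd n.add_one_ne_zero
    have h4 : 2 ^ (a + 1) ∣ q + 1 := (padicValNat_dvd_iff_le q.add_one_ne_zero).2 (by
      rw [e, padicValNat.mul (by simp) hk.pos.ne', padicValNat.prime_pow] at h; omega)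
    obtain ⟨l, hl⟩ := exists_root_of_order (h4.trans (succ_dvd_card hF))
    have h5 : l ^ 2 ^ a = -1 := (sq_eq_one_iff.1 (by rw [← pow_mul, ← pow_succ, ← hl, pow_orderOf_eq_one])).resolve_left
      fun e => by have := Nat.le_of_dvd (by simp) (hl ▸ orderOf_dvd_of_pow_eq_one e); rw [pow_succ] at this; simp at this
    have h6 : l ^ (q + 1) = 1 := orderOf_dvd_iff_pow_eq_one.1 (hl ▸ h4)
    have h7 : l ≠ 0 := by rintro rfl; simp at h6
    refine not_el_diag hF (z := l ^ 2) (Fin.cons (-l) fun _ => l) (Fin.cases (by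
      simp [(even_iff_two_dvd.2 hd).neg_pow, h6]) fun _ => h6) ?_ (Fin.cases (by simp) fun _ => rfl) {0} ?_ hn hm
      (by simp; omega) (fun X => (hΩ X).1) H
    · rw [Fin.prod_cons, Finset.prod_const, Finset.card_univ, Fintype.card_fin, neg_mul, ← pow_succ', e,
        pow_mul, h5, hk.neg_one_pow, neg_neg]
    · simp only [Finset.mem_singleton, forall_eq]
      exact Fin.cases (by simp) fun _ _ e => h3 (mul_right_cancel₀ h7 (by simpa using e.symm))
  · obtain ⟨Z, a1, a2⟩ := inv_split h2 hC a d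
    have := hC.finrank_add_finrank_perp Z
    rw [Module.finrank_fin_fun] at this
    have h4 : 2 * m < n + 1 ∨ finrank F Z % 2 = 0 := h.imp_right fun h => by_contra fun e => by
      rw [a2.det hC a1, Odd.neg_one_pow (by grind), mul_neg_one, neg_eq_iff_eq_neg] at c
      have a3 : orderOf l ∣ 2 * (n + 1) := orderOf_dvd_of_pow_eq_one (by rw [mul_comm, pow_mul, c]; simp)
      have a4 := dvd_div_of_val (r := 2) (by simp) a3 (by
        have := (padicValNat_dvd_iff_le (p := 2) q.add_one_ne_zero).1 (pow_padicValNat_dvd.trans (orderOf_dvd_of_pow_eq_one b))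
        rw [padicValNat.mul (by simp) (by simp), padicValNat_self]; omega)
      rw [Nat.mul_div_cancel_left _ two_pos, orderOf_dvd_iff_pow_eq_one, c] at a4
      exact h3 a4
    simp only [hΩ]
    exact (a2.ts_iff hC a1 h2).2 ⟨min (finrank F Z / 2) m, m - finrank F Z / 2, by omega,
      hermT_hasTS hF _ ((H11.hermC _ hF).restrict_nondeg_iff.2 a1) (by omega), hermT_hasTS hF _ (hC.restrict_perp a1) (by omega)⟩
  · simpa only [hΩ] using ts_nl hd hC (by simpa) (.inl rfl) (by simpa using h'.1) a b c d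

theorem ts_su_odd (h2 : r ≠ 2) (hd : r ∣ q + 1) (h0 : 0 < m) (H : r - 1 + 2 * m ≤ n →
    ∀ u, InI (H11.hermC (Fin n) hF) u → u ^ r = 1 → u ≠ 1 → ∃ X, Ω X ∧ Iv u X) :
    El (InS (H11.hermC (Fin n) hF)) r Ω ↔ r - 1 + 2 * m ≤ n ∧ (r ∣ m ∨ ¬ NLc r (q + 1) n) := by
  have hC := H11.hermC_nondeg (ι := Fin n) hF
  have := Fin.nontrivial_iff_two_le.2 hn
  obtain ⟨ζ, hζ⟩ := exists_primU hF hd
  refine ⟨fun h => ⟨by_contra fun h' => ?_, or_iff_not_imp_right.2 fun h' => ?_⟩, fun h => el_su_of hd hC (finrank_fin_fun F)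
    (fun u l a _ _ b c => H h.1 u a b fun e => c 1 (by simp [e])) fun h' u z a b c d => ?_⟩
  · obtain ⟨k, rfl⟩ := hr.out.odd_of_ne_two h2
    obtain ⟨s, t, a1, a2, a3, rfl⟩ : ∃ s t, s % 2 = 0 ∧ s ≤ 2 * k ∧ t < 2 * m ∧ n = s + t :=
      ⟨(n - 2 * m) / 2 * 2 + 2, n - ((n - 2 * m) / 2 * 2 + 2), by omega⟩
    have h1 : ∀ a : ℤ, (ζ ^ a) ^ (2 * k + 1) = 1 := fun a => by
      rw [← zpow_natCast, ← zpow_mul, mul_comm, zpow_mul, zpow_natCast, hζ.pow_eq_one, one_zpow]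
    have h3 : ∀ a b : ℤ, ζ ^ a = ζ ^ b → ((2 * k + 1 : ℕ) : ℤ) ∣ a - b := fun a b e => (hζ.zpow_eq_one_iff_dvd _).1 (by
      rw [zpow_sub₀ (hζ.ne_zero (by simp)), e, div_self (zpow_ne_zero _ (hζ.ne_zero (by simp)))])
    refine not_el_diag hF (z := 1) (fun j => ζ ^ (if j.1 < s then 2 * (j.1 : ℤ) + 1 - s else 0)) (fun j => ?_) ?_
      (fun j => h1 _) (Finset.univ.filter (·.1 < s)) (fun j hj i hi e => ?_) hn hm ?_ (fun X => (hΩ X).1) h
    · obtain ⟨c, hc⟩ := hd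
      rw [hc, pow_mul, h1, one_pow]
    · rw [prod_zpow₀ (hζ.ne_zero (by simp)),
        Fin.sum_univ_eq_sum_range (fun j => if j < s then 2 * (j : ℤ) + 1 - s else 0), Finset.sum_range_add,
        Finset.sum_congr rfl fun j hj => if_pos (Finset.mem_range.1 hj), Finset.sum_eq_zero (s := .range t) fun j _ => by simp]
      have : ∀ a : ℕ, ∑ j ∈ Finset.range a, (2 * (j : ℤ) + 1 - s) = a * (a - s) := fun a => by
        induction a with
        | zero => simp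
        | succ a ih => rw [Finset.sum_range_succ, ih]; push_cast; ring
      simp [this]
    · obtain ⟨c, hc⟩ := h3 _ _ e
      have a4 := (Finset.mem_filter.1 hj).2
      have := Fin.val_ne_of_ne hi
      rw [if_pos a4] at hc
      push_cast at hc
      have : -2 < c ∧ c < 2 := by zify at a2 a4; split_ifs at hc with h <;> zify at h <;> constructor <;> nlinarith
      obtain rfl | rfl | rfl : c = -1 ∨ c = 0 ∨ c = 1 := by omega
      all_goals split_ifs at hc <;> omega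
    · rw [Fin.card_filter_val_lt]; omega
  · obtain ⟨u, z, X, a, b, c, d, e, f⟩ := h.su_nl hd hC (by simpa using h')
    exact ((hΩ X).1 e).1 ▸ dvd_of_pow hr.out hζ (fun l hl => h2 (nl_root hF hd c d hl).1) (restrict_pow_eq b f)
  · simpa only [hΩ] using ts_nl hd hC (by simpa) (.inr (h.2.resolve_right (not_not.2 h'))) (by simpa using h'.1) a b c d

end H22
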