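import Cfsg.Agent.H22.EL5
import Cfsg.Agent.H25.El4

/-! Elusive actions on subspaces: involutions in odd characteristic. -/

set_option autoImplicit false

namespace H22

open Module Polynomial H12 H12.CForm Pointwise QuadraticMap

variable {F V W : Type*} [Field F] [AddCommGroup V] [Module F V] [AddCommGroup W] [Module F W] {r : ℕ}
  {u : End F V} {U U' W₀ U₀ X Z A B : Submodule F V} {T : FormType F} {C : CForm T V} {C' : CForm T W}
  {Ω : Submodule F V → Prop} {G : End F V → Prop} {Q : QuadraticForm F V} {z : F}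

theorem iso_cprod_comm : (cprod C C').Iso (cprod C' C) :=
  ⟨LinearEquiv.prodComm F V W, fun _ _ => add_comm _ _, fun _ => add_comm _ _⟩

theorem iso_comap (e : W ≃ₗ[F] V) : (C.comap e.toLinearMap).Iso C := ⟨e, fun _ _ => rfl, fun _ => rfl⟩

variable [FiniteDimensional F V] [FiniteDimensional F W]

theorem iso_split (hC : C.Nondeg) (hA : C.NondegOn A) : (cprod (C.restrict A) (C.restrict (C.perp A))).Iso C := by
  have h1 := iso_sup hA (le_refl (C.perp A))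
  rw [(hC.isCompl_perp hA).sup_eq_top] at h1
  exact h1.trans iso_restrict_top

theorem hasTS_cprod_of {k l : ℕ} (h : C.HasTS k) (h' : C'.HasTS l) : (cprod C C').HasTS (k + l) := by
  obtain ⟨U, a, rfl⟩ := h
  obtain ⟨U', b, rfl⟩ := h'
  refine ⟨U.prod U', ⟨fun x hx => by simp [cprod_N, a.1 _ hx.1, b.1 _ hx.2],
    fun x hx y hy => by simp [cprod_B, a.2 _ hx.1 _ hy.1, b.2 _ hx.2 _ hy.2]⟩, ?_⟩
  rw [← finrank_prod]
  exact LinearEquiv.finrank_eq
    { toFun x := (⟨x.1.1, x.2.1⟩, ⟨x.1.2, x.2.2⟩), invFun x := ⟨(x.1, x.2), x.1.2, x.2.2⟩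
      map_add' _ _ := rfl, map_smul' _ _ := rfl, left_inv _ := rfl, right_inv _ := rfl }

theorem exists_sub_alt {C : CForm (altType F) V} (hC : C.Nondeg) (hZ : C.NondegOn Z) {k : ℕ} (h : 2 * k ≤ finrank F Z) :
    ∃ X ≤ Z, C.NondegOn X ∧ finrank F X = 2 * k := by
  have hZ' := C.restrict_nondeg_iff.2 hZ
  obtain ⟨a, ha⟩ := alt_even hZ'
  obtain ⟨X, b1, b2, b3⟩ := exists_emb hC hZ (H11.spForm_nondeg (ι := Fin k)) (alt_iso (cprod_nondeg H11.spForm_nondeg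
    (H11.spForm_nondeg (ι := Fin (a - k)))) hZ' (by simp; omega))
  exact ⟨X, b1, b2, by simpa [two_mul] using b3.finrank_eq.symm⟩

theorem rp_alt {C : CForm (altType F) V} (hC : C.Nondeg) : Rp C 2 (-1) :=
  let ⟨a, ha⟩ := alt_even hC
  Rp.iso ⟨Matrix.toLin' (Matrix.J (Fin a) F), ⟨(H11.mem_symplecticGroup_iff _).1 (SymplecticGroup.J_mem _ _), fun _ => rfl⟩,
    by rw [← Matrix.toLin'_pow, pow_two, Matrix.J_squared]; simp [End.one_eq_id]⟩ (alt_iso_spForm hC ha).symm hC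

theorem el_two_odd [Nontrivial V] (h2 : (2 : F) ≠ 0) (hσ : ∀ a, T.σ a = a) (hC : C.Nondeg) (hG : ∀ u, G u → InI C u) :
    El G 2 Ω ↔ (∀ u Z, G u → C.NondegOn Z → NegOn C Z u → 0 < finrank F Z → finrank F Z < finrank F V → ∃ X, Ω X ∧ Iv u X) ∧
      ∀ u, G u → u ^ 2 = algebraMap F _ (-1) → ∃ X, Ω X ∧ Iv u X := by
  refine ⟨fun H => ⟨fun u Z a b c d e => H u a ⟨1, by simpa using c.sq hC b⟩ ((c.ne_iff hC b h2).2 ⟨d, e⟩),
    fun u a b => H u a ⟨_, b⟩ fun z e => h2 ?_⟩, fun ⟨H, H'⟩ u a ⟨z, b⟩ c => ?_⟩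
  · subst e
    have := norm_of_isom hC (hG _ a)
    rw [← map_pow, (FaithfulSMul.algebraMap_injective _ _).eq_iff] at b
    rw [hσ] at this
    linear_combination b - this
  · have := norm_of_isom hC (b ▸ isom_pow (hG u a) 2)
    rw [hσ, mul_self_eq_one_iff] at this
    rcases this with rfl | rfl
    · obtain ⟨Z, h1, h3⟩ := inv_split h2 hC (hG u a) (by simpa using b)
      exact H u Z a h1 h3 ((h3.ne_iff hC h1 h2).1 c).1 ((h3.ne_iff hC h1 h2).1 c).2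
    · exact H' u a b

variable [Fintype F]

theorem fp_neg (h2 : (2 : F) ≠ 0) (hσ : ∀ a, T.σ a = a) (hT : T.τ = 0 ∨ T.κ = 1 ∨ T.κ = 2) (hC : C.Nondeg) :
    FP C 2 (-1) := fun _ _ => fsim_sq h2 hT (fun l e => by rw [hσ, ← pow_two, e]) hC hC rfl

omit [FiniteDimensional F V] in
theorem root_neg_iff : (∃ l : F, l ^ 2 = -1) ↔ Fintype.card F % 4 ≠ 3 := by
  rw [← FiniteField.isSquare_neg_one_iff]; simp only [pow_two, eq_comm (b := (-1 : F))]; rfl

theorem even_of_iv (h2 : (2 : F) ≠ 0) (hz : ∀ l, l ^ 2 ≠ z) (h : u ^ 2 = algebraMap F _ z) (h1 : Iv u X) : Even (finrank F X) :=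
  even_iff_two_dvd.2 (dvd_of_pow Nat.prime_two (IsPrimitiveRoot.neg_one _ (ringChar_ne_two_iff.2 h2)) hz (restrict_pow_eq h h1))

theorem ts2_sp (h2 : (2 : F) ≠ 0) {C : CForm (altType F) V} (hC : C.Nondeg) {m : ℕ} (h0 : 0 < m) (hm : 2 * m ≤ finrank F V)
    (hΩ : ∀ X, Ω X ↔ finrank F X = m ∧ C.TS X) : El (InI C) 2 Ω ↔ Even m ∨ Fintype.card F % 4 ≠ 3 := by
  have := Module.nontrivial_of_finrank_pos (R := F) (M := V) (by omega)
  simp only [el_two_odd h2 (fun _ => rfl) hC fun _ h => h, hΩ]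
  refine ⟨fun ⟨_, H⟩ => or_iff_not_imp_right.2 fun h => ?_, fun H => ⟨fun u Z _ b c _ _ => (c.ts_iff hC b h2).2 ?_,
    fun u a b => ?_⟩⟩
  · obtain ⟨u, a, b⟩ := rp_alt hC
    obtain ⟨X, ⟨rfl, -⟩, c⟩ := H u a b
    exact even_of_iv h2 (fun l e => h (root_neg_iff.1 ⟨l, e⟩)) b c
  · obtain ⟨k, a1, a2⟩ := alt_hasTS _ (C.restrict_nondeg_iff.2 b) rfl
    obtain ⟨l, a3, a4⟩ := alt_hasTS _ (hC.restrict_perp b) rfl
    have := hC.finrank_add_finrank_perp Z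
    exact ⟨min k m, m - k, by omega, a2.mono (by omega), a4.mono (by omega)⟩
  · obtain ⟨k, a1, a2⟩ := alt_hasTS _ hC rfl
    exact ts_pow (by simpa) (by simp) hC (a2.mono (by omega)) (fp_neg h2 (fun _ => rfl) (.inl rfl) hC) a b Nat.prime_two
      (H.symm.imp root_neg_iff.2 even_iff_two_dvd.1) fun H h _ _ => rp_alt (hC.restrict_perp h)

theorem nd2_sp [Nontrivial V] (h2 : (2 : F) ≠ 0) {C : CForm (altType F) V} (hC : C.Nondeg) (hW : C.NondegOn W₀)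
    (hΩ : ∀ X, Ω X ↔ (C.restrict X).Iso (C.restrict W₀)) : El (InI C) 2 Ω := by
  have n1 := C.restrict_nondeg_iff.2 hW
  simp only [el_two_odd h2 (fun _ => rfl) hC fun _ h => h, hΩ]
  refine ⟨fun u Z _ b c _ _ => ?_, fun u a b => (nd_pow hC hW (fp_neg h2 (fun _ => rfl) (.inl rfl) hC) a b).2
    ⟨rp_alt n1, rp_alt (hC.restrict_perp hW)⟩⟩
  obtain ⟨k, a1⟩ := alt_even (C.restrict_nondeg_iff.2 b)
  obtain ⟨l, a2⟩ := alt_even (hC.restrict_perp b)
  obtain ⟨m, a3⟩ := alt_even n1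
  have := hC.finrank_add_finrank_perp Z
  have := Submodule.finrank_le W₀
  obtain ⟨A, b1, b2, b3⟩ := exists_sub_alt hC b (k := min k m) (by omega)
  obtain ⟨B, b4, b5, b6⟩ := exists_sub_alt hC (hC.nondegOn_perp b) (k := m - k) (by omega)
  have h := b4.trans (C.perp_anti b1)
  exact ⟨_, alt_iso (C.restrict_nondeg_iff.2 (nondegOn_sup b2 b5 h)) n1 (by rw [finrank_sup_orth b2 h]; omega), c.iv b1 b4⟩

section quad
variable {C : CForm (quadType F) V} {C' : CForm (quadType F) W}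

theorem hasTS_cprod_aux (hC : C.Nondeg) (hC' : C'.Nondeg) {k l : ℕ} (hd : finrank F V = 2 * k) (hd' : finrank F W = 2 * l)
    (h : (cprod C C').HasTS (k + l) ↔ (cprod C (ofQuad (H11.qPlus l F))).HasTS (k + l)) : C'.HasTS l :=
  (cprod_cancel hC (H11.qPlus_nondeg l) (quad_even_iso (cprod_nondeg hC hC') (cprod_nondeg hC (H11.qPlus_nondeg l))
    (by simp [hd, hd']; ring) (by simp [hd]; ring) h)).symm.hasTS (qPlus_hasTS l)

theorem hasTS_cprod (hC : C.Nondeg) (hC' : C'.Nondeg) {k l : ℕ} (hd : finrank F V = 2 * k) (hd' : finrank F W = 2 * l) :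
    (cprod C C').HasTS (k + l) ↔ (C.HasTS k ↔ C'.HasTS l) := by
  have h1 := hasTS_cprod_aux hC hC' hd hd'
  have h2 := hasTS_cprod_aux hC' hC hd' hd
  have h3 := hasTS_cprod_aux (H11.qPlus_nondeg l) hC (k := l) (by simp; ring) hd
  have h4 := hasTS_cprod_of (qPlus_hasTS (F := F) l) (qPlus_hasTS k)
  have h5 := fun h : C.HasTS k => hasTS_cprod_of h (qPlus_hasTS l)
  have h6 := fun h : C'.HasTS l => hasTS_cprod_of h (qPlus_hasTS k)
  have h7 := hasTS_cprod_of (C := C) (C' := C') (k := k) (l := l)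
  rw [iso_cprod_comm.hasTS_iff, add_comm l k] at h2 h3
  rw [add_comm l k] at h4 h6
  tauto

theorem hasTS_perp (hC : C.Nondeg) (hA : C.NondegOn A) {k l : ℕ} (hd : finrank F A = 2 * k) (hd' : finrank F V = 2 * (k + l)) :
    (C.restrict (C.perp A)).HasTS l ↔ (C.HasTS (k + l) ↔ (C.restrict A).HasTS k) := by
  have := hC.finrank_add_finrank_perp A
  rw [← (iso_split hC hA).hasTS_iff, hasTS_cprod (C.restrict_nondeg_iff.2 hA) (hC.restrict_perp hA) hd (by omega)]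
  tauto

omit [FiniteDimensional F V] in
theorem exists_type {l : ℕ} (hl : 0 < l) (P : Prop) :
    ∃ D : CForm (quadType F) (Fin (2 * l) → F), D.Nondeg ∧ (D.HasTS l ↔ P) := by
  by_cases h : P
  · have e := iso_comap (C := ofQuad (H11.qPlus l F)) (.ofFinrankEq (Fin (2 * l) → F) _ (by simp; ring))
    exact ⟨_, e.symm.nondeg (H11.qPlus_nondeg l), iff_of_true (e.symm.hasTS (qPlus_hasTS l)) h⟩
  · obtain ⟨a, b, hab⟩ := exists_aniso F
    obtain ⟨l, rfl⟩ := Nat.exists_eq_add_one_of_ne_zero hl.ne'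
    have e := iso_comap (C := ofQuad (H11.qMinus l F a b)) (.ofFinrankEq (Fin (2 * (l + 1)) → F) _ (by simp; ring))
    have h1 := H11.disc_ne_zero_of_aniso hab
    exact ⟨_, e.symm.nondeg (H11.qMinus_nondeg l h1), iff_of_false (fun h => qMinus_not_hasTS l h1 hab (e.hasTS h)) h⟩

/-- subspaces of given type -/
def OT (C : CForm (quadType F) V) (k : ℕ) (P : Prop) (X : Submodule F V) : Prop :=
  finrank F X = 2 * k ∧ C.NondegOn X ∧ ((C.restrict X).HasTS k ↔ P)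

theorem OT.iff {k : ℕ} {P : Prop} (h : OT C k P W₀) (X : Submodule F V) : OT C k P X ↔ (C.restrict X).Iso (C.restrict W₀) :=
  have := C.restrict_nondeg_iff.2 h.2.1
  ⟨fun a => quad_even_iso (C.restrict_nondeg_iff.2 a.2.1) this a.1 h.1 (a.2.2.trans h.2.2.symm),
    fun a => ⟨a.finrank_eq.trans h.1, C.restrict_nondeg_iff.1 (a.symm.nondeg this), a.hasTS_iff.trans h.2.2⟩⟩

theorem exists_OT (hC : C.Nondeg) {k : ℕ} (h0 : 0 < k) (h : 2 * k < finrank F V) (h2 : (2 : F) ≠ 0 ∨ Even (finrank F V))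
    (P : Prop) : ∃ X, OT C k P X := by
  obtain ⟨D, a1, a2⟩ := exists_type (F := F) h0 P
  have hZ := C.nondegOn_top.2 hC
  obtain ⟨X, -, b1, b2⟩ : ∃ X ≤ ⊤, C.NondegOn X ∧ D.Iso (C.restrict X) := by
    rcases h2 with h2 | ⟨d, hd⟩
    · exact exists_embQ h2 hC hZ a1 (by simpa)
    · obtain ⟨l, rfl⟩ := exists_add_of_le (show k ≤ d by omega)
      obtain ⟨E, a3, a4⟩ := exists_type (F := F) (l := l) (by omega) (C.HasTS (k + l) ↔ P)
      exact exists_emb hC hZ a1 ((quad_even_iso (cprod_nondeg a1 a3) hC (m := k + l) (by simp; ring) (by omega) (by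
        rw [hasTS_cprod a1 a3 (by simp) (by simp), a2, a4]; tauto)).trans iso_restrict_top.symm)
  exact ⟨X, by simpa using b2.finrank_eq.symm, b1, b2.hasTS_iff.symm.trans a2⟩

theorem hasTS_even (hC : C.Nondeg) {a k : ℕ} (hd : finrank F V = 2 * a) : C.HasTS k ↔ k < a ∨ k = a ∧ C.HasTS a := by
  refine ⟨fun h => (show k ≤ a by have := h.two_mul_le hC; omega).lt_or_eq.imp_right fun e => ⟨e, e ▸ h⟩, ?_⟩
  rintro (h | ⟨rfl, h⟩)
  exacts [quad_hasTS k hC (by omega), h]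

theorem hasTS_odd (hC : C.Nondeg) {a k : ℕ} (hd : finrank F V = 2 * a + 1) : C.HasTS k ↔ k ≤ a :=
  ⟨fun h => by have := h.two_mul_le hC; omega, fun h => quad_hasTS k hC (by omega)⟩

omit [FiniteDimensional F V] in
theorem qsign_pow_eq_one {a : F} {d : ℕ} : qsign a ^ d = 1 ↔ IsSquare a ∨ d % 2 = 0 := by
  by_cases h : IsSquare a
  · simp [qsign_eq_one.2 h, h]
  · simp [qsign_eq_neg_one.2 h, h, neg_one_pow_eq_one_iff_even, Nat.even_iff]

theorem dsc_one_iff (h2 : (2 : F) ≠ 0) (hC : C.Nondeg) {d : ℕ} (hd : finrank F V = 2 * d) :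
    dsc C = 1 ↔ (C.HasTS d ↔ (Fintype.card F % 4 ≠ 3 ∨ d % 2 = 0)) := by
  rw [hasTS_iff_dsc h2 hC hd, ← FiniteField.isSquare_neg_one_iff, ← qsign_pow_eq_one]
  generalize qsign (-1 : F) ^ d = s
  rcases Int.units_eq_one_or s with rfl | rfl <;> rcases Int.units_eq_one_or (dsc C) with h | h <;> simp [h]

theorem inO_iff' (h2 : (2 : F) ≠ 0) (hQ : QNondeg Q) (g : orth Q) :
    InO Q g.1 ↔ LinearMap.det (g.1 : End F V) = 1 ∧ spinor Q g = 1 := by
  rw [← dickson_eq_one_iff hQ h2, ← mem_commutator_iff hQ (notExc_of_two_ne_zero h2)]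
  exact ⟨fun ⟨k, h, e⟩ => (Subtype.ext (LinearEquiv.toLinearMap_injective e) : k = g) ▸ h, fun h => ⟨g, h, rfl⟩⟩

theorem exists_orth_eq (hQ : QNondeg Q) (hu : InI (ofQuad Q) u) : ∃ g : orth Q, g.1.toLinearMap = u :=
  let ⟨g, hg, e⟩ := hQ.exists_isom u hu; ⟨⟨g, hg⟩, LinearMap.ext e⟩

theorem inO_neg (h2 : (2 : F) ≠ 0) (hQ : QNondeg Q) (hZ : (ofQuad Q).NondegOn Z) (h0 : 0 < finrank F Z)
    (hu : InI (ofQuad Q) u) (h : NegOn (ofQuad Q) Z u) : InO Q u ↔ Even (finrank F Z) ∧ dsc ((ofQuad Q).restrict Z) = 1 := by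
  obtain ⟨g, rfl⟩ := exists_orth_eq hQ hu
  have n1 := (ofQuad Q).restrict_nondeg_iff.2 hZ
  obtain ⟨b, a1, a2, a3⟩ := exists_orth_basis h2 n1 one_ne_zero (n := finrank F Z - 1) (by omega)
  have a4 : ∀ i, Q (b i) ≠ 0 := fun i => by
    by_cases e : i = Fin.last _
    exacts [e ▸ a3, (a2 i e).trans_ne one_ne_zero]
  rw [inO_iff' h2 hQ, h.det hQ hZ, neg_one_pow_eq_one_iff_even fun e => h2 (by linear_combination -e),
    map_negOn h2 (fun i => (b i).1) a4 a1 g (fun i => h.1 _ (b i).2) fun x hx => h.2 x fun y hy => by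
      have : ((ofQuad Q).B.flip x) ∘ₛₗ Z.subtype = 0 := b.ext hx
      exact DFunLike.congr_fun this ⟨y, hy⟩]
  refine and_congr_right fun e => ?_
  rw [dsc_eq n1 b, det_gram_of_orth a1]
  erw [qsign_mul (pow_ne_zero _ h2) (Finset.prod_ne_zero_iff.2 fun i _ => a4 i)]
  rw [qsign_pow h2, qsign_prod _ _ fun i _ => a4 i, qsign_pow_eq_one.2 (.inr (by
    have := Nat.even_iff.1 e; rw [Fintype.card_fin]; omega)), one_mul]
  simp only [spinor_refl hQ (notExc_of_two_ne_zero h2) (a4 _)]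

omit [FiniteDimensional F V] in
theorem exists_rot (h2 : (2 : F) ≠ 0) (k : ℕ) : ∃ (Q : QuadraticForm F (Fin k ⊕ Fin k → F)) (g : orth Q), QNondeg Q ∧
    dsc (ofQuad Q) = 1 ∧ g.1.toLinearMap ^ 2 = algebraMap F _ (-1) ∧ LinearMap.det g.1.toLinearMap = 1 ∧
      spinor Q g = qsign (2 : F) ^ k := by
  obtain ⟨a1, a2⟩ := dsc_wss h2 (w := fun _ : Fin k ⊕ Fin k => (1 : F)) fun _ => one_ne_zero
  set Q := weightedSumSquares F fun _ : Fin k ⊕ Fin k => (1 : F)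
  have hQ : ∀ x, Q x = x ⬝ᵥ x := fun x => by simp [Q, dotProduct]
  have hB : ∀ x y, polar Q x y = 2 * x ⬝ᵥ y := fun x y => by simp [polar, hQ, dotProduct_comm y x]; ring
  obtain ⟨g, hg⟩ := exists_orth_mulVec Q a1 (Matrix.J _ F) fun x => by
    simp [hQ, Matrix.J, Matrix.fromBlocks_mulVec, dotProduct, Matrix.neg_mulVec, add_comm]
  obtain ⟨s, hs⟩ := exists_orth_mulVec Q a1 (Matrix.fromBlocks (-1) 0 0 1) fun x => by
    simp [hQ, Matrix.fromBlocks_mulVec, dotProduct, Matrix.neg_mulVec]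
  have e : g.1.toLinearMap = Matrix.toLin' (Matrix.J _ F) := LinearMap.ext fun x => (hg x).symm
  refine ⟨Q, g, a1, by simp [a2, pow_add, qsign_mul_self], by
    rw [e, ← Matrix.toLin'_pow, pow_two, Matrix.J_squared]; simp [End.one_eq_id],
    by rw [e, LinearMap.det_toLin']; exact H11.det_sp ⟨_, SymplecticGroup.J_mem _ _⟩, ?_⟩
  have h1 := spinor_of_eigen a1 h2 (fun i => Pi.single i 1) (by simp [hQ]) (fun i j h => by simp [hB, h]) (by simp) s
    (fun i => by ext (j | j) <;> simp [← hs, Matrix.fromBlocks_mulVec, Pi.single_apply, Matrix.one_apply, apply_ite])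
    fun i => by ext (j | j) <;> simp [← hs, Matrix.fromBlocks_mulVec, Pi.single_apply, Matrix.one_apply]
  have h3 := spinor_of_eigen a1 h2 (Sum.elim (fun i => Pi.single (.inl i) 1 - Pi.single (.inr i) 1)
    fun i => Pi.single (.inl i) 1 + Pi.single (.inr i) 1) (by rintro (i | i) <;> simpa [hQ, one_add_one_eq_two])
    (by rintro (i | i) (j | j) h <;> simp_all [Pi.single_apply]) (by simp) (s * g)
    (fun i => by ext (j | j) <;> simp [orth_mul_apply, ← hs, ← hg, Matrix.J, Matrix.fromBlocks_mulVec, Pi.single_apply,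
      Matrix.one_apply, Matrix.neg_mulVec, apply_ite])
    fun i => by ext (j | j) <;> simp [orth_mul_apply, ← hs, ← hg, Matrix.J, Matrix.fromBlocks_mulVec, Pi.single_apply,
      Matrix.one_apply, Matrix.neg_mulVec, apply_ite]
  simpa [h1, hQ, one_add_one_eq_two] using h3

theorem rot_inv (h2 : (2 : F) ≠ 0) (hQ : QNondeg Q) (hu : InI (ofQuad Q) u) (h : u ^ 2 = algebraMap F _ (-1)) :
    ∃ d, finrank F V = 2 * d ∧ dsc (ofQuad Q) = 1 ∧ (InO Q u ↔ qsign (2 : F) ^ d = 1) := by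
  obtain ⟨d, hd⟩ : Even (finrank F V) := by
    by_cases e : ∃ l : F, l ^ 2 = -1
    · obtain ⟨l, e⟩ := e
      exact two_mul_kd h2 hQ hu h e ((pow_two l).symm.trans e) ▸ even_two_mul _
    · simpa using even_of_iv h2 (not_exists.1 e) h (X := ⊤) fun _ _ => trivial
  obtain ⟨g, rfl⟩ := exists_orth_eq hQ hu
  obtain ⟨Q', g', a1, a2, a3, a4, a5⟩ := exists_rot h2 d
  have := fsim_sq h2 (.inr (.inr rfl)) (fun l e => (pow_two l).symm.trans e) hQ a1 (by simp [hd]) hu g'.2 h a3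
  refine ⟨d, by omega, (dsc_iso hQ this.iso).trans a2, ?_⟩
  rw [inO_iff' h2 hQ, (H27.Sp.fsim_inv h2 hQ this).2, a5, and_iff_right]
  rw [LinearMap.det_eq_sign_charpoly_coeff, H27.Sp.Sim.charpoly (H27.Sp.fsim_sim this), this.iso.finrank_eq,
    ← LinearMap.det_eq_sign_charpoly_coeff, a4]

theorem rp_quad (h2 : (2 : F) ≠ 0) (hC : C.Nondeg) : Rp C 2 (-1) ↔ Even (finrank F V) ∧ dsc C = 1 := by
  obtain ⟨Q, rfl⟩ := exists_eq_ofQuad C
  refine ⟨fun ⟨u, a, b⟩ => let ⟨d, h, h', _⟩ := rot_inv h2 hC a b; ⟨h ▸ even_two_mul d, h'⟩, fun ⟨⟨d, h⟩, h'⟩ => ?_⟩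
  obtain ⟨Q', g', a1, a2, a3, -⟩ := exists_rot h2 d
  exact Rp.iso ⟨_, g'.2, a3⟩ (iso_of_dsc h2 a1 hC (by simp [h]) (a2.trans h'.symm)) hC

theorem el2_O [Nontrivial V] (h2 : (2 : F) ≠ 0) (hQ : QNondeg Q) : El (InO Q) 2 Ω ↔
    (∀ u Z, InI (ofQuad Q) u → (ofQuad Q).NondegOn Z → NegOn (ofQuad Q) Z u → ∀ j, 0 < j → finrank F Z = 2 * j →
      2 * j < finrank F V → dsc ((ofQuad Q).restrict Z) = 1 → ∃ X, Ω X ∧ Iv u X) ∧
    ∀ u d, InI (ofQuad Q) u → u ^ 2 = algebraMap F _ (-1) → finrank F V = 2 * d →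
      (Fintype.card F % 8 ≠ 3 ∧ Fintype.card F % 8 ≠ 5 ∨ d % 2 = 0) → ∃ X, Ω X ∧ Iv u X := by
  rw [el_two_odd h2 (fun _ => rfl) hQ fun _ => InO.isom]
  simp only [← FiniteField.isSquare_two_iff, ← qsign_pow_eq_one]
  refine and_congr ⟨fun H u Z a b c j d e f g => H u Z ((inO_neg h2 hQ b (by omega) a c).2 ⟨e ▸ even_two_mul j, g⟩) b c
    (by omega) (by omega), fun H u Z a b c d e => ?_⟩ ⟨fun H u d a b c e => ?_, fun H u a b => ?_⟩
  · obtain ⟨⟨j, hj⟩, g⟩ := (inO_neg h2 hQ b d a.isom c).1 a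
    exact H u Z a.isom b c j (by omega) (by omega) (by omega) g
  · obtain ⟨d', a1, -, a2⟩ := rot_inv h2 hQ a b
    exact H u (a2.2 (by rwa [show d' = d by omega])) b
  · obtain ⟨d, a1, -, a2⟩ := rot_inv h2 hQ a.isom b
    exact H u d a.isom b a1 (a2.1 a)

theorem nd2_O (h2 : (2 : F) ≠ 0) (hQ : QNondeg Q) (hW : (ofQuad Q).NondegOn W₀) (h0 : 0 < finrank F W₀)
    (h1 : finrank F W₀ < finrank F V) (hΩ : ∀ X, Ω X ↔ ((ofQuad Q).restrict X).Iso ((ofQuad Q).restrict W₀)) :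
    El (InO Q) 2 Ω ↔ ∀ d, finrank F V = 2 * d → ((ofQuad Q).HasTS d ↔ (Fintype.card F % 4 ≠ 3 ∨ d % 2 = 0)) →
      (Fintype.card F % 8 ≠ 3 ∧ Fintype.card F % 8 ≠ 5 ∨ d % 2 = 0) → ∃ k, finrank F W₀ = 2 * k ∧
        (((ofQuad Q).restrict W₀).HasTS k ↔ (Fintype.card F % 4 ≠ 3 ∨ k % 2 = 0)) := by
  have := Module.nontrivial_of_finrank_pos (R := F) (M := V) (by omega)
  have n1 := (ofQuad Q).restrict_nondeg_iff.2 hW
  have hF := fp_neg h2 (fun _ => rfl) (.inr (.inr rfl)) hQ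
  simp only [el2_O h2 hQ, hΩ]
  refine ⟨fun ⟨_, H⟩ d a b c => ?_, fun H => ⟨fun u Z _ b c j d e f _ => ?_, fun u d a b c e => ?_⟩⟩
  · obtain ⟨u, a1, a2⟩ := (rp_quad h2 hQ).2 ⟨a ▸ even_two_mul d, (dsc_one_iff h2 hQ a).2 b⟩
    obtain ⟨⟨k, hk⟩, a3⟩ := (rp_quad h2 n1).1 ((nd_pow hQ hW hF a1 a2).1 (H u d a1 a2 a c)).1
    exact ⟨k, by omega, (dsc_one_iff h2 n1 (by omega)).1 a3⟩
  · have := hQ.finrank_add_finrank_perp Z
    obtain ⟨B, b4, b5, b6⟩ := exists_sub' h2 hQ (hQ.nondegOn_perp b)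
      (k := min (finrank F W₀ - 1) (finrank F ((ofQuad Q).perp Z))) (by omega)
    obtain ⟨A, b1, b2, b3, b7⟩ := exists_sub h2 hQ b (k := finrank F W₀ - finrank F B) (by omega) (by omega)
      (dsc ((ofQuad Q).restrict W₀) * dsc ((ofQuad Q).restrict B))
    have h := b4.trans ((ofQuad Q).perp_anti b1)
    exact ⟨_, iso_of_dsc h2 ((ofQuad Q).restrict_nondeg_iff.2 (nondegOn_sup b2 b5 h)) n1
      (by rw [finrank_sup_orth b2 h]; omega) (by rw [dsc_sup b2 b5 h, b7, mul_assoc, Int.units_mul_self, mul_one]), c.iv b1 b4⟩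
  · have a1 := ((rp_quad h2 hQ).1 ⟨u, a, b⟩).2
    obtain ⟨k, a2, a3⟩ := H d c ((dsc_one_iff h2 hQ c).1 a1) e
    rw [← dsc_one_iff h2 n1 a2] at a3
    have := hQ.finrank_add_finrank_perp W₀
    exact (nd_pow hQ hW hF a b).2 ⟨(rp_quad h2 n1).2 ⟨a2 ▸ even_two_mul k, a3⟩, (rp_quad h2 (hQ.restrict_perp hW)).2
      ⟨⟨d - k, by omega⟩, by rw [dsc_perp hQ hW, a1, a3, one_mul]⟩⟩

theorem ts2_O (h2 : (2 : F) ≠ 0) (hQ : QNondeg Q) (h3 : 3 ≤ finrank F V) {m : ℕ} (hm : (ofQuad Q).HasTS m)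
    (hΩ : ∀ X, Ω X ↔ finrank F X = m ∧ (ofQuad Q).TS X) : El (InO Q) 2 Ω ↔
    (Fintype.card F % 4 = 3 → (ofQuad Q).HasTS (finrank F V / 2) → 2 * m + 3 ≤ finrank F V) ∧
    ∀ d, finrank F V = 2 * d → ((ofQuad Q).HasTS d ↔ (Fintype.card F % 4 ≠ 3 ∨ d % 2 = 0)) →
      (Fintype.card F % 8 ≠ 3 ∧ Fintype.card F % 8 ≠ 5 ∨ d % 2 = 0) → Fintype.card F % 4 ≠ 3 ∨ m % 2 = 0 := by
  have := Module.nontrivial_of_finrank_pos (R := F) (M := V) (by omega)
  have key : ∀ Z j, (ofQuad Q).NondegOn Z → finrank F Z = 2 * j → 0 < j → 2 * j < finrank F V →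
      dsc ((ofQuad Q).restrict Z) = 1 → ((∃ k l, m = k + l ∧ ((ofQuad Q).restrict Z).HasTS k ∧
        ((ofQuad Q).restrict ((ofQuad Q).perp Z)).HasTS l) ↔ (Fintype.card F % 4 = 3 → j % 2 = 1 →
          (ofQuad Q).HasTS (finrank F V / 2) → 2 * m + 3 ≤ finrank F V)) := fun Z j a b c d e => by
    have n1 := (ofQuad Q).restrict_nondeg_iff.2 a
    have n2 := hQ.restrict_perp a
    have := hQ.finrank_add_finrank_perp Z
    have := hm.two_mul_le hQ
    rw [dsc_one_iff h2 n1 b] at e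
    simp only [fun k => (hasTS_even n1 b (k := k)).trans (or_congr_right (and_congr_right fun _ => e))]
    obtain ⟨l, h | h⟩ := Nat.even_or_odd' (finrank F ((ofQuad Q).perp Z))
    · have h4 := hasTS_perp hQ a b (l := l) (by omega)
      rw [hasTS_even hQ (a := j + l) (by omega)] at hm
      rw [show finrank F V / 2 = j + l by omega]
      rw [e] at h4
      simp only [fun k => (hasTS_even n2 h (k := k)).trans (or_congr_right (and_congr_right fun _ => h4))]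
      by_cases h5 : (ofQuad Q).HasTS (j + l) <;>
        simp only [h5, true_iff, false_iff, true_imp_iff, false_imp_iff, and_false, or_false, and_true] at hm ⊢
      · refine ⟨fun ⟨k, l, h⟩ => by omega, fun h => ⟨min (j - 1) m + if j + l ≤ m + 1 ∧ j ≤ m then 1 else 0,
          m - (min (j - 1) m + if j + l ≤ m + 1 ∧ j ≤ m then 1 else 0), ?_⟩⟩
        split_ifs <;> omega
      · refine iff_of_true ⟨min (j - 1) m + if Fintype.card F % 4 ≠ 3 ∨ j % 2 = 0 then (if j ≤ m then 1 else 0) else 0,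
          m - (min (j - 1) m + if Fintype.card F % 4 ≠ 3 ∨ j % 2 = 0 then (if j ≤ m then 1 else 0) else 0), ?_⟩ (by simp)
        split_ifs <;> omega
    · have h4 := fun k => hasTS_odd hQ (a := j + l) (k := k) (by omega)
      have h5 := fun k => hasTS_odd n2 h (k := k)
      rw [h4] at hm ⊢
      exact ⟨fun ⟨k, l, h, h', h''⟩ => by rw [h5] at h''; omega,
        fun h => ⟨m - min l m, min l m, by omega, by omega, (h5 _).2 (by omega)⟩⟩
  simp only [el2_O h2 hQ, hΩ]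
  refine and_congr ⟨fun H a => ?_, fun H u Z _ b c j d e f g => (c.ts_iff hQ b h2).2 ((key Z j b e d f g).2 fun a _ => H a)⟩
    ⟨fun H d a b c => or_iff_not_imp_left.2 fun e => ?_, fun H u d a b c e => ?_⟩
  · obtain ⟨Z, -, a1, a2, a3⟩ := exists_sub h2 hQ ((ofQuad Q).nondegOn_top.2 hQ) two_pos (by simpa) 1
    obtain ⟨u, b1, b2⟩ := exists_neg hQ a1
    exact (key Z 1 a1 a2 one_pos h3 a3).1 ((b2.ts_iff hQ a1 h2).1 (H u Z b1 a1 b2 1 one_pos a2 h3 a3)) a rfl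
  · obtain ⟨u, a1, a2⟩ := (rp_quad h2 hQ).2 ⟨a ▸ even_two_mul d, (dsc_one_iff h2 hQ a).2 b⟩
    obtain ⟨X, ⟨rfl, -⟩, a3⟩ := H u d a1 a2 a c
    exact Nat.even_iff.1 (even_of_iv h2 (fun l h => e (root_neg_iff.1 ⟨l, h⟩)) a2 a3)
  · have a1 := ((rp_quad h2 hQ).1 ⟨u, a, b⟩).2
    have a2 := H d c ((dsc_one_iff h2 hQ c).1 a1) e
    refine ts_pow (by simpa) (by simp) hQ hm (fp_neg h2 (fun _ => rfl) (.inr (.inr rfl)) hQ) a b Nat.prime_two
      (a2.imp root_neg_iff.2 Nat.dvd_of_mod_eq_zero) fun H b1 b2 b3 => (rp_quad h2 (hQ.restrict_perp b1)).2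
      ⟨⟨d - m, by have := hQ.finrank_add_finrank_perp H; omega⟩, ?_⟩
    rw [dsc_perp hQ b1, a1, one_mul, dsc_one_iff h2 ((ofQuad Q).restrict_nondeg_iff.2 b1) b3]
    exact iff_of_true b2 a2

end quad

end H22
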