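import Cfsg.Agent.H22.EL6
import Cfsg.Agent.H12.GeoForm

/-! Elusive actions on subspaces: numerical form of the semisimple case, and bridges. -/

set_option autoImplicit false

namespace H22

open Module Polynomial H12 H12.CForm Pointwise QuadraticMap

variable {F V W : Type*} [Field F] [AddCommGroup V] [Module F V] [AddCommGroup W] [Module F W] {r : ℕ}
  {u : End F V} {U U' W₀ U₀ X Z A B : Submodule F V} {T : FormType F} {C : CForm T V} {C' : CForm T W}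
  {Ω : Submodule F V → Prop} {G : End F V → Prop} {Q : QuadraticForm F V} {z : F} {c i n m : ℕ}

open Classical in
/-- maximal number of blocks for a quadratic space -/
noncomputable def mq (c i n : ℕ) (P : Prop) : ℕ :=
  n / c - if n % c = 0 ∧ ¬ (P ↔ (i % 2 = 1 ∨ n / c % 2 = 0)) then 1 else 0

theorem mq_true (i : ℕ) {A a : ℕ} (h : n / c = A) (h' : n % c = a) : ∃ M, mq c i n True = M ∧
    (a = 0 ∧ i % 2 = 0 ∧ A % 2 = 1 ∧ M + 1 = A ∨ (0 < a ∨ i % 2 = 1 ∨ A % 2 = 0) ∧ M = A) := by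
  refine ⟨_, rfl, ?_⟩
  simp only [mq, h, h', true_iff]; split_ifs <;> omega

theorem mq_false (i : ℕ) {A a : ℕ} (h : n / c = A) (h' : n % c = a) : ∃ M, mq c i n False = M ∧
    (a = 0 ∧ (i % 2 = 1 ∨ A % 2 = 0) ∧ M = A - 1 ∨ (0 < a ∨ i % 2 = 0 ∧ A % 2 = 1) ∧ M = A) := by
  refine ⟨_, rfl, ?_⟩
  simp only [mq, h, h', false_iff]; split_ifs <;> omega

theorem nd_num (h0 : 0 < c) (h : m ≤ n) : ∃ A a B b D e, n / c = A ∧ n % c = a ∧ m / c = B ∧ m % c = b ∧ (n - m) / c = D ∧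
    (n - m) % c = e ∧ a < c ∧ b < c ∧ e < c ∧ (c % 2 = 0 → a % 2 = n % 2 ∧ b % 2 = m % 2) ∧
    (a = b → (n + m - 2 * a) / c = A + B) ∧ (D = 0 → e = n - m) ∧ (B = 0 ∧ b = m ∨ 0 < B ∧ c ≤ m) ∧
    (D + B = A ∧ e + b = a ∨ D + B + 1 = A ∧ e + b = a + c) := by
  have := sub_div_mod h0 h
  have h1 := Nat.div_add_mod m c
  have h2 := Nat.div_add_mod n c
  refine ⟨_, _, _, _, _, _, rfl, rfl, rfl, rfl, rfl, rfl, this.2.1, this.1, Nat.mod_lt _ h0,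
    fun e => ⟨Nat.mod_mod_of_dvd _ (by omega), Nat.mod_mod_of_dvd _ (by omega)⟩, fun e => ?_,
    fun e => by have := Nat.div_add_mod (n - m) c; rw [e] at this; omega, ?_, by omega⟩
  · rw [show n + m - 2 * (n % c) = c * (n / c + m / c) by rw [mul_add]; omega, Nat.mul_div_cancel_left _ h0]
  · rcases Nat.eq_zero_or_pos (m / c) with e | e
    · rw [e] at h1; omega
    · omega

theorem ts_num (h : 0 < i ∧ (c = i ∧ i % 2 = 0 ∨ c = 2 * i ∧ i % 2 = 1)) (h1 : 2 * m ≤ n) : ∃ A a B b D e,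
    n / c = A ∧ n % c = a ∧ m / i = B ∧ m % i = b ∧ (n - 2 * m) / c = D ∧ (n - 2 * m) % c = e ∧ a < c ∧ b < i ∧ e < c ∧
    a % 2 = n % 2 ∧ (D = 0 → e = n - 2 * m) ∧ (B = 0 ∧ b = m ∨ 0 < B ∧ i ≤ m) ∧ (c = i ∧ i % 2 = 0 ∧ n / i = A ∧ (D + 2 * B = A ∧ e + 2 * b = a ∨
      D + 2 * B + 1 = A ∧ e + 2 * b = a + i ∨ D + 2 * B + 2 = A ∧ e + 2 * b = a + 2 * i) ∨
      c = 2 * i ∧ i % 2 = 1 ∧ (D + B = A ∧ e + 2 * b = a ∨ D + B + 1 = A ∧ e + 2 * b = a + 2 * i)) := by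
  obtain ⟨A, a, B, b, D, e, a1, a2, a3, a4, a5, a6, a7, a8, a9, b1, -, b3, -, b2⟩ := nd_num (c := c) (by omega) h1
  obtain ⟨-, -, B', b', -, -, -, -, c1, c2, -, -, -, c3, -, -, -, -, c4, -⟩ := nd_num h.1 (le_refl m)
  refine ⟨_, _, _, _, _, _, a1, a2, c1, c2, a5, a6, a7, c3, a9, by omega, b3, c4, ?_⟩
  obtain ⟨h0, ⟨rfl, h⟩ | ⟨rfl, h⟩⟩ := h
  · have := two_div_mod (m := m) h0
    rw [a3, a4, c1, c2] at this
    exact .inl ⟨rfl, h, a1, by omega⟩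
  · rw [Nat.mul_div_mul_left _ _ two_pos, c1] at a3
    rw [Nat.mul_mod_mul_left, c2] at a4
    exact .inr ⟨rfl, h, by omega⟩

theorem cast_ne_char {p : ℕ} [Fact p.Prime] [CharP F p] (hr : r.Prime) (h : r ≠ p) : (r : F) ≠ 0 := fun e =>
  h ((Nat.prime_dvd_prime_iff_eq Fact.out hr).1 ((CharP.cast_eq_zero_iff F p r).1 e)).symm

theorem two_ne_char {p : ℕ} [Fact p.Prime] [CharP F p] (h : p ≠ 2) : (2 : F) ≠ 0 := by
  simpa using cast_ne_char (F := F) Nat.prime_two h.symm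

theorem odd_card_iff' [Fintype F] {p : ℕ} [Fact p.Prime] [CharP F p] : Odd (Fintype.card F) ↔ p ≠ 2 := by
  obtain ⟨n, hp, e⟩ := FiniteField.card F p
  rw [e, Nat.odd_pow_iff n.ne_zero]
  exact ⟨fun h e => by rw [e] at h; contradiction, hp.odd_of_ne_two⟩

variable [FiniteDimensional F V]

section geo
variable {ι : Type} [Fintype ι] [DecidableEq ι] {Q : QuadraticForm F (ι → F)} {f : (ι → F) → F} {X W₀ : Submodule F (ι → F)}

theorem geo_nd (hf : ⇑Q = f) : Cfsg.Geo.IsNondegenerateOn (polar f) X ↔ (ofQuad Q).NondegOn X :=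
  hf ▸ ⟨nondegOn_of_geo (ofQuad Q) (.inl fun _ _ => rfl), geo_of_nondegOn (ofQuad Q) (.inl fun _ _ => rfl)⟩

theorem geo_plus (hf : ⇑Q = f) {k : ℕ} (h : finrank F X = 2 * k) :
    Cfsg.Geo.IsPlusTypeOn f X ↔ ((ofQuad Q).restrict X).HasTS k := by
  subst hf
  rw [hasTS_restrict]
  exact exists_congr fun U => and_congr_right fun _ => and_congr (ts_quad_iff Q).symm (by omega)

theorem geo_ot_plus (hf : ⇑Q = f) {k : ℕ} (X : Submodule F (ι → F)) : (finrank F X = 2 * k ∧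
    Cfsg.Geo.IsNondegenerateOn (polar f) X ∧ Cfsg.Geo.IsPlusTypeOn f X) ↔ OT (ofQuad Q) k True X :=
  and_congr_right fun h => and_congr (geo_nd hf) ((geo_plus hf h).trans (iff_true _).symm.to_iff)

theorem geo_ot_minus (hf : ⇑Q = f) {k : ℕ} (X : Submodule F (ι → F)) : (finrank F X = 2 * k ∧
    Cfsg.Geo.IsNondegenerateOn (polar f) X ∧ ¬ Cfsg.Geo.IsPlusTypeOn f X) ↔ OT (ofQuad Q) k False X :=
  and_congr_right fun h => and_congr (geo_nd hf) ((geo_plus hf h).not.trans (iff_false _).symm.to_iff)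

theorem geo_iso (hf : ⇑Q = f) (hW : finrank F W₀ = m ∧ Cfsg.Geo.IsNondegenerateOn (polar f) W₀) (X : Submodule F (ι → F)) :
    (finrank F X = m ∧ Cfsg.Geo.IsNondegenerateOn (polar f) X ∧ Cfsg.Geo.AreIsometricFor f X W₀) ↔
      ((ofQuad Q).restrict X).Iso ((ofQuad Q).restrict W₀) := by
  rw [geo_nd hf] at *
  subst hf
  exact ⟨fun h => quad_iso_iff.2 h.2.2, fun h => ⟨h.finrank_eq.trans hW.1, (ofQuad Q).restrict_nondeg_iff.1
    (h.symm.nondeg ((ofQuad Q).restrict_nondeg_iff.2 hW.2)), quad_iso_iff.1 h⟩⟩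

theorem geo_ts (hf : ⇑Q = f) (X : Submodule F (ι → F)) :
    (finrank F X = m ∧ ∀ w ∈ X, f w = 0) ↔ finrank F X = m ∧ (ofQuad Q).TS X := by
  rw [ts_quad_iff, hf]

end geo

omit [FiniteDimensional F V] in
theorem nd_iff_ex : (∀ u ∈ X, u ≠ 0 → ∃ v ∈ X, C.B u v ≠ 0) ↔ C.NondegOn X :=
  forall₂_congr fun x _ => by grind

variable [Fintype F]

theorem hasTS_even' {C : CForm (quadType F) V} (hC : C.Nondeg) {a k : ℕ} (hd : finrank F V = 2 * a) (h0 : 0 < a) {P : Prop}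
    [Decidable P] (hP : C.HasTS a ↔ P) : C.HasTS k ↔ k ≤ a - if P then 0 else 1 := by
  rw [hasTS_even hC hd, hP]; split_ifs with h <;> simp only [h, and_true, and_false, or_false] <;> omega

open Classical in
theorem nd_two_OT [CharP F 2] (hQ : QNondeg Q) {d k : ℕ} (h5 : 3 ≤ d) (hn : finrank F V = 2 * d) (hk : 0 < k) (hm : k < d)
    {P P₀ : Prop} (hP : (ofQuad Q).HasTS d ↔ P) (hΩ : ∀ X, Ω X ↔ OT (ofQuad Q) k P₀ X) : El (InO Q) 2 Ω ↔
      (d - if P then 0 else 1) / 2 ≤ (k - if P₀ then 0 else 1) / 2 + (d - k - if (P ↔ P₀) then 0 else 1) / 2 := by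
  obtain ⟨W₀, hW⟩ := exists_OT hQ hk (by omega) (.inr (hn ▸ even_two_mul d)) P₀
  obtain ⟨l, rfl⟩ := exists_add_of_le hm.le
  have := hQ.finrank_add_finrank_perp W₀
  have h1 := fun j => hasTS_even' (k := j) (hQ.restrict_perp hW.2.1) (a := l) (by have := hW.1; omega) (by omega)
    ((hasTS_perp hQ hW.2.1 hW.1 hn).trans (iff_congr hP hW.2.2))
  have h2 := fun j => hasTS_even' (k := j) ((ofQuad Q).restrict_nondeg_iff.2 hW.2.1) hW.1 hk hW.2.2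
  have h3 := fun j => hasTS_even' (k := j) hQ hn (by omega) hP
  simp only [nd_two_O hQ (by omega) hW.2.1 hW.1 hn fun X => (hΩ X).trans (hW.iff X), h1, h2, h3, Nat.add_sub_cancel_left]
  generalize (k + l - if P then 0 else 1) = a, (k - if P₀ then 0 else 1) = b, (l - if (P ↔ P₀) then 0 else 1) = c
  exact ⟨fun h => by obtain ⟨x, y, h⟩ := h (a / 2) (by omega); omega,
    fun h j hj => ⟨min j (b / 2), j - min j (b / 2), by omega⟩⟩

theorem nd2_OT (h2 : (2 : F) ≠ 0) (hQ : QNondeg Q) {d k : ℕ} (hn : finrank F V = 2 * d) (hk : 0 < k) (hm : k < d)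
    {P P₀ : Prop} (hP : (ofQuad Q).HasTS d ↔ P) (hΩ : ∀ X, Ω X ↔ OT (ofQuad Q) k P₀ X) : El (InO Q) 2 Ω ↔
      ((P ↔ (Fintype.card F % 4 ≠ 3 ∨ d % 2 = 0)) → (Fintype.card F % 8 ≠ 3 ∧ Fintype.card F % 8 ≠ 5 ∨ d % 2 = 0) →
        (P₀ ↔ (Fintype.card F % 4 ≠ 3 ∨ k % 2 = 0))) := by
  obtain ⟨W₀, hW⟩ := exists_OT hQ hk (by omega) (.inl h2) P₀
  have := hW.1
  simp only [nd2_O h2 hQ hW.2.1 (by omega) (by omega) fun X => (hΩ X).trans (hW.iff X), hn, this,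
    Nat.mul_right_inj two_ne_zero, forall_eq', exists_eq_left', hP, hW.2.2]

variable (hr : r.Prime) (h0 : (r : F) ≠ 0) (h2 : r ≠ 2) (hi : i = orderOf (Fintype.card F : ZMod r))
include hi h2

theorem mx_quad {C : CForm (quadType F) V} (hC : C.Nondeg) (h3 : (2 : F) ≠ 0 ∨ Even n) {δ : ℕ}
    (hD : Dl (cstar hr h0 (quadType F).σσ) δ) (hc : c = δ * i) (hδ : δ = 1 ∧ Even i ∨ δ = 2 ∧ Odd i) (hn : finrank F V = n)
    {P : Prop} (hP : ∀ k, n = 2 * k → (C.HasTS k ↔ P)) : MxB C hr h0 δ (mq c i n P) := by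
  classical
  have h4 : 2 ∣ c := by rcases hδ with ⟨rfl, h⟩ | ⟨rfl, -⟩ <;> grind
  subst hn
  obtain ⟨k, h | h⟩ := Nat.even_or_odd' (finrank F V)
  · rw [h]
    refine mx_even hi h2 hC h hD hc (and_congr_right fun e => not_congr (iff_congr (hP k h).symm ?_))
    have := ord_pos hr h0 hi
    obtain ⟨t, ht⟩ := Nat.dvd_of_mod_eq_zero e
    rcases hδ with ⟨rfl, j, hj⟩ | ⟨rfl, h⟩
    · rw [one_mul] at hc
      have : k = j * t := by rw [hc, hj] at ht; linarith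
      rw [ht, Nat.mul_div_cancel_left _ (by omega), this, hj, ← two_mul, mul_comm 2, Nat.mul_dvd_mul_iff_left (by omega)]
      omega
    · exact iff_of_true (.inl (Nat.odd_iff.1 h)) ⟨t, by rw [hc] at ht; linarith⟩
  · have := Nat.mod_mod_of_dvd (finrank F V) h4
    rw [mq, if_neg (by omega)]
    exact mx_odd hi h2 (h3.resolve_right (by grind)) hC ⟨k, h⟩ hD hc

variable (hc : c = if Even i then i else 2 * i)
include hc hr h0

theorem nm_of : 0 < i ∧ (c = i ∧ i % 2 = 0 ∨ c = 2 * i ∧ i % 2 = 1) := by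
  have := ord_pos hr h0 hi
  split_ifs at hc <;> grind

omit h2 hc in
theorem t_pos : 0 < (r - 1) / i := by
  have := Fintype.card_pos_iff.2 (Cy_nonempty hi hr h0)
  rwa [Fintype.card_coe, (Cy_aux hr h0).2, ← hi] at this

theorem nd_O (hQ : QNondeg Q) (h5 : 5 ≤ n) (hW : (ofQuad Q).NondegOn W₀) (hn : finrank F V = n) (hm : finrank F W₀ = m)
    (h3 : (2 : F) ≠ 0 ∨ Even n ∧ Even m) {P P₀ : Prop} (hP : ∀ k, n = 2 * k → ((ofQuad Q).HasTS k ↔ P))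
    (hP₀ : ∀ k, m = 2 * k → (((ofQuad Q).restrict W₀).HasTS k ↔ P₀)) (h4 : Even m ∨ Even n)
    (hΩ : ∀ X, Ω X ↔ ((ofQuad Q).restrict X).Iso ((ofQuad Q).restrict W₀)) (h : r ∣ Nat.card {X // Ω X}) :
    (El (InO Q) r Ω ↔ mq c i n P ≤ mq c i m P₀ + mq c i (n - m) (P ↔ P₀)) ∧ mq c i m P₀ < mq c i n P ∧
      mq c i (n - m) (P ↔ P₀) < mq c i n P := by
  have := Module.nontrivial_of_finrank_pos (R := F) (M := V) (by omega)
  obtain ⟨δ, a1, a2, -, a3⟩ := dl_id (hr := hr) (h0 := h0) hi h2 hc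
  change Dl (cstar hr h0 (quadType F).σσ) δ at a1
  have := hQ.finrank_add_finrank_perp W₀
  rw [el_O hQ (.inr (by omega)) (hr.odd_of_ne_two h2)]
  refine nd_main a1 hQ hW (fs_quad hr h0 h2 hQ) (mx_quad hr h0 h2 hi hQ (h3.imp_right (·.1)) a1 a2 a3 hn hP)
    (mx_quad hr h0 h2 hi ((ofQuad Q).restrict_nondeg_iff.2 hW) (h3.imp_right (·.2)) a1 a2 a3 hm hP₀)
    (mx_quad hr h0 h2 hi (hQ.restrict_perp hW) (h3.imp_right (by grind)) a1 a2 a3 (by omega) fun l e => ?_) hΩ h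
  obtain ⟨k, hk⟩ : Even m := by grind
  rw [hasTS_perp hQ hW (k := k) (by omega) (by omega), hP _ (by omega), hP₀ _ (by omega)]

theorem nd_OT (hQ : QNondeg Q) (h5 : 5 ≤ n) (hn : finrank F V = n) {k : ℕ} (hk : 0 < k) (hm : 2 * k < n)
    (h3 : (2 : F) ≠ 0 ∨ Even n) {P P₀ : Prop} (hP : ∀ k, n = 2 * k → ((ofQuad Q).HasTS k ↔ P))
    (hΩ : ∀ X, Ω X ↔ OT (ofQuad Q) k P₀ X) (h : r ∣ Nat.card {X // Ω X}) :
    (El (InO Q) r Ω ↔ mq c i n P ≤ mq c i (2 * k) P₀ + mq c i (n - 2 * k) (P ↔ P₀)) ∧ mq c i (2 * k) P₀ < mq c i n P ∧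
      mq c i (n - 2 * k) (P ↔ P₀) < mq c i n P := by
  obtain ⟨W₀, hW⟩ := exists_OT hQ hk (by omega) (hn ▸ h3) P₀
  exact nd_O hr h0 h2 hi hc hQ h5 hW.2.1 hn hW.1 (h3.imp_right fun h => ⟨h, even_two_mul k⟩) hP
    (fun l e => by rw [show l = k by omega]; exact hW.2.2) (.inl (even_two_mul k)) (fun X => (hΩ X).trans (hW.iff X)) h

theorem ts_O (hQ : QNondeg Q) (h5 : 5 ≤ n) (hn : finrank F V = n) (hm : (ofQuad Q).HasTS m) (h3 : (2 : F) ≠ 0 ∨ Even n)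
    {P : Prop} (hP : ∀ k, n = 2 * k → ((ofQuad Q).HasTS k ↔ P)) (hΩ : ∀ X, Ω X ↔ finrank F X = m ∧ (ofQuad Q).TS X)
    (h : r ∣ Nat.card {X // Ω X}) : (El (InO Q) r Ω ↔ if i % 2 = 0 then mq c i n P ≤ 2 * (m / i) + mq c i (n - 2 * m) P ∧
      (r - 1) / i ≤ mq c i (n - 2 * m) P else mq c i n P ≤ m / i + mq c i (n - 2 * m) P) ∧
      mq c i (n - 2 * m) P < mq c i n P := by
  have := Module.nontrivial_of_finrank_pos (R := F) (M := V) (by omega)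
  obtain ⟨δ, a1, a2, -, a3⟩ := dl_id (hr := hr) (h0 := h0) hi h2 hc
  change Dl (cstar hr h0 (quadType F).σσ) δ at a1
  obtain ⟨U, b1, b2⟩ := hm
  obtain ⟨H, b3, b4, b5⟩ := exists_hypS hQ b1
  have := hQ.finrank_add_finrank_perp H
  rw [el_O hQ (.inr (by omega)) (hr.odd_of_ne_two h2)]
  obtain ⟨c1, c2⟩ := ts_main hi a1 hQ b3 b1 b4 b2 (b2 ▸ b5) (fs_quad hr h0 h2 hQ) (mx_quad hr h0 h2 hi hQ h3 a1 a2 a3 hn hP)
    (mx_quad hr h0 h2 hi (hQ.restrict_perp b3) (n := n - 2 * m) (P := P) (h3.imp_right (by grind)) a1 a2 a3 (by omega)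
      fun l e => by
        rw [hasTS_perp hQ b3 (k := m) (by omega) (by omega), hP _ (by omega)]
        exact iff_true_right (hasTS_restrict.2 ⟨U, b4, b1, b2⟩)) hΩ h
  refine ⟨c1.trans ?_, c2⟩
  rcases a3 with ⟨rfl, a3⟩ | ⟨rfl, a3⟩
  · simp [Nat.even_iff.1 a3]
  · simp [Nat.odd_iff.1 a3]; omega

theorem nd_sp [Nontrivial V] {C : CForm (altType F) V} (hC : C.Nondeg) (hW : C.NondegOn W₀) (hn : finrank F V = n)
    (hm : finrank F W₀ = m) (hΩ : ∀ X, Ω X ↔ (C.restrict X).Iso (C.restrict W₀)) (h : r ∣ Nat.card {X // Ω X}) :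
    El (InI C) r Ω ↔ c ≤ m ∧ m % c ≤ n % c := by
  obtain ⟨δ, a1, a2, a4, a3⟩ := dl_id (hr := hr) (h0 := h0) hi h2 hc
  change Dl (cstar hr h0 (altType F).σσ) δ at a1
  have e := hC.finrank_add_finrank_perp W₀
  obtain ⟨c1, c2, c3⟩ := nd_main a1 hC hW (fs_alt hr h0 hC) (mx_alt hi h2 hC a1 a2)
    (mx_alt hi h2 (C.restrict_nondeg_iff.2 hW) a1 a2) (mx_alt hi h2 (hC.restrict_perp hW) a1 a2) hΩ h
  rw [el_I hC fun z => eq_one_of_odd (hr.odd_of_ne_two h2), c1]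
  rw [show finrank F (C.perp W₀) = n - m by omega, hn, hm] at *
  have := sub_div_mod (c := c) (m := m) (n := n) (a2 ▸ mul_pos a1.pos a4) (by omega)
  omega

theorem ts_sp [Nontrivial V] {C : CForm (altType F) V} (hC : C.Nondeg) {d : ℕ} (hn : finrank F V = 2 * d) (hm : m ≤ d)
    (hΩ : ∀ X, Ω X ↔ finrank F X = m ∧ C.TS X) (h : r ∣ Nat.card {X // Ω X}) : El (InI C) r Ω ↔
      i ≤ m ∧ 2 * (m % i) ≤ 2 * d % c ∧ (Odd i ∨ (r - 1) / i + 2 * (m / i) ≤ 2 * d / i) := by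
  obtain ⟨δ, a1, a2, a4, a3⟩ := dl_id (hr := hr) (h0 := h0) hi h2 hc
  change Dl (cstar hr h0 (altType F).σσ) δ at a1
  obtain ⟨U, b1, b2⟩ := (alt_hasTS' hC (m := d) (by omega)).mono hm
  obtain ⟨H, b3, b4, b5⟩ := exists_hypS hC b1
  have e := hC.finrank_add_finrank_perp H
  obtain ⟨c1, c2⟩ := ts_main hi a1 hC b3 b1 b4 b2 (b2 ▸ b5) (fs_alt hr h0 hC) (mx_alt hi h2 hC a1 a2)
    (mx_alt hi h2 (hC.restrict_perp b3) a1 a2) hΩ h
  rw [el_I hC fun z => eq_one_of_odd (hr.odd_of_ne_two h2), c1]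
  rw [show finrank F (C.perp H) = 2 * d - 2 * m by omega, hn] at *
  obtain ⟨A, a, B, b, D, e, e1, e2, e3, e4, e5, e6, h⟩ := ts_num (m := m) (n := 2 * d) (nm_of hr h0 h2 hi hc) (by omega)
  simp only [Nat.even_iff, Nat.odd_iff, e1, e2, e3, e4, e5] at *
  rcases a3 with ⟨rfl, a3⟩ | ⟨rfl, a3⟩ <;> omega

end H22
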