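import Cfsg.Agent.H22.EL7
import Cfsg.Agent.H22.UF3

/-! Elusive actions on subspaces: unipotent elements. -/

set_option autoImplicit false

namespace H22

open Module Polynomial H12 H12.CForm Pointwise QuadraticMap

variable {F V W : Type*} [Field F] [AddCommGroup V] [Module F V] [AddCommGroup W] [Module F W] {r : ℕ}
  {u : End F V} {U U' W₀ U₀ X Z A B : Submodule F V} {T : FormType F} {C : CForm T V} {C' : CForm T W}
  {Ω : Submodule F V → Prop} {G : End F V → Prop} {Q : QuadraticForm F V} {μ ν ν' : Multiset ℕ} {m : ℕ}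

/-- there is a unipotent isometry of the given Jordan type -/
def UT (C : CForm T V) (μ : Multiset ℕ) : Prop := ∃ u : End F V, InI C u ∧ NType (u - 1) μ

theorem pow_char_iff (p : ℕ) [Fact p.Prime] [CharP F p] : u ^ p = 1 ↔ (u - 1) ^ p = 0 := by
  have := sub_one_pow_char F p u 1
  rw [pow_one] at this
  rw [this, sub_eq_zero]

theorem eq_one_of_pow_char (p : ℕ) [Fact p.Prime] [CharP F p] {z : F} (h : z ^ p = 1) : z = 1 :=
  sub_eq_zero.1 (pow_eq_zero_iff (Fact.out : p.Prime).ne_zero |>.1 (by rw [sub_pow_char, h, one_pow, sub_self]))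

theorem NType.uniq {N : End F V} (h : NType N μ) (h' : NType N ν) (hμ : ∀ k ∈ μ, 0 < k) (hν : ∀ k ∈ ν, 0 < k) : μ = ν :=
  nType_unique hμ hν fun m => (h.ker m).symm.trans (h'.ker m)

theorem UT.finrank (h : UT C μ) : finrank F V = μ.sum := h.choose_spec.2.finrank

theorem dsc_smul [Finite F] [FiniteDimensional F V] (hQ : QNondeg Q) {c : F} (hc : c ≠ 0) :
    QNondeg (c • Q) ∧ dsc (ofQuad (c • Q)) = qsign c ^ finrank F V * dsc (ofQuad Q) := by
  have e : (ofQuad (c • Q)).gram (finBasis F V) = c • (ofQuad Q).gram (finBasis F V) := by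
    ext i j; simp [polar_smul, ← polar_smul]; simp [polar]; ring
  have h := (nondeg_iff_det_gram (finBasis F V)).1 hQ
  refine ⟨(nondeg_iff_det_gram (finBasis F V)).2 (by simp [e, h, hc]), ?_⟩
  rw [dsc, e, Matrix.det_smul, qsign_mul (pow_ne_zero _ hc) h, qsign_pow hc, Fintype.card_fin]; rfl

variable [FiniteDimensional F V] [FiniteDimensional F W]

theorem NType.prod {N : End F V} {N' : End F W} (h : NType (N - 1) μ) (h' : NType (N' - 1) ν) :
    NType ((N.prodMap N' : End F (V × W)) - 1) (μ + ν) := by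
  rw [NType, Multiset.map_add]
  convert HasType.prod h h' using 1
  ext x <;> simp

theorem NType.split (h : IsCompl U U') (h1 : Iv u U) (h2 : Iv u U') (a : NType (u.restrict h1 - 1) ν)
    (b : NType (u.restrict h2 - 1) ν') : NType (u - 1) (ν + ν') :=
  (a.prod b).of_sim (sim_sub_one.2 (sim_prod h h1 h2))

theorem UT.prod (h : UT C μ) (h' : UT C' ν) : UT (cprod C C') (μ + ν) :=
  let ⟨u, a, b⟩ := h
  let ⟨v, c, d⟩ := h'
  ⟨u.prodMap v, ⟨fun x y => congrArg₂ (· + ·) (a.1 _ _) (c.1 _ _), fun x => congrArg₂ (· + ·) (a.2 _) (c.2 _)⟩, b.prod d⟩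

omit [FiniteDimensional F V] in
theorem UT.iso (h : UT C μ) (e : C.Iso C') (hC : C'.Nondeg) : UT C' μ :=
  let ⟨_, a, b⟩ := h
  let ⟨g, hg⟩ := exists_isom_sim hC e a
  ⟨_, g.2, b.of_sim (sim_sub_one.2 hg)⟩

theorem UT.orth (hC : C.Nondeg) (hW : C.NondegOn W₀) (h : UT (C.restrict W₀) ν) (h' : UT (C.restrict (C.perp W₀)) ν') :
    ∃ u, InI C u ∧ NType (u - 1) (ν + ν') ∧ Iv u W₀ := by
  obtain ⟨y, a, b⟩ := h
  obtain ⟨y', c, d⟩ := h'
  obtain ⟨g, h1, h2, h3, rfl, rfl⟩ := exists_orth_end hC hW a c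
  exact ⟨g, h3, .split (hC.isCompl_perp hW) h1 h2 b d, h1⟩

theorem NType.ker_le {N : End F V} (h : NType N μ) (h2 : ∀ k ∈ μ, 2 ≤ k) :
    Module.finrank F (LinearMap.ker N) = μ.card ∧ LinearMap.ker N ≤ LinearMap.range N := by
  have a1 := h.ker 1
  have a2 := h.ker 2
  rw [Multiset.map_congr rfl fun k hk => min_eq_left (by have := h2 k hk; omega), Multiset.map_const', Multiset.sum_replicate,
    smul_eq_mul] at a1 a2
  rw [pow_one] at a1
  have a3 : LinearMap.ker N ≤ LinearMap.ker (N ^ 2) := fun x hx => by simp_all [pow_two]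
  have a4 := (N.domRestrict (LinearMap.ker (N ^ 2))).finrank_range_add_finrank_ker
  rw [LinearMap.ker_domRestrict, (Submodule.comapSubtypeEquivOfLe a3).finrank_eq, LinearMap.range_domRestrict] at a4
  refine ⟨by omega, (Submodule.eq_of_le_of_finrank_eq (S₁ := (LinearMap.ker (N ^ 2)).map N) ?_ (by omega)).ge.trans
    LinearMap.map_le_range⟩
  rintro _ ⟨x, hx, rfl⟩; simpa [pow_two] using hx

variable [Finite F]

theorem nType_one : NType ((1 : End F V) - 1) (Multiset.replicate (finrank F V) 1) := by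
  obtain ⟨μ, a, b⟩ := exists_nType (N := (1 : End F V) - 1) (n := 1) (by simp)
  have h := Multiset.eq_replicate_card.2 fun k hk => le_antisymm (a k hk).2 (a k hk).1
  rwa [b.finrank, h, Multiset.sum_replicate, smul_eq_mul, mul_one, ← h]

theorem nt_split (hC : C.Nondeg) (hu : InI C u) (h : NType (u - 1) μ) (hμ : ∀ k ∈ μ, 0 < k) (hX : C.NondegOn X)
    (h1 : Iv u X) : ∃ ν ν', μ = ν + ν' ∧ NType (u.restrict h1 - 1) ν ∧ NType (u.restrict (iv_perp hC hu h1) - 1) ν' := by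
  have h0 := (h.pow_eq_zero_iff μ.sum).2 fun k hk => Multiset.single_le_sum (by simp) k hk
  have key : ∀ {Y : Submodule F V} (h : Iv u Y), (u.restrict h - 1) ^ μ.sum = 0 := fun {Y} h =>
    (restrict_pow_eq (u := u - 1) (z := 0) (h0.trans (map_zero _).symm) fun x hx => sub_mem (h x hx) hx).trans (map_zero _)
  obtain ⟨ν, a1, a2⟩ := exists_nType (key h1)
  obtain ⟨ν', a3, a4⟩ := exists_nType (key (iv_perp hC hu h1))
  exact ⟨ν, ν', h.uniq (.split (hC.isCompl_perp hX) _ _ a2 a4) hμ fun k hk => (Multiset.mem_add.1 hk).elim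
    (fun h => (a1 k h).1) fun h => (a3 k h).1, a2, a4⟩

theorem NType.jb' {N : End F V} (h : NType N μ) (hμ : ∀ k ∈ μ, 0 < k) : ∃ d : Fin μ.card → ℕ, (∀ k, 0 < d k) ∧
    (∀ i, Fintype.card (Bk d i) = μ.count i) ∧ ∑ k, d k = μ.sum ∧ Nonempty (JB N d) :=
  let ⟨d, hd⟩ := exists_fin_map μ
  ⟨d, fun k => hμ _ (Multiset.mem_of_le hd.le (by simp)), fun i => by rw [card_Bk_count, hd], congrArg _ hd,
    NType.jb (hd.symm ▸ h)⟩

theorem UT.alt_par {C : CForm (altType F) V} (hC : C.Nondeg) (h : UT C μ) (hμ : ∀ k ∈ μ, 0 < k) (a : ℕ) (ha : Odd a) :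
    Even (μ.count a) := by
  obtain ⟨u, h1, h2⟩ := h
  obtain ⟨d, a1, a2, -, ⟨J⟩⟩ := h2.jb' hμ
  exact a2 a ▸ even_of_alt (J.gram_alt a1 h1.1 (alt_isAlt C) ha) (J.det_gram_ne a1 (toSQ hC) h1.1 a)

theorem UT.quad_par (h2 : (2 : F) ≠ 0) {C : CForm (quadType F) V} (hC : C.Nondeg) (h : UT C μ) (hμ : ∀ k ∈ μ, 0 < k)
    (a : ℕ) (ha : Even a) : Even (μ.count a) := by
  obtain ⟨u, h1, h3⟩ := h
  obtain ⟨d, a1, a2, -, ⟨J⟩⟩ := h3.jb' hμ
  exact a2 a ▸ even_of_alt (J.gram_alt' a1 h1.1 h2 (fun x y => (C.symm x y).trans (one_mul _)) ha)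
    (J.det_gram_ne a1 (toSQ hC) h1.1 a)

theorem exists_jb' (hd : finrank F V = μ.sum) (hμ : ∀ k ∈ μ, 0 < k) : ∃ (u : End F V) (d : Fin μ.card → ℕ),
    NType (u - 1) μ ∧ (∀ k, 0 < d k) ∧ (∀ i, Fintype.card (Bk d i) = μ.count i) ∧ Nonempty (JB (u - 1) d) := by
  obtain ⟨N, hN⟩ := exists_of_nType hd
  rw [← add_sub_cancel_right N 1] at hN
  obtain ⟨d, a1, a2, -, J⟩ := hN.jb' hμ
  exact ⟨_, d, hN, a1, a2, J⟩

theorem ut_alt {C : CForm (altType F) V} (hC : C.Nondeg) (hd : finrank F V = μ.sum) (hμ : ∀ k ∈ μ, 0 < k)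
    (h : ∀ a, Odd a → Even (μ.count a)) : UT C μ := by
  obtain ⟨u, d, a1, a2, a3, ⟨J⟩⟩ := exists_jb' hd hμ
  obtain ⟨D, b1, b2⟩ := J.exists_alt a2 fun i hi => a3 i ▸ h i hi
  exact UT.iso ⟨u, b2, a1⟩ (alt_iso b1 hC rfl) hC

theorem exists_ut_quad (h2 : (2 : F) ≠ 0) (hd : finrank F V = μ.sum) (hμ : ∀ k ∈ μ, 0 < k)
    (h : ∀ a, Even a → Even (μ.count a)) : ∃ Q : QuadraticForm F V, QNondeg Q ∧ UT (ofQuad Q) μ := by
  obtain ⟨u, d, a1, a2, a3, ⟨J⟩⟩ := exists_jb' hd hμ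
  obtain ⟨D, b1, b2⟩ := J.exists_quad a2 h2 fun i hi _ => a3 i ▸ h i hi
  exact ⟨D, b1, u, quad_isIsomTo u b2, a1⟩

theorem ut_quad (h2 : (2 : F) ≠ 0) {C : CForm (quadType F) V} (hC : C.Nondeg) (hd : finrank F V = μ.sum)
    (hμ : ∀ k ∈ μ, 0 < k) (h : ∀ a, Even a → Even (μ.count a)) {a : ℕ} (ha : a ∈ μ) (ha' : Odd a) : UT C μ := by
  obtain ⟨ν, rfl⟩ := Multiset.exists_cons_of_mem ha
  have h3 : ∀ b, Even b → b ≠ a := by rintro b hb rfl; exact Nat.not_even_iff_odd.2 ha' hb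
  obtain ⟨Q₁, a1, u, a2, a3⟩ := exists_ut_quad (V := Fin a → F) (μ := {a}) h2 (by simp) (by simpa using ha'.pos)
    fun b hb => by simp [h3 b hb]
  obtain ⟨Q₂, b1, b2⟩ := exists_ut_quad (V := Fin ν.sum → F) (μ := ν) h2 (by simp) (fun k hk => hμ k (by simp [hk]))
    fun b hb => by simpa [h3 b hb] using h b hb
  obtain ⟨c, c1, c2⟩ := exists_qsign_eq h2 (dsc C * dsc (ofQuad Q₂) * dsc (ofQuad Q₁))
  obtain ⟨c3, c4⟩ := dsc_smul a1 c1
  refine (UT.prod ⟨u, quad_isIsomTo u fun x => congrArg (c • ·) (a2.2 x), a3⟩ b2).iso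
    (iso_of_dsc h2 (cprod_nondeg c3 b1) hC (by simp [hd]) ?_) hC
  rw [dsc_cprod c3 b1, c4, c2, finrank_fin_fun, Int.units_pow_eq_pow_mod_two, Nat.odd_iff.1 ha', pow_one,
    mul_assoc _ _ (dsc (ofQuad Q₁)), Int.units_mul_self, mul_one, mul_assoc, Int.units_mul_self, mul_one]

theorem ts_ker (h2 : (2 : F) ≠ 0) {C : CForm (quadType F) V} (hu : InI C u) (h : NType (u - 1) μ) (h3 : ∀ k ∈ μ, 2 ≤ k) :
    C.TS (LinearMap.ker (u - 1)) := quad_ts_iff.2 fun x hx => by
  obtain ⟨y, rfl⟩ := (h.ker_le h3).2 hx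
  have := InvF.zero_left hu.1 (i := 1) ((pow_one (u - 1)).symm ▸ hx) y
  rw [pow_one, C.B_self] at this
  exact (mul_eq_zero.1 this).resolve_left h2

theorem UT.two (h2 : (2 : F) ≠ 0) {C : CForm (quadType F) V} (hC : C.Nondeg) (h : UT C μ) (h3 : ∀ k ∈ μ, k = 2) :
    ∃ j, Module.finrank F V = 2 * (2 * j) ∧ C.HasTS (2 * j) := by
  obtain ⟨j, hj⟩ := h.quad_par h2 hC (fun k hk => by have := h3 k hk; omega) 2 even_two
  rw [Multiset.count_eq_card.2 fun k hk => (h3 k hk).symm] at hj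
  have h4 := h.finrank
  obtain ⟨u, a, b⟩ := h
  rw [Multiset.eq_replicate_card.2 h3, Multiset.sum_replicate, smul_eq_mul] at h4
  exact ⟨j, by omega, _, ts_ker h2 a b fun k hk => (h3 k hk).ge, (b.ker_le fun k hk => (h3 k hk).ge).1.trans (by omega)⟩

omit [Finite F] in
theorem NType.pow_char (p : ℕ) [Fact p.Prime] [CharP F p] (h : NType (u - 1) μ) : u ^ p = 1 ↔ ∀ k ∈ μ, k ≤ p :=
  (pow_char_iff p).trans (h.pow_eq_zero_iff p)

omit [Finite F] in
theorem NType.eq_one (h : NType (u - 1) μ) : u = 1 ↔ ∀ k ∈ μ, k ≤ 1 := by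
  rw [← h.pow_eq_zero_iff, pow_one, sub_eq_zero]

theorem el_part (p : ℕ) [Fact p.Prime] [CharP F p] (hC : C.Nondeg)
    (H : ∀ u, InI C u → u ^ p = 1 → u ≠ 1 → ∃ X, Ω X ∧ Iv u X) (hΩ : ∀ X, Ω X → C.NondegOn X ∧ finrank F X = m)
    (hm : m ≤ finrank F V) (h : UT C μ) (hμ : ∀ k ∈ μ, 0 < k ∧ k ≤ p) :
    ∃ ν ≤ μ, ν.sum = m ∧ (ν = .replicate m 1 ∨ ∃ X, C.NondegOn X ∧ UT (C.restrict X) ν) := by
  obtain ⟨u, a, b⟩ := h
  by_cases e : u = 1
  · have h := Multiset.eq_replicate_card.2 fun k hk => le_antisymm (b.eq_one.1 e k hk) (hμ k hk).1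
    rw [b.finrank, h, Multiset.sum_replicate, smul_eq_mul, mul_one] at hm
    exact ⟨_, h ▸ (Multiset.replicate_le_replicate 1).2 hm, by simp, .inl rfl⟩
  · obtain ⟨X, a1, a2⟩ := H u a ((b.pow_char p).2 fun k hk => (hμ k hk).2) e
    obtain ⟨a3, rfl⟩ := hΩ X a1
    obtain ⟨ν, ν', rfl, b1, -⟩ := nt_split hC a b (fun k hk => (hμ k hk).1) a3 a2
    exact ⟨ν, Multiset.le_add_right _ _, b1.finrank.symm, .inr ⟨X, a3, _, isom_restrict a a2, b1⟩⟩

theorem sum_mod_two (h : ∀ k ∈ μ, ¬ Even k) : μ.sum % 2 = μ.card % 2 := by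
  induction μ using Multiset.induction_on with
  | empty => rfl
  | cons a s ih => simp only [Multiset.mem_cons, forall_eq_or_imp, Multiset.sum_cons, Multiset.card_cons] at *; grind

theorem part_comb {p n : ℕ} (hp : Odd p) (hn : 0 < n) (hm : Even m) (H : ∀ μ : Multiset ℕ, (∀ e ∈ μ, 0 < e ∧ e ≤ p) →
    (∀ e, Even e → Even (μ.count e)) → μ.sum = n → (∃ a ∈ μ, Odd a) → ∃ ν ≤ μ, ν.sum = m ∧ ∀ e, Even e → Even (ν.count e))
    (h1 : ∀ e ∈ μ, 0 < e ∧ e ≤ p) (h2 : ∀ e, Even e → Even (μ.count e)) (h3 : μ.sum = n) :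
    ∃ ν ≤ μ, ν.sum = m ∧ ∀ e, Even e → Even (ν.count e) := by
  by_cases h : ∃ a ∈ μ, Odd a
  · exact H μ h1 h2 h3 h
  simp only [not_exists, not_and, Nat.not_odd_iff_even] at h
  obtain ⟨a, ha⟩ := Multiset.exists_mem_of_ne_zero (s := μ) (by rintro rfl; simp at h3; omega)
  obtain ⟨μ₀, rfl⟩ := Multiset.le_iff_exists_add.1 (Multiset.le_count_iff_replicate_le.1 (show 2 ≤ μ.count a by
    have := Multiset.count_pos.2 ha; have := h2 a (h a ha); grind))
  have a1 := h a ha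
  have a2 := h1 a ha
  have a3 : ¬ Even (a + 1) ∧ ¬ Even (a - 1) := by grind
  have a4 : ∀ e, Even (Multiset.count e (.replicate 2 a)) := fun e => by rw [Multiset.count_replicate]; grind
  have a5 : μ₀.filter Even = μ₀ := Multiset.filter_eq_self.2 fun k hk => h k (by simp [hk])
  have a6 : μ₀.filter (¬ Even ·) = 0 := Multiset.filter_eq_nil.2 fun k hk => not_not.2 (h k (by simp [hk]))
  obtain ⟨ν, b1, b2, b3⟩ := H ((a + 1) ::ₘ (a - 1) ::ₘ μ₀) (by simp at h1 ⊢; grind) (fun e he => by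
    have := h2 e he
    have := a4 e
    rw [Multiset.count_cons_of_ne (by grind), Multiset.count_cons_of_ne (by grind)]
    grind [Multiset.count_add]) (by simp at h3 ⊢; omega) ⟨a + 1, by simp, by grind⟩
  have b4 := Multiset.filter_le_filter Even b1
  have b5 := Multiset.filter_le_filter (¬ Even ·) b1
  simp only [Multiset.filter_cons, a3, a5, a6, if_false, if_true, zero_add, not_false_iff, add_zero] at b4 b5
  have b6 := congrArg Multiset.sum (Multiset.filter_add_not Even ν)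
  have b7 := sum_mod_two (μ := ν.filter (¬ Even ·)) fun k hk => (Multiset.mem_filter.1 hk).2
  have b8 : 2 ∣ (ν.filter Even).sum := Multiset.dvd_sum fun k hk => (Multiset.mem_filter.1 hk).2.two_dvd
  have b9 : ∀ e, Even e → Even ((ν.filter Even).count e) := fun e he => (Multiset.count_filter_of_pos he).symm ▸ b3 e he
  have := Multiset.card_le_card b5
  rw [Multiset.sum_add] at b6
  by_cases e : (ν.filter (¬ Even ·)).card = 0
  · rw [Multiset.card_eq_zero.1 e] at b6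
    exact ⟨_, b4.trans (Multiset.le_add_left _ _), by simpa [b2] using b6, b9⟩
  · rw [Multiset.eq_of_le_of_card_le b5 (by
      have := Nat.even_iff.1 hm; simp only [Multiset.card_add, Multiset.card_singleton] at *; omega)] at b6
    exact ⟨_, add_le_add_right b4 _, by simp at b6 ⊢; omega, fun e he => by grind [Multiset.count_add]⟩

theorem part_O (p : ℕ) [Fact p.Prime] [CharP F p] (h2 : (2 : F) ≠ 0) (hp : Odd p) (hQ : QNondeg Q) (h5 : 5 ≤ finrank F V)
    (H : El (InO Q) p Ω) (hΩ : ∀ X, Ω X → (ofQuad Q).NondegOn X ∧ finrank F X = m) (hm : m ≤ finrank F V) (hm' : Even m)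
    (μ : Multiset ℕ) : (∀ e ∈ μ, 0 < e ∧ e ≤ p) → (∀ e, Even e → Even (μ.count e)) → μ.sum = finrank F V →
    ∃ ν ≤ μ, ν.sum = m ∧ ∀ e, Even e → Even (ν.count e) := by
  have := Module.nontrivial_of_finrank_pos (R := F) (M := V) (by omega)
  refine part_comb hp (by omega) hm' fun μ h1 h3 h4 ⟨a, h6, h7⟩ => ?_
  obtain ⟨ν, a1, a2, rfl | ⟨X, a3, a4⟩⟩ := el_part p hQ ((el_O hQ (.inr (by omega)) hp).1 H) hΩ hm
    (ut_quad h2 hQ h4.symm (fun k hk => (h1 k hk).1) h3 h6 h7) h1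
  · exact ⟨_, a1, a2, fun e he => by rw [Multiset.count_replicate]; grind⟩
  · exact ⟨_, a1, a2, a4.quad_par h2 ((ofQuad Q).restrict_nondeg_iff.2 a3) fun k hk => (h1 k (Multiset.mem_of_le a1 hk)).1⟩

section two
variable (h2 : (2 : F) ≠ 0) {C : CForm (quadType F) V} (hC : C.Nondeg) {s : Multiset ℕ} (hs : ∀ k ∈ s, Odd k) {j : ℕ}
include h2 hC hs

theorem ut_two (h0 : s ≠ 0) (hd : finrank F V = s.sum + 4 * j) : UT C (s + .replicate (2 * j) 2) :=
  let ⟨a, ha⟩ := Multiset.exists_mem_of_ne_zero h0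
  ut_quad h2 hC (by simp [hd]; ring) (fun k hk => (Multiset.mem_add.1 hk).elim (fun h => (hs k h).pos) fun h => by
    simp [Multiset.eq_of_mem_replicate h]) (fun b hb => by
      rw [Multiset.count_add, Multiset.count_eq_zero.2 fun h => by grind, Multiset.count_replicate]; grind)
    (Multiset.mem_add.2 (.inl ha)) (hs a ha)

theorem split_two (hu : InI C u) (h : NType (u - 1) (s + .replicate j 2)) (hX : C.NondegOn X) (h1 : Iv u X) :
    ∃ t t' k k', s = t + t' ∧ NType (u.restrict h1 - 1) (t + .replicate (2 * k) 2) ∧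
      NType (u.restrict (iv_perp hC hu h1) - 1) (t' + .replicate (2 * k') 2) := by
  have h0 : ∀ k ∈ s + .replicate j 2, 0 < k := fun k hk => (Multiset.mem_add.1 hk).elim (fun h => (hs k h).pos) fun h => by
    simp [Multiset.eq_of_mem_replicate h]
  obtain ⟨ν, ν', e, a, b⟩ := nt_split hC hu h h0 hX h1
  rw [e] at h0
  obtain ⟨k, hk⟩ := UT.quad_par h2 (C.restrict_nondeg_iff.2 hX) ⟨_, isom_restrict hu h1, a⟩ (fun k hk => h0 k (by simp [hk]))
    2 even_two
  obtain ⟨k', hk'⟩ := UT.quad_par h2 (hC.restrict_perp hX) ⟨_, isom_restrict hu _, b⟩ (fun k hk => h0 k (by simp [hk]))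
    2 even_two
  refine ⟨ν.filter (¬ · = 2), ν'.filter (¬ · = 2), k, k', ?_, ?_, ?_⟩
  · rw [← Multiset.filter_add, ← e, Multiset.filter_add, Multiset.filter_eq_self.2 fun k hk => by grind,
      Multiset.filter_eq_nil.2 fun k hk => not_not.2 (Multiset.eq_of_mem_replicate hk), add_zero]
  · rwa [two_mul, ← hk, ← Multiset.filter_eq', add_comm, Multiset.filter_add_not]
  · rwa [two_mul, ← hk', ← Multiset.filter_eq', add_comm, Multiset.filter_add_not]

theorem exists_two (p : ℕ) [Fact p.Prime] [CharP F p] (h3 : ∀ k ∈ s, k ≤ 3) (h0 : s ≠ 0) (hj : 0 < j)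
    (hd : finrank F V = s.sum + 4 * j) : ∃ u, InI C u ∧ u ^ p = 1 ∧ u ≠ 1 ∧ ∀ X, C.NondegOn X → Iv u X →
      ∃ t ≤ s, finrank F X % 4 = t.sum % 4 ∧ finrank F X % 2 = t.card % 2 ∧
        (t = 0 → ∃ k, finrank F X = 2 * (2 * k) ∧ (C.restrict X).HasTS (2 * k)) ∧
        (t = s → ∃ k, finrank F (C.perp X) = 2 * (2 * k) ∧ (C.restrict (C.perp X)).HasTS (2 * k)) := by
  obtain ⟨u, a, b⟩ := ut_two h2 hC hs h0 hd
  have hp : 3 ≤ p := (Fact.out : p.Prime).two_le.lt_of_ne fun e => h2 (by subst e; exact CharTwo.two_eq_zero)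
  refine ⟨u, a, (b.pow_char p).2 fun k hk => (Multiset.mem_add.1 hk).elim (fun h => (h3 k h).trans hp) fun h => by
    rw [Multiset.eq_of_mem_replicate h]; omega, fun e => by simpa using b.eq_one.1 e 2 (by simp [Multiset.mem_replicate, hj.ne']), fun X h4 h5 => ?_⟩
  obtain ⟨t, t', k, k', rfl, c, d⟩ := split_two h2 hC hs a b h4 h5
  have e := c.finrank
  have := sum_mod_two (μ := t) fun k hk => Nat.not_even_iff_odd.2 (hs k (by simp [hk]))
  simp only [Multiset.sum_add, Multiset.sum_replicate, smul_eq_mul] at e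
  refine ⟨t, Multiset.le_add_right _ _, by omega, by omega, fun e => UT.two h2 (C.restrict_nondeg_iff.2 h4)
    ⟨_, isom_restrict a _, c⟩ fun k hk => ?_, fun e => UT.two h2 (hC.restrict_perp h4) ⟨_, isom_restrict a _, d⟩ fun k hk => ?_⟩
  · rw [e, zero_add] at hk; exact Multiset.eq_of_mem_replicate hk
  · rw [left_eq_add.1 e, zero_add] at hk; exact Multiset.eq_of_mem_replicate hk

omit hC hs in
theorem dsc_span {v : V} (hv : C.N v ≠ 0) (hA : Submodule.span F {v} = A) :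
    C.NondegOn A ∧ dsc (C.restrict A) = qsign (2 * C.N v) := by
  obtain rfl : Submodule.span F (Set.range fun _ : Unit => v) = A := by rwa [Set.range_const]
  have e : (C.gram fun _ : Unit => v).det = 2 * C.N v := (Matrix.det_unique _).trans (C.B_self v)
  have h := nondegOn_span_of_det_gram (e ▸ mul_ne_zero h2 hv)
  refine ⟨h, (dsc_eq (C.restrict_nondeg_iff.2 h) (Basis.span (linearIndependent_of_det_gram (e ▸ mul_ne_zero h2 hv)))).trans ?_⟩
  refine congrArg qsign (.trans ?_ e)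
  congr 1; ext; simp

omit hs in
theorem dsc_one_two (hu : InI C u) (h : NType (u - 1) ({1} + .replicate (2 * j) 2)) :
    ∃ v, u v = v ∧ C.N v ≠ 0 ∧ dsc C = qsign (2 * C.N v) := by
  have a1 := h.ker 1
  have a2 := h.finrank
  rw [pow_one] at a1
  simp only [Multiset.map_add, Multiset.map_replicate, Multiset.sum_add, Multiset.sum_replicate, smul_eq_mul,
    Multiset.map_singleton, Multiset.sum_singleton, min_self, min_eq_left one_le_two] at a1 a2
  obtain ⟨v, a3, a4⟩ : ∃ v ∈ LinearMap.ker (u - 1), C.N v ≠ 0 := by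
    by_contra! H
    have := HasTS.two_mul_le hC ⟨_, quad_ts_iff.2 H, a1⟩
    omega
  replace a3 : u v = v := sub_eq_zero.1 a3
  obtain ⟨b1, b2⟩ := dsc_span h2 a4 rfl
  have b3 : Iv u (Submodule.span F {v}) := iv_iff.1 (by simp [Submodule.map_span, a3])
  obtain ⟨t, t', k, k', e, c, d⟩ := split_two h2 hC (by simp) hu h b1 b3
  have c1 := c.finrank
  rw [finrank_span_singleton (by rintro rfl; simp at a4)] at c1
  obtain rfl : t' = 0 := by
    rcases Multiset.le_singleton.1 (e ▸ Multiset.le_add_right t t') with rfl | rfl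
    · simp at c1; omega
    · exact left_eq_add.1 e
  obtain ⟨l, d1, d2⟩ := UT.two h2 (hC.restrict_perp b1) ⟨_, isom_restrict hu _, d⟩ fun k hk => by
    rw [zero_add] at hk; exact Multiset.eq_of_mem_replicate hk
  rw [hasTS_iff_dsc h2 (hC.restrict_perp b1) d1, dsc_perp hC b1, pow_mul, Int.units_sq, one_pow, b2] at d2
  exact ⟨v, a3, a4, by rw [← mul_one (dsc C), ← Int.units_mul_self, ← mul_assoc, d2, one_mul]⟩

omit hs in
theorem exists_class (p : ℕ) [Fact p.Prime] [CharP F p] (hd : finrank F V = 4 + 4 * j) (s : ℤˣ) :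
    ∃ u, InI C u ∧ u ^ p = 1 ∧ u ≠ 1 ∧ ∀ X, C.NondegOn X → Iv u X → finrank F X % 4 = 1 → dsc (C.restrict X) = s := by
  have hp : 3 ≤ p := (Fact.out : p.Prime).two_le.lt_of_ne fun e => h2 (by subst e; exact CharTwo.two_eq_zero)
  obtain ⟨A, -, a1, a2, rfl⟩ := exists_sub h2 hC (C.nondegOn_top.2 hC) one_pos (by simp; omega) s
  have a3 := hC.finrank_add_finrank_perp A
  obtain ⟨y, b1, b2⟩ := ut_two h2 (hC.restrict_perp a1) (s := {3}) (by decide) (j := j) (by simp) (by simp; omega)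
  obtain ⟨u, h1, h3, h4, e, rfl⟩ := exists_orth_end hC a1 isom_one b1
  have b3 := NType.split (hC.isCompl_perp a1) h1 h3 (by rw [e]; exact nType_one) b2
  rw [a2, ← add_assoc] at b3
  refine ⟨u, h4, (b3.pow_char p).2 (by simp [Multiset.mem_replicate]; omega), fun e => by simpa using b3.eq_one.1 e 3,
    fun X c1 c2 c3 => ?_⟩
  obtain ⟨t, t', k, k', c4, c, -⟩ := split_two h2 hC (by decide) h4 b3 c1 c2
  have c5 := c.finrank
  obtain rfl : t = {1} := by
    have : t ∈ Multiset.powerset (Multiset.replicate 1 1 + {3}) := Multiset.mem_powerset.2 (c4 ▸ Multiset.le_add_right t t')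
    simp at this c5
    rcases this with (rfl | rfl) | rfl | rfl <;> simp at c5 ⊢ <;> omega
  obtain ⟨v, d1, d2, d3⟩ := dsc_one_two h2 (C.restrict_nondeg_iff.2 c1) (isom_restrict h4 c2) c
  obtain ⟨a, b, d4⟩ := H11.exists_add_of_isCompl (hC.isCompl_perp a1) v.1
  have d5 : u a = a := congrArg (fun f : End F A => (f a).1) e
  have d6 : u b = b := add_left_cancel (a := a.1) (by
    rw [← d4, ← congrArg Subtype.val d1, LinearMap.restrict_coe_apply, d4, map_add, d5])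
  have d7 : C.N b = 0 := (ts_ker h2 b1 b2 (by simp [Multiset.mem_replicate])).1 b (Subtype.ext (sub_eq_zero.2 d6))
  have d8 : C.N v = C.N a := by rw [d4, C.N_add, d7, b.2 _ a.2]; simp
  refine d3.trans ((congrArg (fun x => qsign (2 * x)) d8).trans ?_)
  refine (dsc_span h2 (d8 ▸ d2) (Submodule.eq_of_le_of_finrank_eq (by simp) ?_)).2.symm
  rw [a2, finrank_span_singleton fun e => d2 (d8.trans (by simp [e]))]

end two

end H22
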