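import Cfsg.Agent.H22.EL8

/-! Elusive actions on subspaces: unipotent elements, conclusions. -/

set_option autoImplicit false

namespace H22

open Module Polynomial H12 H12.CForm Pointwise QuadraticMap

variable {F V W : Type*} [Field F] [AddCommGroup V] [Module F V] [AddCommGroup W] [Module F W] {r : ℕ}
  {u : End F V} {U U' W₀ U₀ X Z A B : Submodule F V} {T : FormType F} {C : CForm T V} {C' : CForm T W}
  {Ω : Submodule F V → Prop} {G : End F V → Prop} {Q : QuadraticForm F V} {μ ν ν' : Multiset ℕ} {m n : ℕ}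
  [FiniteDimensional F V] [FiniteDimensional F W] [Fintype F]

theorem exists_iv_of_gram (hu : InI C u) {ι : Type*} [Fintype ι] [DecidableEq ι] {d : ι → ℕ} (hd : ∀ k, 0 < d k)
    {u' : End F W} (J : JB (u' - 1) d) (w : ℕ → ι → V) (h1 : ∀ i k, ((u - 1) ^ i :) (w i k) = 0)
    (h2 : ∀ i, (Matrix.of fun k l : Bk d i => C.B (((u - 1) ^ (i - 1) :) (w i k)) (w i l)).det ≠ 0) :
    ∃ X, (C.NondegOn X ∧ finrank F X = finrank F W) ∧ Iv u X := by
  have hv : ∀ k, ((u - 1) ^ d k) (w (d k) k) = 0 := fun k => h1 _ _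
  set φ := J.lift (u - 1) fun k => w (d k) k
  have a1 : ∀ x, φ (u' x) = u (φ x) := fun x => by simpa using J.lift_comm hv x
  have a2 : Function.Injective ((C.B.comp φ).compl₂ φ) := J.inj_of_gram hd (fun x y => by simp [a1, hu.1]) T.σσ fun i => by
    convert h2 i using 2
    ext k l
    simp [JB.gram_apply, φ, J.lift_pow hv, J.lift_e hv, k.2, l.2]
  refine ⟨LinearMap.range φ, ⟨?_, LinearMap.finrank_range_of_inj fun x y e => a2 (by ext; simp [e])⟩, ?_⟩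
  · rintro _ ⟨x, rfl⟩ h
    rw [show x = 0 from a2 (by ext y; simpa using h _ ⟨y, rfl⟩), map_zero]
  · rintro _ ⟨x, rfl⟩; exact ⟨_, a1 x⟩

theorem exists_gram_sub {κ : Type*} [Fintype κ] [DecidableEq κ] (hX : C.NondegOn X) (h : finrank F X = Fintype.card κ) :
    ∃ v : κ → V, (C.gram v).det ≠ 0 :=
  let b := (finBasisOfFinrankEq F X h).reindex (Fintype.equivFin κ).symm
  ⟨fun k => b k, (nondeg_iff_det_gram b).1 (C.restrict_nondeg_iff.2 hX)⟩

theorem exists_mat_sub {κ κ' : Type*} [Fintype κ] [DecidableEq κ] [Fintype κ'] [DecidableEq κ'] {G : Matrix κ κ F}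
    (h0 : G.det ≠ 0) (h : Fintype.card κ' ≤ Fintype.card κ)
    (h1 : (Matrix.toBilin' G).IsAlt ∧ Even (Fintype.card κ') ∨ (2 : F) ≠ 0 ∧ G.IsSymm) :
    ∃ v : κ' → κ → F, (Matrix.of fun k l => Matrix.toBilin' G (v k) (v l)).det ≠ 0 := by
  rcases h1 with ⟨h1, k, hk⟩ | ⟨h2, h1⟩
  · have hC := (nondeg_iff_det_gram (Pi.basisFun F κ)).2 ((gram_ofAlt h1).symm ▸ h0)
    obtain ⟨X, -, a1, a2⟩ := exists_sub_alt hC ((nondegOn_top _).2 hC) (k := k) (by simp; omega)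
    exact exists_gram_sub a1 (by omega)
  · have e : ∀ x y, (ofQuad (Matrix.toBilin' G).toQuadraticMap).B x y = 2 * Matrix.toBilin' G x y := fun x y => by
      simp [LinearMap.BilinMap.polar_toQuadraticMap, two_mul, (Matrix.isSymm_toBilin'_iff_isSymm.2 h1).eq y x]
    have hC : (ofQuad (Matrix.toBilin' G).toQuadraticMap).Nondeg := (nondeg_iff_det_gram (Pi.basisFun F κ)).2 (by
      rw [show CForm.gram _ _ = (2 : F) • G by ext; simp [-ofQuad_B, e]]; simp [h0, h2])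
    obtain ⟨X, -, a1, a2⟩ := exists_sub' h2 hC ((nondegOn_top _).2 hC) (k := Fintype.card κ') (by simpa)
    obtain ⟨v, hv⟩ := exists_gram_sub a1 a2
    refine ⟨v, fun h => hv ?_⟩
    rw [show CForm.gram _ v = (2 : F) • Matrix.of fun k l => Matrix.toBilin' G (v k) (v l) by ext; simp [-ofQuad_B, e],
      Matrix.det_smul, h, mul_zero]

theorem exists_iv_alt (h2 : (2 : F) ≠ 0) {C : CForm (altType F) V} (hC : C.Nondeg) (hu : InI C u) (h : NType (u - 1) μ)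
    (hμ : ∀ k ∈ μ, 0 < k) (hν : ν ≤ μ) (h3 : ∀ a, Odd a → Even (ν.count a)) :
    ∃ X, (C.NondegOn X ∧ finrank F X = ν.sum) ∧ Iv u X := by
  obtain ⟨d, a1, a2, -, ⟨J⟩⟩ := h.jb' hμ
  obtain ⟨u', d', -, b1, b2, ⟨J'⟩⟩ := exists_jb' (F := F) (V := Fin ν.sum → F) (μ := ν) (by simp)
    fun k hk => hμ k (Multiset.mem_of_le hν hk)
  choose v hv using fun i => exists_mat_sub (κ' := Bk d' i) (J.det_gram_ne a1 (toSQ hC) hu.1 i)
    (by rw [a2, b2]; exact Multiset.count_le_of_le i hν) (i.even_or_odd.symm.imp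
      (fun hi => ⟨J.gram_alt a1 hu.1 (alt_isAlt C) hi, b2 i ▸ h3 i hi⟩) fun hi => ⟨h2, .ext fun k l =>
        (J.gram_symm a1 hu.1 C.symm i l k).trans (by
          rw [Odd.neg_one_pow (Nat.Even.sub_odd (k.2 ▸ a1 k) hi odd_one)]; simp [altType]; rfl)⟩)
  simpa using exists_iv_of_gram hu b1 J' (fun i k => if h : d' k = i then ∑ l, v i ⟨k, h⟩ l • J.e l else 0)
    (fun i k => by split_ifs <;> simp [J.nil_Bk]) fun i => by
      convert hv i using 2
      ext k l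
      simp only [Matrix.of_apply, k.2, l.2, dif_pos, Matrix.toBilin'_apply, JB.gram_apply, map_sum, map_smul, B_smul_left,
        LinearMap.sum_apply, smul_eq_mul, Finset.mul_sum]
      rw [Finset.sum_comm]
      exact Finset.sum_congr rfl fun _ _ => Finset.sum_congr rfl fun _ _ => by simp [altType]; ring_nf; rfl

variable (p : ℕ) [Fact p.Prime] [CharP F p]

theorem unip_sp [Nontrivial V] (h2 : (2 : F) ≠ 0) {C : CForm (altType F) V} (hC : C.Nondeg) (hm : m ≤ finrank F V) (hm' : Even m)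
    (hΩ : ∀ X, Ω X ↔ C.NondegOn X ∧ finrank F X = m) : El (InI C) p Ω ↔ ∀ μ : Multiset ℕ, (∀ a ∈ μ, 0 < a ∧ a ≤ p) →
      (∀ a, Odd a → Even (μ.count a)) → μ.sum = finrank F V → ∃ ν ≤ μ, ν.sum = m ∧ ∀ a, Odd a → Even (ν.count a) := by
  rw [el_I hC fun z _ => eq_one_of_pow_char p]
  refine ⟨fun H μ h1 h3 h4 => ?_, fun H u a b _ => ?_⟩
  · obtain ⟨ν, a1, a2, rfl | ⟨X, a3, a4⟩⟩ := el_part p hC H (fun X => (hΩ X).1) hm
      (ut_alt hC h4.symm (fun k hk => (h1 k hk).1) h3) h1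
    · exact ⟨_, a1, a2, fun e he => by rw [Multiset.count_replicate]; grind⟩
    · exact ⟨_, a1, a2, a4.alt_par (C.restrict_nondeg_iff.2 a3) fun k hk => (h1 k (Multiset.mem_of_le a1 hk)).1⟩
  · obtain ⟨μ, a1, a2⟩ := exists_nType ((pow_char_iff p).1 b)
    obtain ⟨ν, b1, rfl, b2⟩ := H μ a1 (UT.alt_par hC ⟨u, a, a2⟩ fun k hk => (a1 k hk).1) a2.finrank.symm
    simpa only [hΩ] using exists_iv_alt h2 hC a a2 (fun k hk => (a1 k hk).1) b1 b2

theorem ut_herm {q : ℕ} {hF : Fintype.card F = q ^ 2} {C : CForm (H11.hermT hF) V} (hC : C.Nondeg)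
    (h : finrank F V = μ.sum) : UT C μ :=
  let ⟨g, hg⟩ := exists_gu_nType hF (μ := μ) rfl
  UT.iso ⟨_, (guRep hF _).isom g, hg⟩ (hermT_iso_hermC hF hC h).symm hC

theorem unip_su [Nontrivial V] {q : ℕ} {hF : Fintype.card F = q ^ 2} {C : CForm (H11.hermT hF) V} (hC : C.Nondeg)
    (hW : C.NondegOn W₀) (hΩ : ∀ X, Ω X ↔ C.NondegOn X ∧ finrank F X = finrank F W₀) : El (InS C) p Ω ↔
      ∀ μ : Multiset ℕ, (∀ a ∈ μ, 0 < a ∧ a ≤ p) → μ.sum = finrank F V → ∃ ν ≤ μ, ν.sum = finrank F W₀ := by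
  rw [el_S hC fun z _ => eq_one_of_pow_char p]
  refine ⟨fun H μ h1 h4 => ?_, fun H u a b _ => ?_⟩
  · obtain ⟨ν, a1, a2, -⟩ := el_part p hC H (fun X => (hΩ X).1) (Submodule.finrank_le _) (ut_herm hC h4.symm) h1
    exact ⟨_, a1, a2⟩
  · obtain ⟨μ, a1, a2⟩ := exists_nType ((pow_char_iff p).1 b)
    obtain ⟨ν, b1, b2⟩ := H μ a1 a2.finrank.symm
    obtain ⟨ν', rfl⟩ := Multiset.le_iff_exists_add.1 b1
    have := a2.finrank
    have := hC.finrank_add_finrank_perp W₀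
    obtain ⟨g, c1, c2, c3⟩ := UT.orth hC hW (ut_herm (C.restrict_nondeg_iff.2 hW) b2.symm) (ν' := ν')
      (ut_herm (hC.restrict_perp hW) (by rw [Multiset.sum_add] at *; omega))
    obtain ⟨e, d1, d2⟩ := herm_fsim (H11.frob_ne_id hF) hC hC c1 a (sim_sub_one.1 (c2.sim a2))
    exact ⟨_, (hΩ _).2 ⟨C.restrict_nondeg_iff.1 ((iso_map d1 W₀).nondeg (C.restrict_nondeg_iff.2 hW)),
      LinearEquiv.finrank_map_eq _ _⟩, iv_map d2 c3⟩

theorem part_two (h : m ≤ n) : (∀ μ : Multiset ℕ, (∀ a ∈ μ, 0 < a ∧ a ≤ 2) → μ.sum = n → ∃ ν ≤ μ, ν.sum = m) ↔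
    Odd n ∨ Even m := by
  refine ⟨fun H => n.even_or_odd.symm.imp_right fun hk => ?_, fun H μ h1 h2 => ?_⟩
  · obtain ⟨k, hk⟩ := hk
    obtain ⟨ν, a, b⟩ := H (.replicate k 2) (by simp [Multiset.mem_replicate]) (by simp; omega)
    obtain ⟨j, -, rfl⟩ := Multiset.le_replicate_iff.1 a
    exact ⟨j, by simp at b; omega⟩
  · have e := Multiset.filter_add_not (· = 2) μ
    rw [Multiset.filter_eq', (Multiset.eq_replicate_card (a := 1) (s := μ.filter _)).2 fun k hk => by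
      grind [Multiset.mem_filter]] at e
    generalize Multiset.count 2 μ = a, (μ.filter (¬ · = 2)).card = b at e
    subst e
    simp only [Multiset.sum_add, Multiset.sum_replicate, smul_eq_mul, Nat.even_iff, Nat.odd_iff] at h2 H
    exact ⟨.replicate (min a (m / 2)) 2 + .replicate (m - 2 * min a (m / 2)) 1, add_le_add
      ((Multiset.replicate_le_replicate 2).2 (by omega)) ((Multiset.replicate_le_replicate 1).2 (by omega)), by simp; omega⟩

variable (h2 : (2 : F) ≠ 0) (hp : Odd p) (hQ : QNondeg Q) (h7 : 7 ≤ n) (hn : finrank F V = n)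
include h2 hp hQ h7 hn

theorem unip_OT {k : ℕ} {P : Prop} (H : El (InO Q) p Ω) (hΩ : ∀ X, Ω X → OT (ofQuad Q) k P X) :
    (P ∧ k % 2 = 0) ∨ ∃ l, n = 2 * (k + 2 * l) ∧ ((ofQuad Q).HasTS (k + 2 * l) ↔ P) := by
  have := Module.nontrivial_of_finrank_pos (R := F) (M := V) (by omega)
  obtain ⟨s, j, a1, a2, a3, a4, a5, a6⟩ : ∃ (s : Multiset ℕ) (j : ℕ), (∀ k ∈ s, Odd k) ∧ (∀ k ∈ s, k ≤ 3) ∧ s ≠ 0 ∧ 0 < j ∧
      finrank F V = s.sum + 4 * j ∧ s.card ≤ 2 := by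
    obtain h | h | h | h : n % 4 = 0 ∨ n % 4 = 1 ∨ n % 4 = 2 ∨ n % 4 = 3 := by omega
    exacts [⟨{1, 3}, n / 4 - 1, by decide, by decide, by decide, by omega, by simp; omega, by simp⟩,
      ⟨{1}, n / 4, by decide, by decide, by decide, by omega, by simp; omega, by simp⟩,
      ⟨{1, 1}, n / 4, by decide, by decide, by decide, by omega, by simp; omega, by simp⟩,
      ⟨{3}, n / 4, by decide, by decide, by decide, by omega, by simp; omega, by simp⟩]
  obtain ⟨u, b1, b2, b3, b4⟩ := exists_two h2 hQ a1 p a2 a3 a4 a5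
  obtain ⟨X, c1, c2⟩ := (el_O hQ (.inr (by omega)) hp).1 H u b1 b2 b3
  obtain ⟨c3, c4, c5⟩ := hΩ X c1
  obtain ⟨t, d1, -, d2, d3, d4⟩ := b4 X c4 c2
  have := Multiset.card_le_card d1
  by_cases e : t.card = 0
  · obtain ⟨l, e1, e2⟩ := d3 (Multiset.card_eq_zero.1 e)
    exact .inl ⟨c5.1 ((show 2 * l = k by omega) ▸ e2), by omega⟩
  · obtain ⟨l, e1, e2⟩ := d4 (Multiset.eq_of_le_of_card_le d1 (by omega))
    have := hQ.finrank_add_finrank_perp X
    exact .inr ⟨l, by omega, ((hasTS_perp hQ c4 c3 (by omega)).1 e2).trans c5⟩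

theorem not_el_odd (hn' : Even n) (hW : (ofQuad Q).NondegOn W₀) (hm : Odd (finrank F W₀))
    (hΩ : ∀ X, Ω X → ((ofQuad Q).restrict X).Iso ((ofQuad Q).restrict W₀)) : ¬ El (InO Q) p Ω := fun H => by
  have := Module.nontrivial_of_finrank_pos (R := F) (M := V) (by omega)
  rw [el_O hQ (.inr (by omega)) hp] at H
  have n1 := (ofQuad Q).restrict_nondeg_iff.2 hW
  have n2 := fun X h => (ofQuad Q).restrict_nondeg_iff.1 ((hΩ X h).symm.nondeg n1)
  rw [Nat.even_iff] at hn'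
  rw [Nat.odd_iff] at hm
  by_cases h : n % 4 = 0
  · obtain ⟨u, b1, b2, b3, b4⟩ := exists_class h2 hQ p (j := n / 4 - 1) (by omega)
      (-((if finrank F W₀ % 4 = 1 then 1 else dsc (ofQuad Q)) * dsc ((ofQuad Q).restrict W₀)))
    obtain ⟨X, c1, c2⟩ := H u b1 b2 b3
    have c3 := (hΩ X c1).finrank_eq
    have := hQ.finrank_add_finrank_perp X
    rw [← dsc_iso ((ofQuad Q).restrict_nondeg_iff.2 (n2 X c1)) (hΩ X c1)] at b4
    split_ifs at b4 with e
    · simpa using b4 X (n2 X c1) c2 (by omega)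
    · simpa [dsc_perp hQ (n2 X c1)] using b4 _ (hQ.nondegOn_perp (n2 X c1)) (iv_perp hQ b1 c2) (by omega)
  · obtain ⟨a, j, a1, a2, a3, a4⟩ : ∃ a j, (a = 1 ∨ a = 3) ∧ 0 < j ∧ n = 2 * a + 4 * j ∧ finrank F W₀ % 4 ≠ a := by
      by_cases e : finrank F W₀ % 4 = 1
      exacts [⟨3, n / 4 - 1, by omega⟩, ⟨1, n / 4, by omega⟩]
    obtain ⟨u, b1, b2, b3, b4⟩ := exists_two h2 hQ (s := .replicate 2 a) (by grind [Multiset.mem_replicate]) p
      (by grind [Multiset.mem_replicate]) (by simp) a2 (by simp; omega)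
    obtain ⟨X, c1, c2⟩ := H u b1 b2 b3
    obtain ⟨t, d1, d2, d3, -⟩ := b4 X (n2 X c1) c2
    obtain ⟨l, d4, rfl⟩ := Multiset.le_replicate_iff.1 d1
    rw [(hΩ X c1).finrank_eq, Multiset.card_replicate] at d3
    obtain rfl : l = 1 := by omega
    simp [(hΩ X c1).finrank_eq] at d2
    omega

end H22
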