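import Mathlib

/-! Eigenspace bounds for normalizers of extraspecial groups: algebraic lemmas. -/

set_option autoImplicit false
open Module Finset Polynomial
open scoped commutatorElement

namespace H22.Eig

section alg

variable {A C : Type*} [AddCommGroup A] [Group C]

theorem poly (B : A → A → C) (hl : ∀ a a' b, B (a + a') b = B a b * B a' b)
    (hr : ∀ a b b', B a (b + b') = B a b * B a b') (alt : ∀ a, B a a = 1)
    (nd : ∀ b, (∀ a, B a b = 1) → b = 0) (T : AddMonoid.End A) (hT : Function.Surjective T)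
    (inv : ∀ a b, B (T a) (T b) = B a b) (h : ∀ a, B (T a - a) (T (T a - a)) = 1) :
    (T - 1) * (T ^ 2 - 1) * (T - 1) = 0 := by
  have sl : ∀ a a' b, B (a - a') b = B a b * (B a' b)⁻¹ := fun a a' b => by
    rw [eq_mul_inv_iff_mul_eq, ← hl, sub_add_cancel]
  have sr : ∀ a b b', B a (b - b') = B a b * (B a b')⁻¹ := fun a b b' => by
    rw [eq_mul_inv_iff_mul_eq, ← hr, sub_add_cancel]
  have sk : ∀ a b, B a b * B b a = 1 := fun a b => by
    have := alt (a + b)
    rwa [hl, hr, hr, alt, alt, one_mul, mul_one] at this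
  ext b
  change T (T (T (T b - b)) - (T b - b)) - (T (T (T b - b)) - (T b - b)) = 0
  obtain ⟨b, rfl⟩ : ∃ b', b' = b := ⟨b, rfl⟩
  refine nd _ (fun a => ?_)
  obtain ⟨a, rfl⟩ := hT a
  obtain ⟨a, rfl⟩ := hT a
  have h1 := h (a + b)
  rw [show T (a + b) - (a + b) = (T a - a) + (T b - b) by rw [map_add]; abel, map_add, hl, hr, hr,
    h, h, one_mul, mul_one] at h1
  have h2 : B (T a - a) (T (T b - b)) = B (T (T a - a)) (T b - b) :=
    mul_right_cancel (h1.trans (sk _ _).symm)
  generalize T b - b = v at h2 ⊢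
  have h3 : B (T (T a - a)) (T (T v) - v) = 1 := by rw [sr, inv, h2, mul_inv_cancel]
  generalize T (T v) - v = z at h3 ⊢
  rw [map_sub, sl, mul_inv_eq_one] at h3
  rw [sr, inv, h3, mul_inv_cancel]

theorem unip {R : Type*} [Ring R] {r : ℕ} (hr : r.Prime) (h0 : (r : R) = 0) (T : R) (k : ℕ) :
    T ^ r ^ k = 1 + (T - 1) ^ r ^ k := by
  obtain ⟨s, hs⟩ := (Commute.one_left (T - 1)).exists_add_pow_prime_pow_eq hr k
  rw [add_sub_cancel, h0] at hs
  simpa using hs

theorem key {r ϖ : ℕ} (hr : r.Prime) (hϖ : ϖ.Prime) (h2 : ϖ ≠ 2) (h0 : ∀ a : A, r • a = 0)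
    (T : AddMonoid.End A) (hT : T ^ ϖ = 1) (hT1 : T ≠ 1)
    (h : (T - 1) * (T ^ 2 - 1) * (T - 1) = 0) :
    ϖ = r ∧ ∃ a, T a - a ≠ 0 ∧ T (T a - a) - (T a - a) = 0 := by
  have e0 : (r : AddMonoid.End A) = 0 := by ext a; simpa using h0 a
  have h3 : (T ^ 2 - 1) ^ 3 = 0 := by
    have : (T ^ 2 - 1) ^ 3 = (T - 1) * (T ^ 2 - 1) * (T - 1) * ((T + 1) * (T + 1)) := by
      noncomm_ring
    rw [this, h, zero_mul]
  have h4 : T ^ (2 * r ^ 2) = 1 := by
    rw [pow_mul, unip hr e0, pow_eq_zero_of_le (show 3 ≤ r ^ 2 by nlinarith [hr.two_le]) h3,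
      add_zero]
  have hϖr : ϖ = r := by
    by_contra hne
    have hc : Nat.Coprime ϖ (2 * r ^ 2) :=
      Nat.Coprime.mul_right ((Nat.coprime_primes hϖ Nat.prime_two).2 h2)
        (((Nat.coprime_primes hϖ hr).2 hne).pow_right 2)
    have := pow_gcd_eq_one.2 ⟨hT, h4⟩
    rw [hc.gcd_eq_one, pow_one] at this
    exact hT1 this
  subst hϖr
  refine ⟨rfl, ?_⟩
  have h5 : (T - 1) ^ ϖ = 0 := by
    have := unip hr e0 T 1
    rw [pow_one, hT] at this
    simpa using this
  by_contra hc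
  push Not at hc
  have h6 : ∀ k : ℕ, ∀ a, T a - a ≠ 0 → ((T - 1) ^ (k + 1)) a ≠ 0 := by
    intro k
    induction k with
    | zero => intro a ha; rw [zero_add, pow_one]; exact ha
    | succ k ih => intro a ha; rw [pow_succ]; exact ih _ (hc a ha)
  obtain ⟨a, ha⟩ : ∃ a, T a - a ≠ 0 := by
    by_contra h7
    push Not at h7
    exact hT1 (by ext a; exact sub_eq_zero.1 (h7 a))
  have := h6 (ϖ - 1) a ha
  rw [Nat.sub_add_cancel hϖ.pos, h5] at this
  exact this rfl

end alg

theorem grp {K : Type*} [Group K] {r ϖ : ℕ} (hr : r.Prime) (hϖ : ϖ.Prime) (h2 : ϖ ≠ 2)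
    (hc : ∀ x y : K, ⁅x, y⁆ ∈ Subgroup.center K) (hp : ∀ x y : K, ⁅x, y⁆ ^ r = 1) (θ : MulAut K)
    (hθc : ∀ z ∈ Subgroup.center K, θ z = z) (hθ : θ ^ ϖ = 1)
    (h : ∀ x, Commute (x⁻¹ * θ x) (θ (x⁻¹ * θ x))) (hne : ∃ x, x⁻¹ * θ x ∉ Subgroup.center K) :
    ϖ = r ∧ ∃ x, x⁻¹ * θ x ∉ Subgroup.center K ∧
      (x⁻¹ * θ x)⁻¹ * θ (x⁻¹ * θ x) ∈ Subgroup.center K := by
  have cz : ∀ {z}, z ∈ Subgroup.center K → ∀ x, x * z = z * x := fun hz =>
    Subgroup.mem_center_iff.1 hz
  have ml : ∀ x x' y : K, ⁅x * x', y⁆ = ⁅x, y⁆ * ⁅x', y⁆ := fun x x' y => by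
    have e : ⁅x * x', y⁆ = x * ⁅x', y⁆ * x⁻¹ * ⁅x, y⁆ := by
      simp only [commutatorElement_def]; group
    rw [e, cz (hc x' y) x, mul_inv_cancel_right, cz (hc x y)]
  have mr : ∀ x y y' : K, ⁅x, y * y'⁆ = ⁅x, y⁆ * ⁅x, y'⁆ := fun x y y' => by
    rw [← commutatorElement_inv, ml, mul_inv_rev, commutatorElement_inv, commutatorElement_inv,
      cz (hc x y)]
  have zl : ∀ {z}, z ∈ Subgroup.center K → ∀ x : K, ⁅z, x⁆ = 1 := fun hz x =>
    commutatorElement_eq_one_iff_mul_comm.2 (cz hz x).symm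
  have zr : ∀ {z}, z ∈ Subgroup.center K → ∀ x : K, ⁅x, z⁆ = 1 := fun hz x =>
    commutatorElement_eq_one_iff_mul_comm.2 (cz hz x)
  let W := K ⧸ Subgroup.center K
  let _ : CommGroup W := { (inferInstance : Group W) with
    mul_comm := fun a b => by
      obtain ⟨a, rfl⟩ := QuotientGroup.mk_surjective a
      obtain ⟨b, rfl⟩ := QuotientGroup.mk_surjective b
      rw [← QuotientGroup.mk_mul, ← QuotientGroup.mk_mul, QuotientGroup.eq]
      have := hc b⁻¹ a⁻¹
      simpa [commutatorElement_def, mul_assoc] using this }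
  let B0 : W → W → K := fun a b => Quotient.liftOn₂' a b (fun x y => ⁅x, y⁆) (by
    intro x y x' y' h1 h2
    rw [QuotientGroup.leftRel_apply] at h1 h2
    have e1 : x' = x * (x⁻¹ * x') := by group
    have e2 : y' = y * (y⁻¹ * y') := by group
    rw [e1, e2, ml, mr, zl h1, zr h2, mul_one, mul_one])
  have hB : ∀ x y : K, B0 x y = ⁅x, y⁆ := fun _ _ => rfl
  let T0 : W →* W := QuotientGroup.map _ _ θ.toMonoidHom (fun z hz => by
    change θ z ∈ Subgroup.center K; rwa [hθc z hz])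
  have hT0 : ∀ x : K, T0 x = (θ x : K) := fun _ => rfl
  let T : AddMonoid.End (Additive W) := MonoidHom.toAdditive T0
  have hT : ∀ x : K, T (Additive.ofMul (x : W)) = Additive.ofMul ((θ x : K) : W) := fun _ => rfl
  have hD : ∀ x : K, T (Additive.ofMul (x : W)) - Additive.ofMul (x : W) =
      Additive.ofMul ((x⁻¹ * θ x : K) : W) := fun x => by
    rw [hT, QuotientGroup.mk_mul, QuotientGroup.mk_inv, ofMul_mul, ofMul_inv]; abel
  have sj : ∀ a : Additive W, ∃ x : K, a = Additive.ofMul (x : W) := fun a => by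
    obtain ⟨x, hx⟩ := QuotientGroup.mk_surjective a.toMul
    exact ⟨x, by rw [hx]; rfl⟩
  have z0 : ∀ x : K, Additive.ofMul (x : W) = 0 ↔ x ∈ Subgroup.center K := fun x => by
    rw [ofMul_eq_zero, QuotientGroup.eq_one_iff]
  have hTk : ∀ (k : ℕ) (x : K), (T ^ k) (Additive.ofMul (x : W)) =
      Additive.ofMul (((θ ^ k) x : K) : W) := by
    intro k
    induction k with
    | zero => intro x; rfl
    | succ k ih => intro x; rw [pow_succ, pow_succ]; exact ih (θ x)
  have h3 := poly (fun a b : Additive W => B0 a.toMul b.toMul) (fun a a' b => by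
      obtain ⟨a, rfl⟩ := sj a; obtain ⟨a', rfl⟩ := sj a'; obtain ⟨b, rfl⟩ := sj b
      exact ml a a' b) (fun a b b' => by
      obtain ⟨a, rfl⟩ := sj a; obtain ⟨b, rfl⟩ := sj b; obtain ⟨b', rfl⟩ := sj b'
      exact mr a b b') (fun a => by
      obtain ⟨a, rfl⟩ := sj a
      exact commutatorElement_self a) (fun b hb => by
      obtain ⟨b, rfl⟩ := sj b
      exact (z0 b).2 (Subgroup.mem_center_iff.2 fun a =>
        commutatorElement_eq_one_iff_mul_comm.1 (hb (Additive.ofMul (a : W))))) T (fun a => by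
      obtain ⟨a, rfl⟩ := sj a
      exact ⟨Additive.ofMul ((θ.symm a : K) : W), by rw [hT]; simp⟩) (fun a b => by
      obtain ⟨a, rfl⟩ := sj a; obtain ⟨b, rfl⟩ := sj b
      change ⁅θ a, θ b⁆ = ⁅a, b⁆
      rw [← map_commutatorElement, hθc _ (hc a b)]) (fun a => by
      obtain ⟨a, rfl⟩ := sj a
      rw [hD, hT]
      exact commutatorElement_eq_one_iff_commute.2 (h a))
  obtain ⟨h4, a, h5, h6⟩ := key hr hϖ h2 (fun a => by
      obtain ⟨a, rfl⟩ := sj a
      rw [← ofMul_pow, ← QuotientGroup.mk_pow, z0, Subgroup.mem_center_iff]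
      intro b
      rw [← commutatorElement_eq_one_iff_mul_comm, ← hp b a]
      clear hr hp
      induction r with
      | zero => simp
      | succ k ih => rw [pow_succ, mr, ih, pow_succ]) T (by
      ext a
      obtain ⟨a, rfl⟩ := sj a
      rw [hTk, hθ]; rfl) (fun e => by
      obtain ⟨x, hx⟩ := hne
      refine hx ((z0 _).1 ?_)
      rw [← hD, e]; exact sub_self _) h3
  obtain ⟨a, rfl⟩ := sj a
  rw [hD] at h5 h6
  rw [hD] at h6
  exact ⟨h4, a, fun h7 => h5 ((z0 _).2 h7), (z0 _).1 h6⟩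

section lin

variable {F V : Type*} [Field F] [AddCommGroup V] [Module F V] [FiniteDimensional F V]

theorem sum_le {ι : Type*} (f : End F V) (s : Finset ι) (c : ι → F) (hc : Set.InjOn c s)
    (S : ι → Submodule F V) (hS : ∀ i ∈ s, S i ≤ f.eigenspace (c i)) (U : Submodule F V)
    (hU : ∀ i ∈ s, S i ≤ U) : ∑ i ∈ s, finrank F (S i) ≤ finrank F U := by
  classical
  refine le_trans ?_ (Submodule.finrank_mono (Finset.sup_le hU))
  clear hU
  induction s using Finset.induction_on with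
  | empty => simp
  | insert a s ha ih =>
    rw [sum_insert ha, sup_insert]
    have h1 := ih (hc.mono (by simp)) (fun i hi => hS i (mem_insert_of_mem hi))
    have h2 : Disjoint (S a) (s.sup S) := by
      refine (End.eigenspaces_iSupIndep f (c a)).mono (hS a (mem_insert_self _ _))
        (Finset.sup_le fun i hi => (hS i (mem_insert_of_mem hi)).trans ?_)
      refine le_iSup₂_of_le (c i) (fun e => ha ?_) le_rfl
      rwa [← hc (by simp [hi]) (by simp) e]
    have := Submodule.finrank_sup_add_finrank_inf_eq (S a) (s.sup S)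
    rw [h2.eq_bot, finrank_bot] at this
    omega

theorem le_sum {ι : Type*} (f : End F V) (s : Finset ι) (c : ι → F) (E : Submodule F V)
    (hE : ∀ e ∈ E, f e ∈ E) (h : ∀ e ∈ E, aeval f (∏ i ∈ s, (X - C (c i))) e = 0) :
    finrank F E ≤ ∑ i ∈ s, finrank F (E ⊓ f.eigenspace (c i) : Submodule F V) := by
  classical
  induction s using Finset.induction_on generalizing E with
  | empty =>
    have : E = ⊥ := (Submodule.eq_bot_iff _).2 (fun e he => by simpa using h e he)
    simp [this]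
  | insert a s ha ih =>
    rw [sum_insert ha]
    set φ : End F V := f - algebraMap F _ (c a) with hφ
    have hm : E.map φ ≤ E := by
      rintro _ ⟨e, he, rfl⟩
      exact E.sub_mem (hE e he) (E.smul_mem _ he)
    have h1 := ih (E.map φ) (by
      rintro _ ⟨e, he, rfl⟩
      exact ⟨f e, hE e he, by simp [hφ, Module.algebraMap_end_apply]⟩) (by
      rintro _ ⟨e, he, rfl⟩
      have := h e he
      rw [prod_insert ha, mul_comm, map_mul] at this
      simpa [hφ] using this)
    have h2 := LinearMap.finrank_range_add_finrank_ker (φ.domRestrict E)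
    rw [LinearMap.range_domRestrict, LinearMap.ker_domRestrict,
      ← Submodule.finrank_map_subtype_eq, Submodule.map_comap_subtype,
      show LinearMap.ker φ = f.eigenspace (c a) from (End.eigenspace_def).symm] at h2
    have h3 : ∑ i ∈ s, finrank F (E.map φ ⊓ f.eigenspace (c i) : Submodule F V) ≤
        ∑ i ∈ s, finrank F (E ⊓ f.eigenspace (c i) : Submodule F V) :=
      sum_le_sum fun i _ => Submodule.finrank_mono (inf_le_inf_right _ hm)
    omega

theorem le_sum_root (f : End F V) {r : ℕ} (hr : 0 < r) {ζ : F} (hζ : IsPrimitiveRoot ζ r)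
    (hf : f ^ r = 1) (E : Submodule F V) (hE : ∀ e ∈ E, f e ∈ E) :
    finrank F E ≤ ∑ i ∈ range r, finrank F (E ⊓ f.eigenspace (ζ ^ i) : Submodule F V) := by
  refine le_sum f _ _ E hE (fun e _ => ?_)
  have := X_pow_sub_C_eq_prod hζ hr (one_pow r)
  simp only [mul_one] at this
  rw [← this]
  simp [hf]

end lin

end H22.Eig
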