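import Cfsg.Agent.H22.Eig1

/-! Eigenspace bounds for normalizers of extraspecial groups. -/

set_option autoImplicit false
open Module Finset
open scoped commutatorElement

namespace H22.Eig

variable {F V Γ : Type*} [Field F] [AddCommGroup V] [Module F V] [Group Γ] (ρ : Γ →* End F V)

theorem inj (x : Γ) : Function.Injective (ρ x) := by
  intro a b h
  have := congrArg (ρ x⁻¹) h
  rwa [← End.mul_apply, ← End.mul_apply, ← map_mul, inv_mul_cancel, map_one] at this

theorem fin_map (x : Γ) (S : Submodule F V) : finrank F (S.map (ρ x)) = finrank F S :=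
  (Submodule.equivMapOfInjective _ (inj ρ x) S).finrank_eq.symm

theorem move {h x : Γ} {t l : F} (H : ρ h * ρ x = t • (ρ x * ρ h)) {e : V}
    (he : e ∈ (ρ h).eigenspace l) : ρ x e ∈ (ρ h).eigenspace (t * l) := by
  rw [End.mem_eigenspace_iff] at he ⊢
  rw [← End.mul_apply, H, LinearMap.smul_apply, End.mul_apply, he, map_smul, smul_smul]

theorem move2 {g h x : Γ} {l c : F} (H : g * x = x * h * g) {e : V}
    (he : e ∈ (ρ h).eigenspace l) (hg : e ∈ (ρ g).eigenspace c) :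
    ρ x e ∈ (ρ g).eigenspace (c * l) := by
  rw [End.mem_eigenspace_iff] at he hg ⊢
  rw [← End.mul_apply, ← map_mul, H, map_mul, map_mul, End.mul_apply, End.mul_apply, hg, map_smul,
    he, smul_smul, map_smul]

theorem of_comm {x y : Γ} {s : F} (h : ρ ⁅x, y⁆ = s • 1) : ρ x * ρ y = s • (ρ y * ρ x) := by
  have e : x * y = ⁅x, y⁆ * (y * x) := by rw [commutatorElement_def]; group
  rw [← map_mul, e, map_mul, h, map_mul, smul_mul_assoc, one_mul]

variable [FiniteDimensional F V]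

theorem eig_bound {h y : Γ} {ζ l : F} {r : ℕ} (hζ : IsPrimitiveRoot ζ r) (hl : l ≠ 0)
    (H : ρ h * ρ y = ζ • (ρ y * ρ h)) : r * finrank F ((ρ h).eigenspace l) ≤ finrank F V := by
  have := sum_le (ρ h) (range r) (fun a => ζ ^ a * l) (fun a ha b hb e =>
      hζ.injOn_pow ha hb (mul_right_cancel₀ hl e))
    (fun a => ((ρ h).eigenspace l).map (ρ (y ^ a))) (fun a _ => by
      rintro _ ⟨e, he, rfl⟩
      clear * - H he
      induction a with
      | zero => simpa using he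
      | succ a ih =>
        rw [pow_succ' y, map_mul, End.mul_apply, pow_succ', mul_assoc]
        exact move ρ H ih) ⊤ (fun _ _ => le_top)
  simpa [fin_map] using this

theorem case_one {g h x : Γ} {ζ c : F} {r : ℕ} (hp : r.Prime) (hr : 4 ≤ r)
    (hζ : IsPrimitiveRoot ζ r) (hc : c ≠ 0) (H : g * x = x * h * g) (hgh : g * h = h * g)
    (hh : ρ h ^ r = 1) (H1 : ρ h * ρ x = ρ x * ρ h)
    (hb : ∀ l ≠ 0, r * finrank F ((ρ h).eigenspace l) ≤ finrank F V) :
    2 * finrank F ((ρ g).eigenspace c) ≤ finrank F V := by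
  have h0 := hζ.ne_zero hp.pos.ne'
  have h1 := le_sum_root (ρ h) hp.pos hζ hh ((ρ g).eigenspace c) (fun e he => by
    simpa using move ρ (t := 1) (by rw [one_smul, ← map_mul, hgh, map_mul]) he)
  obtain ⟨k, rfl⟩ : ∃ k, r = k + 1 := ⟨r - 1, by omega⟩
  rw [sum_range_succ'] at h1
  have h2 : ∀ i ∈ range k, 3 * (k + 1) *
      finrank F ((ρ g).eigenspace c ⊓ (ρ h).eigenspace (ζ ^ (i + 1)) : Submodule F V) ≤
        finrank F V := by
    intro i hi
    have h3 : IsPrimitiveRoot (ζ ^ (i + 1)) (k + 1) := hζ.pow_of_coprime _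
      ((Nat.coprime_of_lt_prime (by omega) (by simpa using hi) hp).symm)
    generalize ζ ^ (i + 1) = l at h3
    have key : ∀ a : ℕ, ∀ e ∈ (ρ g).eigenspace c ⊓ (ρ h).eigenspace l,
        ρ (x ^ a) e ∈ (ρ g).eigenspace (c * l ^ a) ⊓ (ρ h).eigenspace l := by
      intro a e he
      induction a with
      | zero => simpa using he
      | succ a ih =>
        rw [pow_succ' x, map_mul, End.mul_apply, pow_succ, ← mul_assoc]
        exact ⟨move2 ρ H ih.2 ih.1, by simpa using move ρ (t := 1) (by rw [one_smul, H1]) ih.2⟩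
    have := sum_le (ρ g) (range 3) (fun a => c * l ^ a) (fun a ha b hb e =>
        h3.pow_inj (by simp at ha; omega) (by simp at hb; omega) (mul_left_cancel₀ hc e))
      (fun a => ((ρ g).eigenspace c ⊓ (ρ h).eigenspace l).map (ρ (x ^ a)))
      (fun a _ => by rintro _ ⟨e, he, rfl⟩; exact (key a e he).1) ((ρ h).eigenspace l)
      (fun a _ => by rintro _ ⟨e, he, rfl⟩; exact (key a e he).2)
    simp only [fin_map, sum_const, card_range, smul_eq_mul] at this
    have h4 := hb l (h3.ne_zero (by omega))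
    nlinarith
  have h3 := sum_le_sum h2
  rw [← mul_sum, sum_const, card_range, smul_eq_mul] at h3
  have h4 := hb (ζ ^ 0) (by simp)
  have h5 : finrank F ((ρ g).eigenspace c ⊓ (ρ h).eigenspace (ζ ^ 0) : Submodule F V) ≤
    finrank F ((ρ h).eigenspace (ζ ^ 0)) := Submodule.finrank_mono inf_le_right
  have h6 : 3 * (k + 1) * (2 * finrank F ((ρ g).eigenspace c)) ≤ 3 * (k + 1) * finrank F V := by
    nlinarith
  exact Nat.le_of_mul_le_mul_left h6 (by omega)

theorem tri_inj {r a b : ℕ} (hp : r.Prime) (ha : a < r) (hb : b < r) (hs : ¬ r ∣ a + b + 1 ∨ a = b)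
    (h : ∑ k ∈ range (a + 1), k ≡ ∑ k ∈ range (b + 1), k [MOD r]) : a = b := by
  rcases hs with hs | hs
  swap; · exact hs
  have h1 := h.mul_right 2
  rw [sum_range_id_mul_two, sum_range_id_mul_two, Nat.modEq_iff_dvd] at h1
  simp only [add_tsub_cancel_right] at h1
  have h2 : (r : ℤ) ∣ ((b : ℤ) - a) * ((a + b + 1 : ℕ) : ℤ) := by
    convert h1 using 1; push_cast; ring
  rcases (Nat.prime_iff_prime_int.1 hp).dvd_or_dvd h2 with h3 | h3
  · have := Int.eq_zero_of_abs_lt_dvd h3 (by rw [abs_lt]; constructor <;> omega)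
    omega
  · exact absurd (Int.natCast_dvd_natCast.1 h3) hs

theorem case_two {g h x : Γ} {ζ c : F} {r : ℕ} (hp : r.Prime) (hr : 4 ≤ r)
    (hζ : IsPrimitiveRoot ζ r) (hc : c ≠ 0) (H : g * x = x * h * g) (hgh : g * h = h * g)
    (hh : ρ h ^ r = 1) (H1 : ρ x * ρ h = ζ • (ρ h * ρ x))
    (hb : r * finrank F ((ρ h).eigenspace 1) ≤ finrank F V) :
    2 * finrank F ((ρ g).eigenspace c) ≤ finrank F V := by
  have h0 := hζ.ne_zero hp.pos.ne'
  have h1 := le_sum_root (ρ h) hp.pos hζ hh ((ρ g).eigenspace c) (fun e he => by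
    simpa using move ρ (t := 1) (by rw [one_smul, ← map_mul, hgh, map_mul]) he)
  have H2 : ρ h * ρ x = ζ⁻¹ • (ρ x * ρ h) := by rw [H1, smul_smul, inv_mul_cancel₀ h0, one_smul]
  have key : ∀ (a : ℕ) (c : F), ∀ e ∈ (ρ g).eigenspace c ⊓ (ρ h).eigenspace (ζ ^ a),
      ρ (x ^ a) e ∈ (ρ g).eigenspace (c * ζ ^ ∑ k ∈ range (a + 1), k) ⊓ (ρ h).eigenspace 1 := by
    intro a
    induction a with
    | zero => intro c e he; simpa using he
    | succ a ih =>
      intro c e he
      have := ih (c * ζ ^ (a + 1)) (ρ x e) ⟨move2 ρ H he.2 he.1, by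
        have := move ρ H2 he.2
        rwa [pow_succ', inv_mul_cancel_left₀ h0] at this⟩
      rwa [pow_succ x, map_mul, End.mul_apply, sum_range_succ _ (a + 1), add_comm _ (a + 1),
        pow_add ζ (a + 1), ← mul_assoc]
  have part : ∀ s : Finset ℕ, (∀ a ∈ s, a < r) → (∀ a ∈ s, ∀ b ∈ s, ¬ r ∣ a + b + 1 ∨ a = b) →
      ∑ a ∈ s, finrank F ((ρ g).eigenspace c ⊓ (ρ h).eigenspace (ζ ^ a) : Submodule F V) ≤
        finrank F ((ρ h).eigenspace 1) := by
    intro s hs1 hs2
    have := sum_le (ρ g) s (fun a => c * ζ ^ ∑ k ∈ range (a + 1), k) (fun a ha b hb e => by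
        refine tri_inj hp (hs1 a ha) (hs1 b hb) (hs2 a ha b hb) ?_
        have := mul_left_cancel₀ hc e
        rwa [hζ.isOfFinOrder hp.pos.ne' |>.pow_eq_pow_iff_modEq, ← hζ.eq_orderOf] at this)
      (fun a => ((ρ g).eigenspace c ⊓ (ρ h).eigenspace (ζ ^ a)).map (ρ (x ^ a)))
      (fun a _ => by rintro _ ⟨e, he, rfl⟩; exact (key a c e he).1) ((ρ h).eigenspace 1)
      (fun a _ => by rintro _ ⟨e, he, rfl⟩; exact (key a c e he).2)
    simpa only [fin_map] using this
  rw [← sum_filter_add_sum_filter_not _ (fun a => 2 * a < r)] at h1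
  have p1 := part ((range r).filter fun a => 2 * a < r) (fun a ha => by simp at ha; omega)
    (fun a ha b hb => by
      simp only [mem_filter, mem_range] at ha hb
      by_cases e : a = b
      · exact Or.inr e
      · exact Or.inl fun h => by have := Nat.le_of_dvd (by omega) h; omega)
  have p2 := part ((range r).filter fun a => ¬ 2 * a < r) (fun a ha => by simp at ha; omega)
    (fun a ha b hb => by
      simp only [mem_filter, mem_range] at ha hb
      refine Or.inl fun h => ?_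
      have := Nat.le_of_dvd (by omega) ((Nat.dvd_sub_iff_left (by omega) (dvd_refl r)).2 h)
      omega)
  nlinarith

theorem main (hρ : Function.Injective ρ) (N : Subgroup Γ) {r ϖ : ℕ} (hr : r.Prime) (hϖ : ϖ.Prime)
    (hc : ∀ x ∈ N, ∀ y ∈ N, ∃ s : F, s ^ r = 1 ∧ ρ ⁅x, y⁆ = s • 1)
    (hs : ∀ z : Γ, (∀ x ∈ N, z * x = x * z) → ∃ s : F, ρ z = s • 1) {g : Γ}
    (hg : g ∈ Subgroup.normalizer (N : Set Γ)) (hgϖ : g ^ ϖ = 1) (hns : ¬ ∃ s : F, ρ g = s • 1)
    (c : F) (hd : finrank F V < 2 * finrank F ((ρ g).eigenspace c)) :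
    r * (2 * finrank F ((ρ g).eigenspace c)) ≤ (r + 1) * finrank F V ∧ r ∣ finrank F V ∧
      (ϖ = 2 ∨ (ϖ = r ∧ r ≤ 3)) := by
  have : Fact r.Prime := ⟨hr⟩
  have cen : ∀ z (s : F), ρ z = s • 1 → ∀ x, z * x = x * z := fun z s h x =>
    hρ (by rw [map_mul, map_mul, h]; simp)
  have fix : ∀ z (s : F), ρ z = s • 1 → ∀ e ≠ 0, ρ z e = e → z = 1 := fun z s h e he h1 => by
    rw [h, LinearMap.smul_apply, End.one_apply] at h1
    have : s = 1 := smul_left_injective F he (h1.trans (one_smul F e).symm)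
    exact hρ (by rw [h, this, one_smul, map_one])
  set E := (ρ g).eigenspace c with hE
  have hdim : ∀ x : Γ, 2 * finrank F E ≤
      finrank F V + finrank F (E ⊓ E.map (ρ x⁻¹) : Submodule F V) := fun x => by
    have h1 := Submodule.finrank_sup_add_finrank_inf_eq E (E.map (ρ x⁻¹))
    have h2 := Submodule.finrank_le (E ⊔ E.map (ρ x⁻¹))
    rw [fin_map] at h1
    omega
  have hex : ∀ x : Γ, ∃ e ∈ E ⊓ E.map (ρ x⁻¹), e ≠ 0 := fun x => by
    refine Submodule.exists_mem_ne_zero_of_ne_bot (fun h => ?_)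
    have := hdim x
    rw [h, finrank_bot] at this
    omega
  have hc0 : c ≠ 0 := by
    obtain ⟨e, he, he0⟩ := hex 1
    rintro rfl
    have := End.mem_eigenspace_iff.1 he.1
    exact he0 (inj ρ g (by rw [this, zero_smul, map_zero]))
  have gi : ∀ e ∈ E, ∀ z, ρ z e = e → ρ (g * z * g⁻¹) e = e := fun e he z hz => by
    have h1 := End.mem_eigenspace_iff.1 he
    refine smul_right_injective V hc0 ?_
    change c • ρ (g * z * g⁻¹) e = c • e
    rw [← map_smul, ← h1, ← End.mul_apply, ← map_mul, inv_mul_cancel_right, map_mul, End.mul_apply,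
      hz]
  have hf : ∀ x : Γ, ∀ e ∈ E ⊓ E.map (ρ x⁻¹), ρ (x⁻¹ * (g * x * g⁻¹)) e = e := by
    rintro x _ ⟨h1, e, he, rfl⟩
    have h2 := End.mem_eigenspace_iff.1 h1
    have h3 := End.mem_eigenspace_iff.1 he
    refine smul_right_injective V hc0 ?_
    change c • ρ _ _ = c • _
    rw [← map_smul, ← h2, ← End.mul_apply, ← End.mul_apply, ← map_mul, ← map_mul,
      show x⁻¹ * (g * x * g⁻¹) * g * x⁻¹ = x⁻¹ * g by group, map_mul, End.mul_apply, h3, map_smul,
      ← h2, ← End.mul_apply]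
  let θ : MulAut N := N.normalizerMonoidHom ⟨g, hg⟩
  have hθ : ∀ x : N, (θ x : Γ) = g * x * g⁻¹ := fun _ => rfl
  have zc : ∀ z : N, z ∈ Subgroup.center N ↔ ∃ s : F, ρ z = s • 1 := fun z =>
    ⟨fun h => hs z fun x hx => congrArg Subtype.val (Subgroup.mem_center_iff.1 h ⟨x, hx⟩).symm,
      fun ⟨s, h⟩ => Subgroup.mem_center_iff.2 fun x => Subtype.ext (cen z s h x).symm⟩
  have nc : ∀ h : N, h ∉ Subgroup.center N → ∃ (y : N) (ζ : F), IsPrimitiveRoot ζ r ∧
      ρ ⁅(h : Γ), (y : Γ)⁆ = ζ • 1 := fun h hh => by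
    rw [Subgroup.mem_center_iff] at hh
    push Not at hh
    obtain ⟨y, hy⟩ := hh
    obtain ⟨s, h1, h2⟩ := hc h h.2 y y.2
    refine ⟨y, s, ?_, h2⟩
    have : orderOf s = r := orderOf_eq_prime h1 (fun e => hy (Subtype.ext
      (commutatorElement_eq_one_iff_mul_comm.1 (hρ (by rw [h2, e, one_smul, map_one]))).symm))
    exact this ▸ IsPrimitiveRoot.orderOf s
  have hne : ∃ x : N, x⁻¹ * θ x ∉ Subgroup.center N := by
    by_contra hcon
    push Not at hcon
    refine hns (hs g (fun x hx => ?_))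
    obtain ⟨s, h1⟩ := (zc _).1 (hcon ⟨x, hx⟩)
    obtain ⟨e, he, he0⟩ := hex x
    have h2 : x⁻¹ * (g * x * g⁻¹) = 1 := fix _ s h1 e he0 (hf x e he)
    rw [inv_mul_eq_one, eq_mul_inv_iff_mul_eq] at h2
    exact h2.symm
  refine ⟨?_, ?_, ?_⟩
  · obtain ⟨x, hx⟩ := hne
    obtain ⟨y, ζ, h1, h2⟩ := nc _ hx
    have h3 := eig_bound ρ h1 one_ne_zero (of_comm ρ h2)
    have h4 : finrank F (E ⊓ E.map (ρ (x : Γ)⁻¹) : Submodule F V) ≤
        finrank F ((ρ ((x⁻¹ * θ x : N) : Γ)).eigenspace 1) :=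
      Submodule.finrank_mono (fun e he => End.mem_eigenspace_iff.2 (by
        rw [one_smul]; exact hf x e he))
    have := hdim x
    nlinarith
  · obtain ⟨x, hx⟩ := hne
    obtain ⟨y, ζ, h1, h2⟩ := nc _ hx
    have h3 := congrArg LinearMap.det h2
    rw [LinearMap.det_smul, map_one, mul_one] at h3
    refine h1.dvd_of_pow_eq_one _ (h3.symm.trans ?_)
    have := (commutatorElement_eq_one_iff_mul_comm (g₁ := (LinearMap.det.comp ρ).toHomUnits
      ((x⁻¹ * θ x : N) : Γ)) (g₂ := (LinearMap.det.comp ρ).toHomUnits (y : Γ))).2 (mul_comm _ _)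
    rw [← map_commutatorElement] at this
    exact congrArg Units.val this
  by_cases h2 : ϖ = 2
  · exact Or.inl h2
  right
  obtain ⟨rfl, x, hx1, hx2⟩ := grp (K := N) hr hϖ h2 (fun x y => by
      obtain ⟨s, -, h⟩ := hc x x.2 y y.2
      exact (zc _).2 ⟨s, h⟩) (fun x y => by
      obtain ⟨s, h1, h⟩ := hc x x.2 y y.2
      refine Subtype.ext (hρ ?_)
      change ρ (⁅(x : Γ), (y : Γ)⁆ ^ r) = ρ 1
      rw [map_pow, h, smul_pow, h1, one_pow, one_smul, map_one]) θ (fun z hz => by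
      obtain ⟨s, h⟩ := (zc z).1 hz
      exact Subtype.ext (by rw [hθ, ← cen _ s h, mul_inv_cancel_right])) (by
      rw [← map_pow, show (⟨g, hg⟩ : Subgroup.normalizer (N : Set Γ)) ^ ϖ = 1 from
        Subtype.ext hgϖ, map_one]) (fun x => by
      obtain ⟨e, he, he0⟩ := hex x
      have h1 := hf x e he
      have h3 := gi e he.1 _ h1
      obtain ⟨s, -, h4⟩ := hc _ (x⁻¹ * θ x).2 _ (θ (x⁻¹ * θ x)).2
      have h5 := congrArg (· e) (of_comm ρ h4)
      change ρ _ (ρ (g * _ * g⁻¹) e) = s • ρ (g * _ * g⁻¹) (ρ (_ * (g * x * g⁻¹)) e) at h5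
      refine Subtype.ext (commutatorElement_eq_one_iff_mul_comm.1 (fix _ s h4 e he0 ?_))
      erw [h3, h1, h3] at h5
      rw [h4]; exact h5.symm) hne
  refine ⟨rfl, ?_⟩
  by_contra h4
  set h : N := x⁻¹ * θ x with hh
  obtain ⟨e, he, he0⟩ := hex x
  have h1 : ρ (h : Γ) e = e := hf x e he
  have h3 := gi e he.1 _ h1
  have hgh : g * h = h * g := by
    obtain ⟨s, h5⟩ := (zc _).1 hx2
    have h6 : (h : Γ)⁻¹ * (g * h * g⁻¹) = 1 := fix _ s h5 e he0 (inj ρ h (by
      rw [← End.mul_apply, ← map_mul, h1]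
      change ρ (h * ((h : Γ)⁻¹ * (g * h * g⁻¹))) e = e
      rw [mul_inv_cancel_left, h3]))
    rw [inv_mul_eq_one, eq_mul_inv_iff_mul_eq] at h6
    exact h6.symm
  have hhr : ρ (h : Γ) ^ ϖ = 1 := by
    have h5 : ∀ k : ℕ, ρ ((h : Γ) ^ k) e = e := fun k => by
      induction k with
      | zero => simp
      | succ k ih => rw [pow_succ, map_mul, End.mul_apply, h1, ih]
    obtain ⟨s, h6⟩ := hs ((h : Γ) ^ ϖ) (fun y hy => by
      obtain ⟨s, h7, h8⟩ := hc h h.2 y hy
      have h9 : ∀ k : ℕ, ρ h ^ k * ρ y = s ^ k • (ρ y * ρ h ^ k) := fun k => by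
        induction k with
        | zero => simp
        | succ k ih => rw [pow_succ', mul_assoc, ih, mul_smul_comm, ← mul_assoc, of_comm ρ h8,
            smul_mul_assoc, smul_smul, mul_assoc, ← pow_succ, ← pow_succ']
      exact hρ (by rw [map_mul, map_mul, map_pow, h9, h7, one_smul]))
    rw [← map_pow, fix _ s h6 e he0 (h5 _), map_one]
  have H : g * x = x * h * g := by
    change g * x = x * ((x : Γ)⁻¹ * (g * x * g⁻¹)) * g
    group
  obtain ⟨y, ζ, h5, h6⟩ := nc _ hx1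
  obtain ⟨t, h7, h8⟩ := hc x x.2 h h.2
  by_cases ht : t = 1
  · have := case_one ρ hr (by omega) h5 hc0 H hgh hhr
      (by rw [of_comm ρ h8, ht, one_smul]) (fun l hl => eig_bound ρ h5 hl (of_comm ρ h6))
    rw [← hE] at this
    omega
  · have := case_two ρ hr (by omega) (orderOf_eq_prime h7 ht ▸ IsPrimitiveRoot.orderOf t) hc0 H hgh
      hhr (of_comm ρ h8) (eig_bound ρ h5 one_ne_zero (of_comm ρ h6))
    rw [← hE] at this
    omega

end H22.Eig
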