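/-
Central covers of Moufang quadrangles: root subgroups with the right commutator relations generate a perfect central extension.
-/
import Cfsg.Agent.H19.Amb1

set_option autoImplicit false
set_option linter.unusedSectionVars false
set_option synthInstance.maxSize 100000
set_option maxRecDepth 100000

namespace H22.QU
open Cfsg Subgroup H19
open scoped commutatorElement

/-- the roots in cyclic order -/
abbrev P : Type := ZMod 8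
/-- intervals of roots -/
abbrev Jv (a : P) (k : ℕ) : Set P := {r | (r - a).val < k}
/-- reflections -/
abbrev rf (i j : P) : P := i + i + 4 - j

variable {Γ E : Type*} [Group Γ] [Finite Γ] [Group E] {Y : P → Subgroup Γ} {π : Γ →* E} {R : P → Subgroup E} {A B : Set P}
  {M : Subgroup Γ} {i j r s : P} {g n u v x y : Γ} {k : ℕ}

/-- the subgroup generated by a set of root groups -/
def UU {Γ : Type*} [Group Γ] (Y : P → Subgroup Γ) (A : Set P) : Subgroup Γ := ⨆ r ∈ A, Y r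
theorem mU {Γ : Type*} [Group Γ] {Y : P → Subgroup Γ} {x : Γ} (h : r ∈ A) (hx : x ∈ Y r) : x ∈ UU Y A :=
  le_iSup₂ (f := fun r (_ : r ∈ A) => Y r) r h hx
theorem UU_le {Γ : Type*} [Group Γ] {Y : P → Subgroup Γ} {M : Subgroup Γ} (h : ∀ r ∈ A, ∀ x ∈ Y r, x ∈ M) : UU Y A ≤ M := iSup₂_le h
theorem UU_mono (h : ∀ r ∈ A, r ∈ B) : UU Y A ≤ UU Y B := UU_le fun r hr _ => mU (h r hr)
theorem UU_cj (h : ∀ r ∈ A, ∀ x ∈ Y r, g * x * g⁻¹ ∈ M) (hu : u ∈ UU Y A) : g * u * g⁻¹ ∈ M :=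
  UU_le (M := M.comap (MulAut.conj g).toMonoidHom) h hu

/-- root groups over the root groups of a Moufang quadrangle -/
structure MQ (Y : P → Subgroup Γ) (π : Γ →* E) (R : P → Subgroup E) : Prop where
  cm : ∀ i j, (j - i - 1).val < 3 → ∀ x ∈ Y i, ∀ y ∈ Y j, x * y * x⁻¹ * y⁻¹ ∈ UU Y (Jv (i + 1) (j - i - 1).val)
  mp : ∀ i, (Y i).map π = R i
  inj : ∀ i, ∀ x ∈ Y i, π x = 1 → x = 1
  ne : ∀ i, ∃ g ∈ R i, g ≠ 1
  sep : ∀ i, ∀ g ∈ UU R (Jv i 4), g ∈ R (i - 1) ∨ g ∈ R (i + 4) → g = 1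
  mu : ∀ i, ∀ g ∈ R i, g ≠ 1 → ∃ a ∈ R (i + 4), ∃ b ∈ R (i + 4), ∀ j, ∀ x ∈ R j, a * g * b * x * (a * g * b)⁻¹ ∈ R (rf i j)
  gen : ∀ i, R i ≤ ⁅UU R (Jv (i - 1) 4 \ {i}), UU R (Jv (i - 1) 4 \ {i})⁆

/-- closed sets -/
abbrev Cl (A : Set P) (i : P) : Prop := ∀ s ∈ A, (s - i - 1).val < 3 ∧ (∀ r ∈ Jv (i + 1) (s - i - 1).val, r ∈ A) ∨
  (i - s - 1).val < 3 ∧ ∀ r ∈ Jv (s + 1) (i - s - 1).val, r ∈ A
theorem cl1 : ∀ k < 4, ∀ i, Cl (Jv (i + 1) k) i ∧ ∀ s ∈ Jv i (k + 1), (s ∈ Jv (i + 1) k ∨ s = i) ∧ (s ∈ Jv (i + 1) k → s ∈ Jv (i + 1) 4) := by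
  decide
theorem cl2 : ∀ i j, j ≠ i → j ≠ i + 4 → ∃ c, Cl (Jv c 3) i ∧ Cl (Jv c 3) (i + 4) ∧ j ∈ Jv c 3 ∧ rf i j ∈ Jv c 4 ∧
    ∀ r ∈ Jv c 3, r ∈ Jv c 4 := by decide
theorem cl3 : ∀ i j, j = i ∨ j = i + 4 → rf i j ∈ Jv (rf i j - 2) 4 ∧
    ∀ r ∈ Jv (j - 1) 4 \ {j}, r ≠ i ∧ r ≠ i + 4 ∧ rf i r ∈ Jv (rf i j - 2) 4 := by decide
theorem cl4 : ∀ i : P, i = 0 ∨ i = 3 → i ∈ Jv 0 4 ∧ ∃ c, Cl (Jv c 3) i ∧ (∀ s ∈ Jv 0 4, s ∈ Jv c 3 ∨ s = i) ∧ ∀ s ∈ Jv c 3, rf i s ∈ Jv 0 4 := by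
  decide
theorem cl5 : ∀ c ε : P, ε = 1 ∨ ε = -1 → (∀ r, ε * r + (c + c) = r) ∨ ∃ r ∈ Jv 0 4, ε * r + (c + c) = 0 - 1 ∨ ε * r + (c + c) = 0 + 4 := by
  decide
theorem cl6 : ∀ c ε i : P, ε = 1 ∨ ε = -1 → ε * i + (c + c) ∈ Jv 0 4 ∨ ε * (i + 4) + (c + c) ∈ Jv 0 4 := by decide
theorem cl7 : ∀ i : P, rf i i = i + 4 ∧ rf i (i + 4) = i ∧ i + 4 + 4 = i ∧ i ∈ Jv (i - 1) 4 ∧ i + 1 - 1 = i ∧ i + 4 ∈ Jv (i + 1) 4 ∧
    ∀ j, rf i (rf i j) = j := by decide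

variable (Y) in
/-- `g` moves a root group into another one -/
def Ac (g : Γ) (r s : P) : Prop := ∀ x ∈ Y r, g * x * g⁻¹ ∈ Y s
variable (Y) in
/-- `g` induces a reflection -/
def Rf (g : Γ) (i : P) : Prop := ∀ j, Ac Y g j (rf i j)
theorem cj2 (a b x : Γ) : a * b * x * (a * b)⁻¹ = a * (b * x * b⁻¹) * a⁻¹ := by group
theorem Ac.mul (h : Ac Y g s j) (h' : Ac Y u r s) : Ac Y (g * u) r j := fun x hx => cj2 g u x ▸ h _ (h' x hx)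
theorem Rf.inv (h : Rf Y g i) : Rf Y g⁻¹ i := fun j x hx => by
  have : g * g ∈ N(Y j) := mem_norm_of_cj_le fun _ ⟨y, hy, e⟩ => e ▸ ((cl7 i).2.2.2.2.2.2 j ▸ (h _).mul (h j) :) y hy
  simpa [mul_assoc] using h j _ (conj_mem_of_norm (inv_mem this) hx)
variable (Y) in
/-- monomial elements -/
def NN : Submonoid Γ where
  carrier := {n | ∃ c ε : P, (ε = 1 ∨ ε = -1) ∧ ∀ r, Ac Y n r (ε * r + (c + c))}
  one_mem' := ⟨0, 1, .inl rfl, fun r x hx => by simpa using hx⟩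
  mul_mem' := fun ⟨c, ε, e, h⟩ ⟨c', ε', e', h'⟩ => ⟨ε * c' + c, ε * ε', by rcases e with e | e <;> rcases e' with e' | e' <;> simp [e, e'],
    fun r => by convert (h _).mul (h' r) using 1; ring⟩
theorem NN_inv (h : n ∈ NN Y) : n⁻¹ ∈ NN Y :=
  Submonoid.powers_le.2 h ((isOfFinOrder_of_finite n).mem_powers_iff_mem_zpowers.2 (inv_mem (mem_zpowers n)))
theorem Rf.nn (h : Rf Y g i) : g ∈ NN Y := ⟨i + 2, -1, .inr rfl, fun r => by convert h r using 1; ring⟩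

namespace MQ
variable (T : MQ Y π R)
include T
theorem mR (hx : x ∈ Y r) : π x ∈ R r := T.mp r ▸ mem_map_of_mem π hx
theorem up {g : E} (h : g ∈ R r) : ∃ x ∈ Y r, π x = g := mem_map.1 ((T.mp r).ge h)
theorem mpU (A : Set P) : (UU Y A).map π = UU R A := by simp only [UU, Subgroup.map_iSup, T.mp]
theorem mUR (hu : u ∈ UU Y A) : π u ∈ UU R A := T.mpU A ▸ mem_map_of_mem π hu
theorem nr (h : Cl A i) : Y i ≤ N(UU Y A) := fun x hx => mem_norm_of_cj_le fun _ ⟨_, hy, e⟩ => e ▸ UU_cj (fun s hs y hy => by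
  rw [← inv_mul_cancel_right (x * y * x⁻¹) y]
  refine mul_mem ((h s hs).elim (fun k => UU_mono k.2 (T.cm i s k.1 x hx y hy)) fun k => ?_) (mU hs hy)
  simpa [mul_assoc] using UU_mono k.2 (inv_mem (T.cm s i k.1 y hy x hx))) hy
theorem split (h : Cl B i) (hA : ∀ s ∈ A, s ∈ B ∨ s = i) (hu : u ∈ UU Y A) : ∃ v ∈ UU Y B, ∃ y ∈ Y i, u = v * y :=
  (mem_sup_of_norm (T.nr h)).1 (UU_le (fun s hs _ hx => (hA s hs).elim (fun h => mem_sup_left (mU h hx)) fun h => mem_sup_right (h ▸ hx)) hu)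
/-- downward induction in a half plane -/
theorem ind {Q : Γ → Prop} (hk : k ≤ 4) (h : ∀ j < k, ∀ r, r + (j + 1 : ℕ) = i + k → ∀ v ∈ UU Y (Jv (r + 1) 4), ∀ y ∈ Y r, Q (v * y) → y = 1)
    (hu : u ∈ UU Y (Jv i k)) (q : Q u) : u = 1 := by
  induction k generalizing i u with
  | zero => exact UU_le (M := ⊥) (fun r hr => absurd hr (Nat.not_lt_zero _)) hu
  | succ k ih =>
    obtain ⟨v, hv, y, hy, rfl⟩ := T.split (cl1 k hk i).1 (fun s hs => ((cl1 k hk i).2 s hs).1) hu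
    obtain rfl := h k k.lt_succ_self i rfl v (UU_mono (fun s hs => Nat.lt_of_lt_of_le hs (Nat.le_of_succ_le hk)) hv) y hy q
    rw [mul_one] at q ⊢
    exact ih (Nat.le_of_succ_le hk) (fun j l r e => h j (l.trans k.lt_succ_self) r (by rw [e]; push_cast; ring)) hv q
theorem injU (hu : u ∈ UU Y (Jv i 4)) (e : π u = 1) : u = 1 := T.ind (Q := (π · = 1)) le_rfl (fun _ _ r _ v hv y hy e => T.inj r y hy
  (T.sep (r + 1) _ (by rw [map_mul] at e; rw [eq_inv_of_mul_eq_one_right e]; exact inv_mem (T.mUR hv))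
    (.inl (by rw [add_sub_cancel_right]; exact T.mR hy)))) hu e
theorem eqU (hu : u ∈ UU Y (Jv i 4)) (hv : v ∈ UU Y (Jv i 4)) (e : π u = π v) : u = v :=
  mul_inv_eq_one.1 (T.injU (mul_mem hu (inv_mem hv)) (by simp [e]))
theorem pull (hu : u ∈ UU Y (Jv i 4)) (hr : r ∈ Jv i 4) (e : π u ∈ R r) : u ∈ Y r :=
  let ⟨_, hx, e⟩ := T.up e; T.eqU (mU hr hx) hu e ▸ hx
theorem gen' (i : P) : Y i ≤ ⁅UU Y (Jv (i - 1) 4 \ {i}), UU Y (Jv (i - 1) 4 \ {i})⁆ := fun x hx => by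
  have := T.gen i (T.mR hx)
  rw [← T.mpU, ← map_commutator] at this
  obtain ⟨v, hv, e⟩ := this
  exact T.eqU (UU_mono (fun _ h => h.1) ((commutator_le_self _).trans le_rfl hv)) (mU (cl7 i).2.2.2.1 hx) e ▸ hv
theorem perf : UU Y Set.univ ≤ ⁅UU Y Set.univ, UU Y Set.univ⁆ :=
  UU_le fun r _ _ hx => commutator_mono (UU_mono fun _ _ => trivial) (UU_mono fun _ _ => trivial) (T.gen' r hx)
theorem exR (hy : y ∈ Y i) (y1 : y ≠ 1) : ∃ a ∈ Y (i + 4), ∃ b ∈ Y (i + 4), Rf Y (a * y * b) i := by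
  obtain ⟨_, ha', _, hb', h⟩ := T.mu i _ (T.mR hy) fun e => y1 (T.inj i y hy e)
  obtain ⟨a, ha, rfl⟩ := T.up ha'
  obtain ⟨b, hb, rfl⟩ := T.up hb'
  have h' : ∀ j, ∀ x ∈ Y j, π (a * y * b * x * (a * y * b)⁻¹) ∈ R (rf i j) := fun j x hx => by simpa only [map_mul, map_inv] using h j _ (T.mR hx)
  have k : ∀ j, j ≠ i → j ≠ i + 4 → Ac Y (a * y * b) j (rf i j) := fun j h1 h2 x hx => by
    obtain ⟨c, c1, c2, c3, c4, c5⟩ := cl2 i j h1 h2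
    exact T.pull (UU_mono c5 (conj_mem_of_norm (mul_mem (mul_mem (T.nr c2 ha) (T.nr c1 hy)) (T.nr c2 hb)) (mU c3 hx))) c4 (h' j x hx)
  refine ⟨a, ha, b, hb, fun j => ?_⟩
  by_cases e : j = i ∨ j = i + 4
  · exact fun x hx => T.pull (UU_cj (fun r hr z hz => let ⟨c1, c2, c3⟩ := (cl3 i j e).2 r hr; mU c3 (k r c1 c2 z hz))
      ((commutator_le_self _).trans le_rfl (T.gen' j hx))) (cl3 i j e).1 (h' j x hx)
  · exact k j (fun h => e (.inl h)) fun h => e (.inr h)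
theorem exY (i : P) : ∃ y ∈ Y i, y ≠ 1 := by
  obtain ⟨_, h, n⟩ := T.ne i
  obtain ⟨y, hy, rfl⟩ := T.up h
  exact ⟨y, hy, fun e => n (by rw [e, map_one])⟩
/-- the Bruhat decomposition -/
theorem bru (hg : g ∈ UU Y Set.univ) : ∃ u ∈ UU Y (Jv 0 4), ∃ n ∈ NN Y, ∃ v ∈ UU Y (Jv 0 4), g = u * n * v := by
  let B : Γ → Prop := fun g => ∃ u ∈ UU Y (Jv 0 4), ∃ n ∈ NN Y, ∃ v ∈ UU Y (Jv 0 4), g = u * n * v
  have hν : ∀ i, i = 0 ∨ i = 3 → ∀ ν, Rf Y ν i → ∀ g, B g → B (ν * g) := by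
    rintro i hi ν o _ ⟨u0, hu0, n, hn, v, hv, rfl⟩
    obtain ⟨p, c, c1, c2, c3⟩ := cl4 i hi
    obtain ⟨u, hu, y, hy, rfl⟩ := T.split c1 c2 hu0
    have hu' : ν * u * ν⁻¹ ∈ UU Y (Jv 0 4) := UU_cj (fun s hs x hx => mU (c3 s hs) (o s x hx)) hu
    obtain ⟨d, ε, e1, e2⟩ := NN_inv hn
    rcases cl6 d ε i e1 with q | q
    · exact ⟨_, hu', _, mul_mem o.nn hn, _, mul_mem (mU q (e2 i y hy)) hv, by group⟩
    by_cases y1 : ν * y * ν⁻¹ = 1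
    · exact ⟨_, hu', _, mul_mem o.nn hn, _, hv, by rw [conj_eq_one_iff.1 y1]; group⟩
    obtain ⟨a, ha, b, hb, o'⟩ := T.exR (o i y hy) y1
    rw [(cl7 i).1, (cl7 i).2.2.1] at ha hb
    exact ⟨_, mul_mem hu' (mU p (inv_mem ha)), _, mul_mem o'.nn (mul_mem o.nn hn), _,
      mul_mem (mU q (e2 _ _ ((cl7 i).1 ▸ o.inv i _ (inv_mem hb) :))) hv, by group⟩
  have h0 : ∀ r ∈ Jv 0 4, ∀ y ∈ Y r, ∀ g, B g → B (y * g) := by
    rintro r q y hy _ ⟨u, hu, n, hn, v, hv, rfl⟩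
    exact ⟨_, mul_mem (mU q hy) hu, n, hn, v, hv, by group⟩
  have h1 : ∀ i, i = 0 ∨ i = 3 → ∀ r, (∀ y ∈ Y (rf i r), ∀ g, B g → B (y * g)) → ∀ y ∈ Y r, ∀ g, B g → B (y * g) := fun i hi r h y hy g hg => by
    obtain ⟨z, hz, z1⟩ := T.exY i
    obtain ⟨a, -, b, -, o⟩ := T.exR hz z1
    simpa [mul_assoc] using hν i hi _ o.inv _ (h _ (o r y hy) _ (hν i hi _ o g hg))
  have h4 := h1 0 (.inl rfl) 4 (h0 _ (by decide))
  have h7 := h1 3 (.inr rfl) 7 (h0 _ (by decide))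
  have hZ : ∀ r, ∀ y ∈ Y r, ∀ g, B g → B (y * g) := fun r => by
    rcases (by decide : ∀ r : P, r ∈ Jv 0 4 ∨ r = 4 ∨ r = 7 ∨ r = 5 ∨ r = 6) r with h | rfl | rfl | rfl | rfl
    exacts [h0 r h, h4, h7, h1 0 (.inl rfl) 5 h7, h1 3 (.inr rfl) 6 h4]
  let M : Subgroup Γ := ⟨⟨⟨{x | ∀ g, B g ↔ B (x * g)}, fun a b g => by rw [mul_assoc, ← a, ← b]⟩, by simp⟩,
    fun {x} a g => by rw [a (x⁻¹ * g), mul_inv_cancel_left]⟩
  simpa using (UU_le (M := M) (fun r _ y hy g => ⟨hZ r y hy g, fun h => by simpa using hZ r _ (inv_mem hy) _ h⟩) hg 1).1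
    ⟨1, one_mem _, 1, one_mem _, 1, one_mem _, by simp⟩
/-- the kernel is central -/
theorem ker (hg : g ∈ UU Y Set.univ) (e : π g = 1) : g ∈ C(UU Y Set.univ) := by
  obtain ⟨u, hu, n, ⟨c, ε, e1, hn⟩, v, hv, rfl⟩ := T.bru hg
  have hw := mul_mem (inv_mem hu) (inv_mem hv)
  have e2 : π (u⁻¹ * v⁻¹) = π n := by
    rw [map_mul, map_mul] at e
    rw [map_mul, map_inv, map_inv, inv_mul_eq_iff_eq_mul, eq_comm, eq_inv_iff_mul_eq_one, e]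
  have w1 : ∀ r, ε * r + (c + c) = r := (cl5 c ε e1).resolve_right fun ⟨r, hr, h⟩ => by
    obtain ⟨y, hy, y1⟩ := T.exY r
    refine y1 (conj_eq_one_iff.1 (T.inj _ _ (hn r y hy) (T.sep 0 _ ?_ (by rcases h with k | k <;> simp only [← k, T.mR (hn r y hy), true_or, or_true]))))
    simpa only [map_mul, map_inv, ← e2] using T.mUR (mul_mem (mul_mem hw (mU hr hy)) (inv_mem hw))
  simp only [w1] at hn
  have e3 := T.ind (Q := (π · = π n)) le_rfl (fun _ _ r _ w hw y hy q => not_not.1 fun y1 => by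
    obtain ⟨a, ha, b, hb, o⟩ := T.exR hy y1
    obtain ⟨x, hx, x1⟩ := T.exY (r + 4)
    obtain ⟨-, c1, -, -, c2, c3, -⟩ := cl7 r
    have h1 := c1 ▸ o _ x hx
    refine x1 (conj_eq_one_iff.1 (T.inj _ _ h1 (T.sep (r + 1) _ ?_ (.inl (c2.symm ▸ T.mR h1)))))
    have h2 := mul_mem (mU c3 ha) (inv_mem hw)
    have := T.mUR (mul_mem (mul_mem h2 (mU c3 (hn _ _ (mul_mem (mul_mem hb hx) (inv_mem hb))))) (inv_mem h2))
    simp only [map_mul, map_inv, ← q] at this ⊢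
    convert this using 1; group) hw e2
  rw [e3, map_one] at e2
  have c : n ∈ C(UU Y Set.univ) := le_cent1_iff.1 (UU_le fun r _ x hx => mem_cent1.2 (mul_inv_eq_iff_eq_mul.1 (mul_inv_eq_one.1
    (T.inj r _ (mul_mem (hn r x hx) (inv_mem hx)) (by simp [← e2])))).symm)
  rwa [mem_cent.1 c u (UU_mono (fun _ _ => trivial) hu), mul_assoc, ← inv_inv (u * v), _root_.mul_inv_rev, mul_eq_one_comm.1 e3,
    inv_one, mul_one]
end MQ

end H22.QU
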