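/-
The root groups of `SU₄(q)` and `SU₅(q)` in characteristic two.
-/
import Cfsg.Agent.H22.F45
import Cfsg.Agent.H26.UE2

set_option autoImplicit false
set_option linter.unusedSectionVars false
set_option synthInstance.maxSize 100000
set_option maxRecDepth 100000

namespace H22.QU
open Cfsg Subgroup H19 H12 H26.UE
open scoped commutatorElement

/-- long roots -/
abbrev Ev (r : P) : Prop := r.val % 2 = 0
/-- `r` long, `s` short, `k = r + s`, `m = r + 2 s` -/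
abbrev Tp (r s k m : P) : Prop := Ev r ∧ (k = r + 1 ∨ k = r - 1) ∧ m = k + k - r ∧ s = m + k - r
theorem tp1 : ∀ r s k m, Tp r s k m → (Tp (r + 4) k s m ∧ Tp m (k + r - m) k r ∧ Tp (r + 4) (s + 4) (k + 4) (m + 4) ∧ Ev m ∧ Ev (r + 4) ∧ ¬ Ev k) ∧
    (∀ j, Ev j → j = r ∨ j = m ∨ j = r + 4 ∨ j = m + 4) ∧ (rf k r = m + 4 ∧ rf k m = r + 4 ∧ rf k (r + 4) = m ∧ rf k (m + 4) = r) ∧
    (rf r r = r + 4 ∧ rf r m = m ∧ rf r (r + 4) = r ∧ rf r (m + 4) = m + 4) ∧ ∀ i, Tp (rf i r) (rf i s) (rf i k) (rf i m) := by decide +kernel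
theorem tp2 : ∀ i, (Ev i → Tp i (i + 3) (i + 1) (i + 2) ∧ ∀ j, Ev (rf j i)) ∧ (¬ Ev i → Tp (i - 1) (i + 2) i (i + 1)) := by decide
theorem tp3 (i : P) : ∃ r s k m j, Tp r s k m ∧ Tp (m + 4) k j r ∧ (∀ x ∈ Jv i 4, x = r ∨ x = k ∨ x = m ∨ x = s) ∧
    (i - 1 = j ∧ i = r ∨ i - 1 = r + 4 ∧ i + 4 = j) :=
  let ⟨r, k, h⟩ := (by decide : ∀ i : P, ∃ r k, Tp r (k + k - r + k - r) k (k + k - r) ∧ Tp (k + k - r + 4) k (r + r - k) r ∧
    (∀ x ∈ Jv i 4, x = r ∨ x = k ∨ x = k + k - r ∨ x = k + k - r + k - r) ∧ (i - 1 = r + r - k ∧ i = r ∨ i - 1 = r + 4 ∧ i + 4 = r + r - k)) i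
  ⟨r, _, k, _, _, h⟩
theorem tp4 (i : P) : ∃ r s k m, Tp r s k m ∧ r ∈ Jv (i - 1) 4 \ {i} ∧ s ∈ Jv (i - 1) 4 \ {i} ∧
    (i = k ∧ m ∈ Jv (i - 1) 4 \ {i} ∨ i = m ∧ k ∈ Jv (i - 1) 4 \ {i}) := by
  by_cases h : Ev i
  · exact ⟨i + 2, i - 1, i + 1, i, by revert i; decide⟩
  · exact ⟨i - 1, i + 2, i, i + 1, by revert i; decide⟩

variable {F : Type*} [Field F] [Finite F] [CharP F 2] {T : FormType F} {V : Type*} [AddCommGroup V] [Module F V] [Finite V]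
  {C : CForm T V} {𝒢 : Type*} [Group 𝒢] [Finite 𝒢] [DistribMulAction 𝒢 V] {ρ : 𝒢 →* RingAut F} {L K : Subgroup 𝒢}
  {g g' h n : 𝒢} {u v u' v' e w w' x : V} {a a' c c' δ : F} {b : P → V} {R : P → Subgroup 𝒢} {i j r s k m : P}

local notation "⟪" x ", " y "⟫" => C.B x y
local notation "σ" => T.σ

/-- two orthogonal hyperbolic pairs and a vector spanning their orthogonal complement -/
structure Cf (C : CForm T V) (u v u' v' e : V) (δ : F) : Prop where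
  g : (C.B u u = 0 ∧ C.B u v = 0 ∧ C.B u u' = 1 ∧ C.B u v' = 0 ∧ C.B u e = 0) ∧
    (C.B v u = 0 ∧ C.B v v = 0 ∧ C.B v u' = 0 ∧ C.B v v' = 1 ∧ C.B v e = 0) ∧
    (C.B u' u = 1 ∧ C.B u' v = 0 ∧ C.B u' u' = 0 ∧ C.B u' v' = 0 ∧ C.B u' e = 0) ∧
    (C.B v' u = 0 ∧ C.B v' v = 1 ∧ C.B v' u' = 0 ∧ C.B v' v' = 0 ∧ C.B v' e = 0) ∧
    C.B e u = 0 ∧ C.B e v = 0 ∧ C.B e u' = 0 ∧ C.B e v' = 0 ∧ C.B e e = δ
  o : δ = 1 ∨ e = 0
  exp : ∀ x, x = C.B u' x • u + C.B v' x • v + C.B u x • u' + C.B v x • v' + C.B e x • e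
theorem Cf.rot (h : Cf C u v u' v' e δ) : Cf C v u' v' u e δ := ⟨by simp [h.g], h.o, fun x => (h.exp x).trans (by abel)⟩
theorem Cf.sw (h : Cf C u v u' v' e δ) : Cf C v u v' u' e δ := ⟨by simp [h.g], h.o, fun x => (h.exp x).trans (by abel)⟩

theorem ng (F : Type*) [Field F] [CharP F 2] [Module F V] (x : V) : -x = x := neg_eq_of_add_eq_zero_left (vv F x)
theorem act (E : Ei C ρ g u (a • w) c) (x : V) : g • x = x + (⟪u, x⟫ * a) • w + (σ a * ⟪w, x⟫ + c * ⟪u, x⟫) • u := by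
  rw [E.act, sub_eq_add_neg, ng F, C.B_smul_left, smul_smul]

/-- the frame and the root groups -/
structure Fr (C : CForm T V) (ρ : 𝒢 →* RingAut F) (b : P → V) (e : V) (δ : F) (R : P → Subgroup 𝒢) : Prop where
  cf : ∀ {r s k m}, Tp r s k m → Cf C (b r) (b m) (b (r + 4)) (b (m + 4)) e δ
  l : ∀ {r}, Ev r → ∀ {g}, g ∈ R r ↔ ∃ a c : F, Ei C ρ g (b r) (a • e) c
  s : ∀ {r s k m}, Tp r s k m → ∀ {g}, g ∈ R k ↔ ∃ a : F, Ei C ρ g (b m) (a • b r) 0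

variable (μ : Md C ρ L)
include μ

theorem sw (E : Ei C ρ g u (a • v) 0) (h1 : ⟪v, v⟫ = 0) (h2 : ⟪v, u⟫ = 0) : Ei C ρ g v (σ a • u) 0 :=
  ⟨E.r, h1, by simp [h2], by simp [E.uu], fun x => by
    rw [act E, sub_eq_add_neg, ng F, C.B_smul_left, T.σσ]; module⟩
theorem cj0 (E : Ei C ρ g u w c) (r : ρ n = 1) : Ei C ρ (n * g * n⁻¹) (n • u) (n • w) c := by
  have := μ.cnj E n; rwa [r] at this
theorem comm (E : Ei C ρ g u w c) (E' : Ei C ρ g' u' w' c') (h : ⟪u, u'⟫ = 0 ∧ ⟪w, u'⟫ = 0 ∧ ⟪u, w'⟫ = 0 ∧ ⟪w, w'⟫ = 0) : g * g' = g' * g :=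
  mul_inv_eq_iff_eq_mul.1 (μ.uq (by simpa only [μ.fx E h.1 h.2.1, μ.fx E h.2.2.1 h.2.2.2] using cj0 μ E' E.r) E')
theorem ww (H : Cf C u v u' v' e δ) (E : Ei C ρ g u (a • e) c) (E' : Ei C ρ g' v (a' • e) c') (E2 : Ei C ρ h v ((σ a * a' * δ) • u) 0) :
    g * g' * g⁻¹ * g'⁻¹ = h := by
  refine mul_inv_eq_iff_eq_mul.2 (μ.uq (cj0 μ E' E.r) ?_)
  convert μ.mul E2 E' using 1 <;> simp [act E, H.g, mul_assoc, add_comm]
theorem dec (H : Cf C u v u' v' e δ) (E : Ei C ρ n v (a' • u') 0) (E1 : Ei C ρ g u (a • e) c) (E2 : Ei C ρ g' v ((a' * a) • e) (a' * σ a' * c))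
    (E3 : Ei C ρ h v ((a' * σ c) • u) 0) : n * g * n⁻¹ = g * g' * h := μ.eq fun x => by
  have t := E1.tr
  rw [(cj0 μ E1 E.r).act, mul_smul, mul_smul, act E1, act E2, act E3]
  simp [act E, H.g, T.σσ] at t ⊢
  match_scalars <;> grind

/-- the stabilizer of a flag -/
def St (u v : V) : Subgroup 𝒢 where
  carrier := {g | ρ g = 1 ∧ g • v = v ∧ ∃ a : F, g • u = u + a • v}
  one_mem' := ⟨map_one _, one_smul _ _, 0, by simp⟩
  mul_mem' := fun ⟨r, h, a, k⟩ ⟨r', h', a', k'⟩ => ⟨by simp [r, r'], by rw [mul_smul, h', h], a + a', by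
    rw [mul_smul, k', smul_add, k, μ.lin r, h, add_smul, add_assoc]⟩
  inv_mem' := fun ⟨r, h, a, k⟩ => ⟨by simp [r], inv_smul_eq_iff.2 h.symm, -a, by
    rw [inv_smul_eq_iff, smul_add, k, μ.lin r, h]; simp⟩

theorem one1 (H : Cf C u v u' v' e δ) (E : Ei C ρ g u (a • e) 0) : g = 1 := by
  refine μ.uq ?_ (μ.E1 E.uu)
  rcases H.o with o | o
  · have := E.tr
    simp [H.g, o, T.σ_eq_zero] at this
    simpa [this] using E
  · simpa [o] using E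

theorem one2 (H : Cf C u v u' v' e δ) (E : Ei C ρ 1 u (a • e) c) : c = 0 := by simpa [H.g] using congrArg (C.B u') (act E u').symm
theorem one3 (H : Cf C u v u' v' e δ) (E : Ei C ρ 1 v (a • u) 0) : a = 0 := by simpa [H.g] using congrArg (C.B u') (act E v').symm
/-- the semilinear involution fixing the frame -/
theorem exa (H : Cf C u v u' v' e δ) (r : ∀ c, ρ g c = σ c) :
    ∃ s : 𝒢, (∀ c, ρ s c = σ c) ∧ s * s = 1 ∧ s • u = u ∧ s • v = v ∧ s • u' = u' ∧ s • v' = v' ∧ s • e = e := by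
  have B : ∀ x y : V, ⟪g • x, g • y⟫ = σ ⟪x, y⟫ := fun x y => by rw [μ.B, r]
  obtain ⟨n, r1, k⟩ := μ.full ((C.B (g • u')).smulRight u + (C.B (g • v')).smulRight v + (C.B (g • u)).smulRight u' +
      (C.B (g • v)).smulRight v' + (C.B (g • e)).smulRight e) fun x y => by
    rw [← smul_inv_smul g x, ← smul_inv_smul g y, B]
    generalize g⁻¹ • x = x, g⁻¹ • y = y
    nth_rw 2 [H.exp y]
    rcases H.o with o | o <;> simp [B, H.g, μ.sy, o] <;> ring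
  have r2 : ∀ c, ρ (n * g) c = σ c := fun c => by rw [map_mul, r1, one_mul, r]
  have f : (n * g) • u = u ∧ (n * g) • v = v ∧ (n * g) • u' = u' ∧ (n * g) • v' = v' ∧ (n * g) • e = e := by
    rcases H.o with o | o <;> simp [mul_smul, k, B, H.g, o]
  refine ⟨n * g, r2, μ.ext _ fun x => ?_, f⟩
  rw [H.exp x]
  simp only [mul_smul (n * g), smul_add, μ.sm, r2, T.σσ, f]

namespace Fr
variable (X : Fr C ρ b e δ R)
include X
theorem exS (t : Tp r s k m) (a : F) : ∃ g ∈ R k, Ei C ρ g (b m) (a • b r) 0 :=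
  let ⟨g, E⟩ := μ.ex (u := b m) (w := a • b r) (c := 0) (by simp [(X.cf t).g]) (by simp [(X.cf t).g]) (by simp [(X.cf t).g])
  ⟨g, (X.s t).2 ⟨a, E⟩, E⟩
theorem exL (t : Tp r s k m) (h : c + σ c = a * σ a * δ) : ∃ g ∈ R r, Ei C ρ g (b r) (a • e) c :=
  let ⟨g, E⟩ := μ.ex (u := b r) (w := a • e) (c := c) (by simp [(X.cf t).g]) (by simp [(X.cf t).g]) (by simp [(X.cf t).g, h, mul_assoc])
  ⟨g, (X.l t.1).2 ⟨a, c, E⟩, E⟩
theorem ne (i : P) : ∃ g ∈ R i, g ≠ 1 := by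
  by_cases h : Ev i
  · have t := ((tp2 i).1 h).1
    obtain ⟨g, hg, E⟩ := X.exL μ t (a := 0) (c := 1) (by simp [CharTwo.add_self_eq_zero])
    exact ⟨g, hg, fun k => one_ne_zero (one2 μ (X.cf t) (k ▸ E))⟩
  · have t := (tp2 i).2 h
    obtain ⟨g, hg, E⟩ := X.exS μ t 1
    exact ⟨g, hg, fun k => one_ne_zero (one3 μ (X.cf t) (k ▸ E))⟩
theorem sep (i : P) (g : 𝒢) (hg : g ∈ UU R (Jv i 4)) (h : g ∈ R (i - 1) ∨ g ∈ R (i + 4)) : g = 1 := by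
  obtain ⟨r, s, k, m, j, t, t', h1, h2⟩ := tp3 i
  have H := X.cf t
  obtain ⟨-, k1, d, k2⟩ := UU_le (M := St μ (b r) (b m)) (fun x hx y hy => by
    rcases h1 x hx with rfl | rfl | rfl | rfl
    · obtain ⟨a, c, E⟩ := (X.l t.1).1 hy
      exact ⟨E.r, by simp [act E, H.g], 0, by simp [act E, H.g]⟩
    · obtain ⟨a, E⟩ := (X.s t).1 hy
      exact ⟨E.r, by simp [act E, H.g], 0, by simp [act E, H.g]⟩
    · obtain ⟨a, c, E⟩ := (X.l (tp1 _ _ _ _ t).1.2.2.2.1).1 hy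
      exact ⟨E.r, by simp [act E, H.g], 0, by simp [act E, H.g]⟩
    · obtain ⟨a, E⟩ := (X.s (tp1 _ _ _ _ t).1.1).1 hy
      exact ⟨E.r, by simp [act E, H.g], σ a, by simp [act E, H.g]⟩) hg
  rcases (show g ∈ R j ∨ g ∈ R (r + 4) by rcases h2 with ⟨rfl, rfl⟩ | ⟨e1, e2⟩; exacts [h, (e1 ▸ e2 ▸ h :).symm]) with h | h
  · obtain ⟨a, E⟩ := (X.s t').1 h
    have := congrArg (C.B (b (r + 4))) (k1.symm.trans (act E _))
    simp [H.g, eq_comm (a := (0 : F))] at this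
    exact μ.uq (by simpa [this] using E) (μ.E1 E.uu)
  · obtain ⟨a, c, E⟩ := (X.l (tp1 _ _ _ _ t).1.2.2.2.2.1).1 h
    have := congrArg (C.B (b r)) (k2.symm.trans (act E _))
    simp [H.g] at this
    exact one1 μ H.rot.rot (this ▸ E)
theorem mon (r1 : ρ n = 1) (h : ∀ j, Ev j → ∃ c : F, c ≠ 0 ∧ n • b j = c • b (rf i j)) (h' : n • e = a • e) (j : P) (g : 𝒢) (hg : g ∈ R j) :
    n * g * n⁻¹ ∈ R (rf i j) := by
  by_cases o : Ev j
  · obtain ⟨d, c, E⟩ := (X.l o).1 hg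
    obtain ⟨z, z0, k⟩ := h j o
    have := cj0 μ E r1
    rw [k, μ.lin r1, h'] at this
    exact (X.l (((tp2 j).1 o).2 i)).2 ⟨_, _, by simpa only [smul_smul] using μ.sc this z0⟩
  · have t := (tp2 j).2 o
    obtain ⟨d, E⟩ := (X.s t).1 hg
    obtain ⟨z, z0, k⟩ := h _ (tp1 _ _ _ _ t).1.2.2.2.1
    obtain ⟨z', -, k'⟩ := h _ t.1
    have := cj0 μ E r1
    rw [k, μ.lin r1, k'] at this
    exact (X.s ((tp1 _ _ _ _ t).2.2.2.2 i)).2 ⟨_, by simpa only [smul_smul, mul_zero] using μ.sc this z0⟩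
theorem mu (i : P) (g : 𝒢) (hg : g ∈ R i) (g1 : g ≠ 1) :
    ∃ x ∈ R (i + 4), ∃ y ∈ R (i + 4), ∀ j, ∀ z ∈ R j, x * g * y * z * (x * g * y)⁻¹ ∈ R (rf i j) := by
  by_cases o : Ev i
  · have t := ((tp2 i).1 o).1
    obtain ⟨⟨t', -⟩, h1, -, ⟨e1, e2, e3, e4⟩, -⟩ := tp1 _ _ _ _ t
    have H := X.cf t
    obtain ⟨a, c, E⟩ := (X.l o).1 hg
    have c0 : c ≠ 0 := fun k => g1 (one1 μ H (k ▸ E))
    have c1 := T.σ_ne_zero c0
    have tr := E.tr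
    simp [H.g] at tr
    obtain ⟨x, hx, E1⟩ := X.exL μ t' (a := a / c) (c := (σ c)⁻¹) (by simp [T.σσ]; field_simp; grind)
    obtain ⟨y, hy, E2⟩ := X.exL μ t' (a := a / σ c) (c := (σ c)⁻¹) (by simp [T.σσ]; field_simp; grind)
    refine ⟨x, hx, y, hy, X.mon μ (a := σ c / c) (by simp [E.r, E1.r, E2.r]) (fun j hj => ?_) ?_⟩
    · rcases h1 j hj with rfl | rfl | rfl | rfl
      · refine ⟨(σ c)⁻¹, inv_ne_zero c1, ?_⟩
        rw [e1, mul_smul, mul_smul, act E1, act E, act E2]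
        simp [H.g, T.σσ]
        match_scalars <;> field_simp <;> grind
      · exact ⟨1, one_ne_zero, by simp [e2, mul_smul, act E1, act E, act E2, H.g]⟩
      · refine ⟨c, c0, ?_⟩
        rw [e3, mul_smul, mul_smul, act E1, act E, act E2]
        simp [H.g, T.σσ]
        match_scalars <;> field_simp <;> grind
      · exact ⟨1, one_ne_zero, by simp [e4, mul_smul, act E1, act E, act E2, H.g]⟩
    · rw [mul_smul, mul_smul, act E1, act E, act E2]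
      simp [H.g, T.σσ]
      match_scalars <;> field_simp <;> grind
  · have t := (tp2 i).2 o
    obtain ⟨⟨-, -, t', -⟩, h1, ⟨e1, e2, e3, e4⟩, -⟩ := tp1 _ _ _ _ t
    have H := X.cf t
    obtain ⟨a, E⟩ := (X.s t).1 hg
    have a0 : a ≠ 0 := fun k => g1 (μ.uq (by simpa [k] using E) (μ.E1 E.uu))
    have a1 := T.σ_ne_zero a0
    obtain ⟨x, hx, E1⟩ := X.exS μ t' (σ a)⁻¹
    refine ⟨x, hx, x, hx, X.mon μ (a := 1) (by simp [E.r, E1.r]) (fun j hj => ?_) (by simp [mul_smul, act E, act E1, H.g])⟩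
    rcases h1 j hj with rfl | rfl | rfl | rfl
    · refine ⟨a⁻¹, inv_ne_zero a0, ?_⟩
      rw [e1, mul_smul, mul_smul, act E1, act E, act E1]
      simp [H.g, T.σσ]
      match_scalars <;> field_simp <;> grind
    · refine ⟨(σ a)⁻¹, inv_ne_zero a1, ?_⟩
      rw [e2, mul_smul, mul_smul, act E1, act E, act E1]
      simp [H.g, T.σσ]
      match_scalars <;> field_simp <;> grind
    · refine ⟨σ a, a1, ?_⟩
      rw [e3, mul_smul, mul_smul, act E1, act E, act E1]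
      simp [H.g, T.σσ]
      match_scalars <;> field_simp <;> grind
    · refine ⟨a, a0, ?_⟩
      rw [e4, mul_smul, mul_smul, act E1, act E, act E1]
      simp [H.g, T.σσ]
      match_scalars <;> field_simp <;> grind
theorem gen (i : P) : R i ≤ ⁅UU R (Jv (i - 1) 4 \ {i}), UU R (Jv (i - 1) 4 \ {i})⁆ := by
  obtain ⟨r, s, k, m, t, hr, hs, h⟩ := tp4 i
  generalize Jv (i - 1) 4 \ {i} = A at *
  obtain ⟨⟨t1, t2, -, om, -⟩, -⟩ := tp1 _ _ _ _ t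
  have H := X.cf t
  have d : ∀ a' a c, c + σ c = a * σ a * δ → ∃ g ∈ R m, ∃ h ∈ R k, Ei C ρ g (b m) ((a' * a) • e) (a' * σ a' * c) ∧
      Ei C ρ h (b m) ((a' * σ c) • b r) 0 ∧ g * h ∈ ⁅UU R A, UU R A⁆ := fun a' a c hc => by
    obtain ⟨x, hx, E⟩ := X.exS μ t1 a'
    obtain ⟨y, hy, E1⟩ := X.exL μ t hc
    obtain ⟨g, hg, E2⟩ := X.exL μ t2 (a := a' * a) (c := a' * σ a' * c) (by simp [T.σσ]; linear_combination a' * σ a' * hc)
    obtain ⟨h, hh, E3⟩ := X.exS μ t (a' * σ c)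
    refine ⟨g, hg, h, hh, E2, E3, ?_⟩
    rw [show g * h = ⁅y⁻¹, x⁆ by rw [commutatorElement_def, inv_inv, mul_assoc, mul_assoc, ← mul_assoc x, dec μ H E E1 E2 E3]; group]
    exact commutator_mem_commutator (inv_mem (mU hr hy)) (mU hs hx)
  have c1 : (1 : F) + σ 1 = 0 * σ 0 * δ := by simp [CharTwo.add_self_eq_zero]
  have k1 : R k ≤ UU R A := h.elim (fun h g hg => by
    obtain ⟨a, E⟩ := (X.s t).1 hg
    obtain ⟨x, hx, y, -, -, E', l⟩ := d a 0 1 c1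
    rw [μ.uq E (by simpa using E')]
    exact (mul_mem_cancel_left (mU h.2 hx)).1 (commutator_le_self _ l)) fun h _ => mU h.2
  have k2 : ∀ g c, Ei C ρ g (b m) 0 c → g ∈ ⁅UU R A, UU R A⁆ := fun g c E => by
    obtain ⟨z, hz⟩ := μ.tr (μ.t1 E)
    obtain ⟨x, hx, E1⟩ := X.exS μ t1 1
    obtain ⟨y, hy, E2⟩ := X.exS μ t z
    rw [μ.uq E (by simpa [H.g, hz] using μ.cm E1 E2)]
    exact commutator_mem_commutator (mU hs hx) (k1 hy)
  have k3 : ∀ g a, Ei C ρ g (b m) (a • b r) 0 → g ∈ ⁅UU R A, UU R A⁆ := fun g a E => by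
    obtain ⟨x, -, y, -, E1, E2, l⟩ := d a 0 1 c1
    exact μ.cl k2 E (by simpa using μ.mul E1 E2) l
  rcases h with ⟨rfl, -⟩ | ⟨rfl, -⟩ <;> intro g hg
  · exact let ⟨a, E⟩ := (X.s t).1 hg; k3 g a E
  · obtain ⟨a, c, E⟩ := (X.l om).1 hg
    obtain ⟨x, -, y, -, E1, E2, l⟩ := d 1 a c (by simpa [H.g, mul_assoc] using E.tr)
    rw [μ.uq E (by simpa using E1)]
    exact (mul_mem_cancel_right (k3 _ _ E2)).1 l
theorem top : UU R Set.univ = L := by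
  refine le_antisymm (UU_le fun r _ g hg => ?_) (μ.gen _ fun g u c E => ?_)
  · by_cases o : Ev r
    · exact let ⟨_, _, E⟩ := (X.l o).1 hg; μ.EL E
    · exact let ⟨_, E⟩ := (X.s ((tp2 r).2 o)).1 hg; μ.EL E
  have k0 : ∀ r, Ev r → ∀ g c, Ei C ρ g (b r) 0 c → g ∈ UU R Set.univ := fun r o g c E =>
    mU trivial ((X.l o).2 ⟨0, c, by simpa using E⟩)
  have k1 : ∀ r, Ev r → ⟪b r, u⟫ ≠ 0 → g ∈ UU R Set.univ := fun r o n => by
    have t := ((tp2 r).1 o).1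
    obtain ⟨⟨t1, t2, t3, om, -⟩, -⟩ := tp1 _ _ _ _ t
    have H := X.cf t
    have uu := E.uu
    obtain ⟨x, hx, E1⟩ := X.exS μ t2 (⟪b (r + 2 + 4), u⟫ / ⟪b r, u⟫)
    obtain ⟨y, hy, E2⟩ := X.exS μ (tp1 _ _ _ _ t2).1.1 (⟪b (r + 2), u⟫ / ⟪b r, u⟫)
    rw [H.exp u] at uu
    have n' := T.σ_ne_zero n
    obtain ⟨z, hz, E3⟩ := X.exL μ t (a := ⟪e, u⟫ / ⟪b r, u⟫) (c := (⟪b (r + 4), u⟫ + σ ⟪b (r + 2 + 4), u⟫ * ⟪b (r + 2), u⟫ / σ ⟪b r, u⟫) / ⟪b r, u⟫)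
      (by simp [H.g, T.σσ] at uu ⊢; field_simp; grind)
    have e1 : u = (x * y * z) • ⟪b r, u⟫ • b (r + 4) := by
      nth_rw 1 [H.exp u]
      rw [mul_smul, mul_smul, act E1, act E2, act E3]
      simp [H.g, T.σσ]
      match_scalars <;> field_simp <;> grind
    have m := mul_mem (mul_mem (mU (A := Set.univ) trivial hx) (mU trivial hy)) (mU trivial hz)
    generalize x * y * z = p at e1 m
    have := μ.cnj E p⁻¹
    rw [e1, inv_smul_smul, smul_zero] at this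
    have := μ.sc this n
    rw [smul_zero] at this
    simpa [mul_assoc] using mul_mem (mul_mem m (k0 _ t1.1 _ _ this)) (inv_mem m)
  have t := ((tp2 0).1 rfl).1
  obtain ⟨⟨t1, t2, t3, om, -⟩, -⟩ := tp1 _ _ _ _ t
  have H := X.cf t
  by_contra n
  have z : ∀ r, Ev r → ⟪b r, u⟫ = 0 := fun r o => not_not.1 fun k => n (k1 r o k)
  have := H.exp u
  rw [z _ t1.1, z _ (by decide), z _ t.1, z _ om] at this
  have uu := E.uu
  rw [this] at uu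
  have u0 : u = 0 := this.trans (by
    rcases H.o with o | o
    · simp [H.g, o] at uu; simp [uu]
    · simp [o])
  exact n (μ.ext g (fun x => by rw [E.act, u0]; simp) ▸ one_mem _)
end Fr

end H22.QU
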