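/-
Groups generated by root elements with the Steinberg relations of `SU₄(q)` or `SU₅(q)`, `q` even.
-/
import Cfsg.Agent.H22.F46

set_option autoImplicit false
set_option linter.unusedSectionVars false
set_option synthInstance.maxSize 100000
set_option maxRecDepth 100000

namespace H22.QU
open Cfsg Subgroup H19 H12 H26.UE
open scoped commutatorElement

theorem tp5 (i j : P) (h : (j - i - 1).val < 3) : ∃ r s k m, Tp r s k m ∧ ((i = r ∧ j = k ∨ i = k ∧ j = r) ∨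
    (i = r ∧ j = m ∧ k ∈ Jv (i + 1) (j - i - 1).val) ∨ (i = s ∧ j = k ∧ m ∈ Jv (i + 1) (j - i - 1).val) ∨
    (i = s ∧ j = r ∨ i = r ∧ j = s) ∧ k ∈ Jv (i + 1) (j - i - 1).val ∧ m ∈ Jv (i + 1) (j - i - 1).val) :=
  let ⟨r, k, h⟩ := (by decide +kernel : ∀ i j : P, (j - i - 1).val < 3 → ∃ r k, Tp r (k + k - r + k - r) k (k + k - r) ∧
    ((i = r ∧ j = k ∨ i = k ∧ j = r) ∨ (i = r ∧ j = k + k - r ∧ k ∈ Jv (i + 1) (j - i - 1).val) ∨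
    (i = k + k - r + k - r ∧ j = k ∧ k + k - r ∈ Jv (i + 1) (j - i - 1).val) ∨ (i = k + k - r + k - r ∧ j = r ∨ i = r ∧ j = k + k - r + k - r) ∧
      k ∈ Jv (i + 1) (j - i - 1).val ∧ k + k - r ∈ Jv (i + 1) (j - i - 1).val)) i j h
  ⟨r, _, k, _, h⟩
theorem tp6 : ∀ r s k m, Tp r s k m → (r = k - 1 ∧ m = k + 1 ∨ m = k - 1 ∧ r = k + 1) ∧
    (r = 0 ∧ (m = 2 ∨ m = 6) ∨ r = 2 ∧ (m = 4 ∨ m = 0) ∨ r = 4 ∧ (m = 6 ∨ m = 2) ∨ r = 6 ∧ (m = 0 ∨ m = 4)) := by decide +kernel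

variable {F : Type*} [Field F] [Finite F] [CharP F 2] {T : FormType F} {V : Type*} [AddCommGroup V] [Module F V] [Finite V]
  {C : CForm T V} {𝒢 : Type*} [Group 𝒢] [Finite 𝒢] [DistribMulAction 𝒢 V] {ρ : 𝒢 →* RingAut F} {L : Subgroup 𝒢}
  {G : Type*} [Group G] [Finite G] {u v u' v' e : V} {a a' c c' δ : F} {b : P → V} {i j r s k m : P}
  {Z : P → P → F → G} {W : P → F → F → G} {x y : G × 𝒢} {t : G}

local notation "⟪" x ", " y "⟫" => C.B x y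
local notation "σ" => T.σ

/-- the frame as a function of the long roots -/
def fr (u v u' v' : V) (r : P) : V := [u, 0, v, 0, u', 0, v', 0].getD r.val 0
theorem Cf.fr (H : Cf C u v u' v' e δ) (t : Tp r s k m) :
    Cf C (fr u v u' v' r) (fr u v u' v' m) (fr u v u' v' (r + 4)) (fr u v u' v' (m + 4)) e δ := by
  rcases (tp6 _ _ _ _ t).2 with ⟨rfl, rfl | rfl⟩ | ⟨rfl, rfl | rfl⟩ | ⟨rfl, rfl | rfl⟩ | ⟨rfl, rfl | rfl⟩
  exacts [H, H.rot.rot.rot.sw, H.rot, H.sw, H.rot.rot, H.rot.sw, H.rot.rot.rot, H.rot.rot.sw]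

/-- the Steinberg relations -/
structure RZ (T : FormType F) (δ : F) (Z : P → P → F → G) (W : P → F → F → G) : Prop where
  sy : ∀ {r s k m}, Tp r s k m → ∀ a, Z k m a = Z k r (T.σ a)
  add : ∀ {r s k m}, Tp r s k m → ∀ a a', Z k m (a + a') = Z k m a * Z k m a'
  mul : ∀ {r}, Ev r → ∀ a c a' c', c + T.σ c = a * T.σ a * δ → c' + T.σ c' = a' * T.σ a' * δ →
    W r a c * W r a' c' = W r (a + a') (c + c' + T.σ a * a' * δ)
  one : ∀ {r}, Ev r → ∀ a, a * T.σ a * δ = 0 → W r a 0 = 1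
  wc : ∀ {r s k m}, Tp r s k m → ∀ a c x, W r a c * Z k m x = Z k m x * W r a c
  ww : ∀ {r s k m}, Tp r s k m → ∀ a c a' c', W r a c * W m a' c' * (W r a c)⁻¹ * (W m a' c')⁻¹ = Z k m (T.σ a * a' * δ)
  cs : ∀ {r s k m}, Tp r s k m → ∀ x y, Z s m x * Z k m y * (Z s m x)⁻¹ * (Z k m y)⁻¹ = W m 0 (T.σ x * y + x * T.σ y)
  wy : ∀ {r s k m}, Tp r s k m → ∀ x a c, c + T.σ c = a * T.σ a * δ →
    Z s m x * W r a c * (Z s m x)⁻¹ = W r a c * W m (x * a) (x * T.σ x * c) * Z k m (x * T.σ c)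

variable (C ρ e b Z W) in
/-- the diagonal root groups -/
def YY (r : P) : Subgroup (G × 𝒢) := closure (if Ev r then {x | ∃ a c : F, x.1 = W r a c ∧ Ei C ρ x.2 (b r) (a • e) c}
  else {x | ∃ a : F, x.1 = Z r (r + 1) a ∧ Ei C ρ x.2 (b (r + 1)) (a • b (r - 1)) 0})
local notation "𝐘" => YY C ρ e b Z W

theorem mem_cl {Γ : Type*} [Group Γ] [Finite Γ] {S : Set Γ} (h1 : 1 ∈ S) (hm : ∀ x ∈ S, ∀ y ∈ S, x * y ∈ S) {x : Γ} : x ∈ closure S ↔ x ∈ S :=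
  ⟨fun h => (Submonoid.closure_le (S := ⟨⟨S, fun a b => hm _ a _ b⟩, h1⟩)).2 le_rfl (closure_toSubmonoid_of_finite.le h), fun h => subset_closure h⟩
theorem vl (H : Cf C u v u' v' e δ) {g : 𝒢} (E : Ei C ρ g u (a • e) c) : c + σ c = a * σ a * δ := by simpa [H.g, mul_assoc] using E.tr

variable (μ : Md C ρ L) (cf : ∀ {r s k m}, Tp r s k m → Cf C (b r) (b m) (b (r + 4)) (b (m + 4)) e δ) (Q : RZ T δ Z W)
include μ cf Q

theorem z0 (t : Tp r s k m) : Z k m 0 = 1 := by simpa using Q.add t 0 0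
theorem memL (o : Ev r) : x ∈ 𝐘 r ↔ ∃ a c : F, x.1 = W r a c ∧ Ei C ρ x.2 (b r) (a • e) c := by
  have H := cf ((tp2 r).1 o).1
  rw [YY, if_pos o]
  refine mem_cl (by exact ⟨0, 0, (Q.one o 0 (by simp)).symm, by simpa using μ.E1 H.g.1.1⟩) ?_
  rintro x ⟨a, c, h, E⟩ y ⟨a', c', h', E'⟩
  exact ⟨a + a', _, by rw [Prod.fst_mul, h, h', Q.mul o _ _ _ _ (vl H E) (vl H E')], by
    convert μ.mul E E' using 1 <;> simp [H.g, add_smul]; ring⟩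
theorem memS (t : Tp r s k m) : x ∈ 𝐘 k ↔ ∃ a : F, x.1 = Z k m a ∧ Ei C ρ x.2 (b m) (a • b r) 0 := by
  obtain ⟨⟨-, t2, -, -, -, o⟩, -⟩ := tp1 _ _ _ _ t
  have t' := (tp2 k).2 o
  have H := cf t'
  rw [YY, if_neg o, mem_cl (by exact ⟨0, (z0 μ cf Q t').symm, by simpa using μ.E1 H.g.2.1.2.1⟩)]
  swap
  · rintro x ⟨a, h, E⟩ y ⟨a', h', E'⟩
    exact ⟨a + a', by rw [Prod.fst_mul, h, h', Q.add t'], by convert μ.mul E E' using 1 <;> simp [H.g, add_smul]⟩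
  rcases (tp6 _ _ _ _ t).1 with ⟨rfl, rfl⟩ | ⟨rfl, rfl⟩
  · rfl
  · exact ⟨fun ⟨a, h, E⟩ => ⟨σ a, h.trans (Q.sy t' a), sw μ E H.g.1.1 H.g.1.2.1⟩, fun ⟨a, h, E⟩ =>
      ⟨σ a, h.trans (Q.sy t a), sw μ E H.g.2.1.2.1 H.g.2.1.1⟩⟩
theorem frY : Fr C ρ b e δ fun r => (𝐘 r).map (.snd _ _) where
  cf := cf
  l o := ⟨fun ⟨_, h, k⟩ => let ⟨a, c, _, E⟩ := (memL μ cf Q o).1 h; ⟨a, c, k ▸ E⟩, fun ⟨a, c, E⟩ =>
    ⟨(_, _), (memL μ cf Q o).2 ⟨a, c, rfl, E⟩, rfl⟩⟩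
  s t := ⟨fun ⟨_, h, k⟩ => let ⟨a, _, E⟩ := (memS μ cf Q t).1 h; ⟨a, k ▸ E⟩, fun ⟨a, E⟩ =>
    ⟨(_, _), (memS μ cf Q t).2 ⟨a, rfl, E⟩, rfl⟩⟩
theorem cY (t : Tp r s k m) (hx : x ∈ 𝐘 r) (hy : y ∈ 𝐘 k) : x * y = y * x := by
  obtain ⟨a, c, h, E⟩ := (memL μ cf Q t.1).1 hx
  obtain ⟨a', h', E'⟩ := (memS μ cf Q t).1 hy
  exact Prod.ext (by simp only [Prod.fst_mul, h, h', Q.wc t]) (comm μ E E' (by simp [(cf t).g]))
theorem wY (t : Tp r s k m) (hx : x ∈ 𝐘 r) (hy : y ∈ 𝐘 m) : x * y * x⁻¹ * y⁻¹ ∈ 𝐘 k := by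
  obtain ⟨a, c, h, E⟩ := (memL μ cf Q t.1).1 hx
  obtain ⟨a', c', h', E'⟩ := (memL μ cf Q (tp1 _ _ _ _ t).1.2.2.2.1).1 hy
  obtain ⟨g, -, E2⟩ := (frY μ cf Q).exS μ t (σ a * a' * δ)
  exact (memS μ cf Q t).2 ⟨_, by simp only [Prod.fst_mul, Prod.fst_inv, h, h', Q.ww t], (ww μ (cf t) E E' E2).symm ▸ E2⟩
theorem mq : MQ 𝐘 (.snd _ _) fun r => (𝐘 r).map (.snd _ _) where
  cm i j l x hx y hy := by
    obtain ⟨r, s, k, m, t, h⟩ := tp5 i j l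
    obtain ⟨⟨t1, t2, -, om, -⟩, -⟩ := tp1 _ _ _ _ t
    have H := cf t
    generalize Jv (i + 1) (j - i - 1).val = A at *
    rcases h with (⟨rfl, rfl⟩ | ⟨rfl, rfl⟩) | ⟨rfl, rfl, h⟩ | ⟨rfl, rfl, h⟩ | ⟨h, h1, h2⟩
    · simp [cY μ cf Q t hx hy]
    · simp [← cY μ cf Q t hy hx]
    · exact mU h (wY μ cf Q t hx hy)
    · obtain ⟨a, k, E⟩ := (memS μ cf Q t1).1 hx
      obtain ⟨a', k', E'⟩ := (memS μ cf Q t).1 hy
      exact mU h ((memL μ cf Q om).2 ⟨0, _, by rw [← Q.cs t, ← k, ← k']; rfl, by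
        convert μ.cm E E' using 1 <;> simp [H.g, T.σσ, mul_comm]⟩)
    have : ∀ x ∈ 𝐘 s, ∀ y ∈ 𝐘 r, x * y * x⁻¹ * y⁻¹ ∈ UU 𝐘 A := fun x hx y hy => by
      obtain ⟨a', k1, E⟩ := (memS μ cf Q t1).1 hx
      obtain ⟨a, c, k2, E1⟩ := (memL μ cf Q t.1).1 hy
      obtain ⟨g, -, E2⟩ := (frY μ cf Q).exL μ t2 (a := a' * a) (c := a' * σ a' * c) (by
        simp [T.σσ]; linear_combination a' * σ a' * vl H E1)
      obtain ⟨g', -, E3⟩ := (frY μ cf Q).exS μ t (a' * σ c)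
      have m1 := (memL μ cf Q (x := (_, g)) om).2 ⟨_, _, rfl, E2⟩
      have m2 := (memS μ cf Q (x := (_, g')) t).2 ⟨_, rfl, E3⟩
      rw [show x * y * x⁻¹ = y * (_, g) * (_, g') from Prod.ext (by have := Q.wy t a' _ _ (vl H E1); rwa [← k1, ← k2] at this)
        (dec μ H E E1 E2 E3), mul_assoc, ← cY μ cf Q t (inv_mem hy) m2, ← mul_assoc, ← inv_mul_cancel_right (_ * y⁻¹) (_, g)]
      exact mul_mem (mul_mem (mU h1 (wY μ cf Q t hy m1)) (mU h2 m1)) (mU h1 m2)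
    rcases h with ⟨rfl, rfl⟩ | ⟨rfl, rfl⟩
    · exact this x hx y hy
    · simpa [mul_assoc] using inv_mem (this y hy x hx)
  mp _ := rfl
  inj i x hx k := by
    replace k : x.2 = 1 := k
    by_cases o : Ev i
    · obtain ⟨a, c, h, E⟩ := (memL μ cf Q o).1 hx
      have H := cf ((tp2 i).1 o).1
      obtain rfl := one2 μ H (k ▸ E)
      exact Prod.ext (h.trans (Q.one o a (by simpa using (vl H E).symm))) k
    · have t := (tp2 i).2 o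
      obtain ⟨a, h, E⟩ := (memS μ cf Q t).1 hx
      obtain rfl := one3 μ (cf t) (k ▸ E)
      exact Prod.ext (h.trans (z0 μ cf Q t)) k
  ne := (frY μ cf Q).ne μ
  sep := (frY μ cf Q).sep μ
  mu := (frY μ cf Q).mu μ
  gen := (frY μ cf Q).gen μ
theorem nrm {n : 𝒢} (r1 : ∀ c, ρ n c = σ c) (h1 : ∀ r, n • b r = b r) (h2 : n • e = e)
    (tZ : ∀ {r s k m}, Tp r s k m → ∀ a, t * Z k m a * t⁻¹ = Z k m (σ a))
    (tW : ∀ {r}, Ev r → ∀ a c, c + σ c = a * σ a * δ → t * W r a c * t⁻¹ = W r (σ a) (σ c)) (hx : x ∈ UU 𝐘 Set.univ) :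
    (t, n) * x * (t, n)⁻¹ ∈ UU 𝐘 Set.univ := UU_cj (fun r _ x hx => mU (r := r) trivial (by
  by_cases o : Ev r
  · obtain ⟨a, c, h, E⟩ := (memL μ cf Q o).1 hx
    exact (memL μ cf Q o).2 ⟨σ a, σ c, (h ▸ tW o a c (vl (cf ((tp2 r).1 o).1) E) : t * x.1 * t⁻¹ = _), by
      have := μ.cnj E n; rwa [μ.sm, h1, h2, r1, r1] at this⟩
  · have p := (tp2 r).2 o
    obtain ⟨a, h, E⟩ := (memS μ cf Q p).1 hx
    exact (memS μ cf Q p).2 ⟨σ a, (h ▸ tZ p a : t * x.1 * t⁻¹ = _), by have := μ.cnj E n; rwa [μ.sm, h1, h1, r1, map_zero] at this⟩)) hx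
theorem fst_le {M : Subgroup G} (h1 : ∀ {r s k m}, Tp r s k m → ∀ a, Z k m a ∈ M) (h2 : ∀ {r}, Ev r → ∀ a c, W r a c ∈ M)
    (hx : x ∈ UU 𝐘 Set.univ) : x.1 ∈ M := UU_le (M := M.comap (MonoidHom.fst G 𝒢)) (fun r _ x hx => by
  by_cases o : Ev r
  · exact let ⟨a, c, h, _⟩ := (memL μ cf Q o).1 hx; (h ▸ h2 o a c : x.1 ∈ M)
  · exact let ⟨a, h, _⟩ := (memS μ cf Q ((tp2 r).2 o)).1 hx; (h ▸ h1 ((tp2 r).2 o) a : x.1 ∈ M)) hx

/-- the covering homomorphism -/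
theorem cover {S : Type*} [Group S] {l : S →* 𝒢} (li : Function.Injective l) (lr : l.range = L)
    (hS : ∀ τ : UU 𝐘 Set.univ →* S, Group.IsPerfect (UU 𝐘 Set.univ) → Function.Surjective τ → τ.ker ≤ center _ → Function.Injective τ) :
    ∃ ψ : S →* G, (∀ s, (ψ s, l s) ∈ UU 𝐘 Set.univ) ∧ (∀ g s, (g, l s) ∈ UU 𝐘 Set.univ → ψ s = g) ∧
      ∀ x ∈ UU 𝐘 Set.univ, ∃ s, l s = x.2 := by
  have M := mq μ cf Q
  have tp := (M.mpU _).trans (((frY μ cf Q).top μ).trans lr.symm)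
  have h1 : ∀ x ∈ UU 𝐘 Set.univ, x.2 ∈ l.range := fun x hx => tp.le (mem_map_of_mem _ hx)
  let τ : UU 𝐘 Set.univ →* S := (MonoidHom.ofInjective li).symm.toMonoidHom.comp
    (((MonoidHom.snd G 𝒢).comp (Subgroup.subtype _)).codRestrict _ fun x => h1 _ x.2)
  have h2 : ∀ x, l (τ x) = x.1.2 := fun x => MonoidHom.apply_ofInjective_symm li _
  have h3 : Function.Surjective τ := fun s => let ⟨x, hx, k⟩ := tp.ge ⟨s, rfl⟩; ⟨⟨x, hx⟩, li ((h2 _).trans k)⟩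
  have h4 := hS τ (Subgroup.isPerfect_iff.2 (le_antisymm (commutator_le_self _) M.perf)) h3 fun x hx => mem_center_iff.2 fun y =>
    Subtype.ext (mem_cent.1 (M.ker x.2 ((h2 x).symm.trans (by rw [show τ x = 1 from hx, map_one]))) _ y.2)
  let ε := MulEquiv.ofBijective τ ⟨h4, h3⟩
  have h5 : ∀ s, (ε.symm s).1.2 = l s := fun s => (h2 _).symm.trans (congrArg l (ε.apply_symm_apply s))
  exact ⟨((MonoidHom.fst G 𝒢).comp (Subgroup.subtype _)).comp ε.symm.toMonoidHom, fun s => h5 s ▸ (ε.symm s).2, fun g s h =>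
    congrArg (·.1.1) (ε.symm_apply_eq.2 (li (h2 ⟨_, h⟩).symm) : ε.symm s = ⟨_, h⟩), h1⟩

end H22.QU
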