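import Cfsg.Agent.H22.AutPSU
import Cfsg.Agent.H22.UF3
import Cfsg.Agent.H4.Centralizer

/-! # Cosets modulo scalars fixed by a field automorphism -/

set_option autoImplicit false

namespace H22

open Module Matrix H12 H12.CForm

variable {ι : Type*} [Fintype ι] [DecidableEq ι] [Nonempty ι] {F F₀ : Type*} [Field F] [Field F₀]

theorem card_fixCos {σ : RingAut F} {j : F₀ →+* F} (hj : ∀ x, σ x = x ↔ x ∈ Set.range j)
    (P : Subgroup (GL ι F)) (Z : Subgroup Fˣ) (hZ : ∀ c ∈ Z, scal ι c ∈ P) (P₀ : Subgroup (GL ι F₀))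
    (Z₀ : Subgroup F₀ˣ) (hP : ∀ g, GeneralLinearGroup.map j g ∈ P ↔ g ∈ P₀)
    (hZ₀ : ∀ c, Units.map (j : F₀ →* F) c ∈ Z ↔ c ∈ Z₀)
    (h : ∀ g ∈ P, ∀ l g₀, scal ι l * g = GeneralLinearGroup.map j g₀ → ∃ a, Units.map (j : F₀ →* F) a * l ∈ Z) :
    Nat.card {g : P // ∃ c : F, c ≠ 0 ∧ (g.1 : Matrix ι ι F).map σ = c • (g.1 : Matrix ι ι F)} * Nat.card Z₀ =
      Nat.card P₀ * Nat.card Z := by
  have hi : Function.Injective (GeneralLinearGroup.map j : GL ι F₀ →* GL ι F) := fun a b e => by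
    ext i k; exact j.injective (gl_entry e i k)
  have : (Z.map (scal ι)).Normal := ⟨by
    rintro _ ⟨c, hc, rfl⟩ g; exact ⟨c, hc, by rw [← scal_comm, mul_inv_cancel_right]⟩⟩
  have h1 := H4.card_sup_mul_card_inf (P₀.map (GeneralLinearGroup.map j)) (Z.map (scal ι))
  rw [Subgroup.card_map_of_injective hi, Subgroup.card_map_of_injective scal_injective,
    show P₀.map (GeneralLinearGroup.map j) ⊓ Z.map (scal ι) = Z₀.map ((GeneralLinearGroup.map j).comp (scal ι)) by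
      ext g
      constructor
      · rintro ⟨⟨g, -, rfl⟩, c, hc, e⟩
        obtain ⟨c₀, rfl⟩ := map_eq_scal j e.symm
        exact ⟨c₀, (hZ₀ _).1 (scal_injective (e.trans (map_scal j c₀)) ▸ hc), rfl⟩
      · rintro ⟨c, hc, rfl⟩
        exact ⟨⟨_, (hP _).1 (map_scal (ι := ι) j c ▸ hZ _ ((hZ₀ _).2 hc)), rfl⟩, _, (hZ₀ _).2 hc, (map_scal j c).symm⟩,
    Subgroup.card_map_of_injective (f := MonoidHom.comp _ _) (hi.comp scal_injective)] at h1
  rw [← h1]
  refine congrArg (· * _) (Nat.card_congr ((Equiv.subtypeSubtypeEquivSubtypeInter (· ∈ P) fun g : GL ι F =>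
    ∃ c : F, c ≠ 0 ∧ g.1.map σ = c • g.1).trans (Equiv.subtypeEquivRight fun g => ?_)))
  rw [Subgroup.mem_sup_of_normal_right]
  constructor
  · rintro ⟨hg, c, hc, e⟩
    obtain ⟨l, hl⟩ := exists_fixed_scal (σ := σ) (g := g) (c := Units.mk0 c hc) (Units.ext (by
      rw [Units.val_mul, coe_scal, smul_mul_assoc, one_mul]; exact e))
    obtain ⟨g₀, hg₀⟩ := exists_map_of_fixed j hj hl
    obtain ⟨a, ha⟩ := h g hg l g₀ hg₀.symm
    have e2 : GeneralLinearGroup.map j (scal ι a * g₀) = scal ι (Units.map (j : F₀ →* F) a * l) * g := by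
      rw [map_mul, map_scal, hg₀, map_mul, mul_assoc]
    exact ⟨_, ⟨_, (hP _).1 (e2 ▸ mul_mem (hZ _ ha) hg), rfl⟩, _, ⟨_, inv_mem ha, rfl⟩, by
      rw [e2, scal_comm, map_inv, mul_inv_cancel_right]⟩
  · rintro ⟨_, ⟨g, hg, rfl⟩, _, ⟨c, hc, rfl⟩, rfl⟩
    refine ⟨mul_mem ((hP _).2 hg) (hZ _ hc), σ c / c, by simp, ?_⟩
    rw [← coe_fldAut, map_mul, fldAut_map j hj, fldAut_scal]
    simp [-GeneralLinearGroup.coe_scalar, coe_scal, smul_smul]

end H22
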