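import Cfsg.Agent.H22.GA2
import Cfsg.Agent.H22.OrthSplit2
import Cfsg.Agent.H27.CN10

/-! Classes of graph automorphisms and semisimple elements of even-dimensional orthogonal groups. -/

set_option autoImplicit false

namespace H22

open Module Matrix SemidirectProduct Cfsg H12 H11 H12.CForm Polynomial QuadraticMap

section abs
variable {F V : Type*} [Field F] [AddCommGroup V] [Module F V] [FiniteDimensional F V] {Q : QuadraticForm F V}

theorem eig_nd (hQ : QNondeg Q) (u : orth Q) {f : F[X]} (hf : Squarefree f)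
    (h0 : aeval (u.1 : End F V) f = 0) {ε : F} (hε : ε * ε = 1) :
    (ofQuad Q).NondegOn (LinearMap.ker ((u.1 : End F V) - algebraMap F _ ε)) := by
  rw [nondegOn_iff, ← perp_range hQ u.2 hε, hQ.perp_perp, perp_range hQ u.2 hε]
  exact (disjoint_of_sqfree hf h0 ε).symm

omit [FiniteDimensional F V] in
theorem refl_comm_of_eig (u : orth Q) {v : V} {c : F} (hc : c ≠ 0) (h : u.1 v = c • v) :
    Commute (refl Q v) u := by
  have := refl_conj u v
  rw [h, refl_smul hc, mul_inv_eq_iff_eq_mul] at this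
  exact this.symm

variable [Finite F] (h2 : (2 : F) ≠ 0) (hQ : QNondeg Q)
include h2 hQ

theorem exists_w_eig (u : orth Q) {f : F[X]} (hf : Squarefree f) (h0 : aeval (u.1 : End F V) f = 0) {ε : F}
    (hε : ε * ε = 1) (hd : 2 ≤ finrank F (LinearMap.ker ((u.1 : End F V) - algebraMap F _ ε))) :
    ∃ w, dickson Q w = 1 ∧ spinor Q w = -1 ∧ Commute w u := by
  have hne : NotExc F V := notExc_of_two_ne_zero h2
  obtain ⟨a, ha0, ha⟩ := exists_nonsquare' h2
  obtain ⟨v, hv, e⟩ := exists_Q_eq_of_nondegOn hQ (eig_nd hQ u hf h0 hε) hd one_ne_zero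
  obtain ⟨v', hv', e'⟩ := exists_Q_eq_of_nondegOn hQ (eig_nd hQ u hf h0 hε) hd ha0
  have hε0 := left_ne_zero_of_mul_eq_one hε
  refine ⟨refl Q v * refl Q v', ?_, ?_, (refl_comm_of_eig u hε0 (sub_eq_zero.1 hv)).mul_left
    (refl_comm_of_eig u hε0 (sub_eq_zero.1 hv'))⟩
  · rw [map_mul, dickson_refl hQ hne (e ▸ one_ne_zero), dickson_refl hQ hne (e' ▸ ha0)]; simp
  · rw [map_mul, spinor_refl hQ hne (e ▸ one_ne_zero), spinor_refl hQ hne (e' ▸ ha0), e, e', qsign_one,
      qsign_eq_neg_one.2 ha, one_mul]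

theorem exists_w_inv (h3 : 3 ≤ finrank F V) {u : orth Q} (hu : u * u = 1) :
    ∃ w, dickson Q w = 1 ∧ spinor Q w = -1 ∧ Commute w u := by
  have huu : ∀ x, u.1 (u.1 x) = x := fun x => by rw [← orth_mul_apply, hu, orth_one_apply]
  have hf : Squarefree (X ^ 2 - 1 : F[X]) := (X_pow_sub_one_separable_iff.2 (by exact_mod_cast h2)).squarefree
  have h0 : aeval (u.1 : End F V) (X ^ 2 - 1 : F[X]) = 0 := LinearMap.ext fun x => by simp [pow_two, huu]
  have h1 := LinearMap.finrank_range_add_finrank_ker ((u.1 : End F V) - algebraMap F _ 1)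
  have h4 : finrank F (LinearMap.range ((u.1 : End F V) - algebraMap F _ 1)) ≤
      finrank F (LinearMap.ker ((u.1 : End F V) - algebraMap F _ (-1))) :=
    Submodule.finrank_mono (by rintro _ ⟨x, rfl⟩; simp [huu])
  by_cases h : 2 ≤ finrank F (LinearMap.ker ((u.1 : End F V) - algebraMap F _ 1))
  · exact exists_w_eig h2 hQ u hf h0 (one_mul 1) h
  · exact exists_w_eig h2 hQ u hf h0 (ε := -1) (by simp) (by omega)

omit h2 hQ in
theorem even_range {u : orth Q} (hQ : QNondeg Q) {n : ℕ} (hn : Odd n) (hf : Squarefree (X ^ n - 1 : F[X]))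
    (h0 : aeval (u.1 : End F V) (X ^ n - 1 : F[X]) = 0) :
    Even (finrank F (LinearMap.range ((u.1 : End F V) - algebraMap F _ 1))) := by
  have d1 := disjoint_of_sqfree hf h0 1
  have nd : (ofQuad Q).NondegOn (LinearMap.range ((u.1 : End F V) - algebraMap F _ 1)) := by
    rw [nondegOn_iff]; exact d1.mono_right (perp_range hQ u.2 (ε := 1) (one_mul 1)).le
  obtain ⟨C, hC, -⟩ := exists_alt (toSQ (C := (ofQuad Q).restrict _) ((restrict_nondeg_iff _).2 nd))
    (inj_sq_of_odd hn (aeval_restrict h0 (range_mapsTo (u.1 : End F V) 1)) fun x hx =>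
      inj_restrict d1 x (by simpa using congrArg Subtype.val hx)) fun x y => u.2.1 _ _
  obtain ⟨k, hk⟩ := alt_even hC
  exact ⟨k, hk.trans (two_mul k)⟩

omit [FiniteDimensional F V] [Finite F] h2 hQ in
theorem orth_pow_end {u : orth Q} {r : ℕ} (hu : u ^ r = 1) : (u.1 : End F V) ^ r = 1 := by
  have := map_pow (LinearEquiv.automorphismGroup.toLinearMapMonoidHom (R := F) (M := V)) u.1 r
  rw [← Subgroup.coe_pow, hu] at this
  exact this.symm

/-- a vector orthogonal to its image under a self-adjoint square root of a non-square -/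
theorem exists_orth_image (h3 : 3 ≤ finrank F V) {g : End F V} {μ : F} (hμ : ¬ IsSquare μ)
    (hg : ∀ x, g (g x) = μ • x) (hs : ∀ x y, polar Q (g x) y = polar Q x (g y)) :
    ∃ v, Q v ≠ 0 ∧ polar Q v (g v) = 0 := by
  by_contra! H
  let b : QuadraticForm F V := LinearMap.BilinMap.toQuadraticMap ((polarBilin Q).compl₂ g)
  have hb : ∀ x, b x = polar Q x (g x) := fun _ => rfl
  obtain ⟨v, hv0, hv⟩ := exists_singular b h3
  rw [hb] at hv
  have H' : ∀ x, polar Q x (g x) = 0 → Q x = 0 := fun x hx => by_contra fun h => H x h hx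
  obtain ⟨y₀, hy, hy'⟩ := hQ.exists_perp_ne (W := Submodule.span F {v}) (x := g v) fun h => by
    obtain ⟨c, hc⟩ := Submodule.mem_span_singleton.1 h
    have := hg v
    rw [← hc, map_smul, ← hc, smul_smul] at this
    exact hμ ⟨c, (smul_left_injective F hv0 this).symm⟩
  have key : ∀ y, polar Q v y = 0 → polar Q (g v) y ≠ 0 → Q y = 0 := fun y h1 h4 => by
    have := H' (y - (polar Q y (g y) / (2 * polar Q (g v) y)) • v) (by
      rw [map_sub, map_smul, polar_sub_left, polar_sub_right, polar_sub_right, polar_smul_left, polar_smul_left,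
        polar_smul_right, polar_smul_right, hv, ← hs v y, polar_comm Q y (g v)]
      simp only [smul_eq_mul]; field_simp; ring)
    rwa [Q_sub, QuadraticMap.map_smul, H' v hv, polar_smul_right, polar_comm Q y v, h1, smul_zero, smul_zero,
      add_zero, sub_zero] at this
  have hy1 : polar Q v y₀ = 0 := hy v (Submodule.mem_span_singleton_self v)
  have hts : (ofQuad Q).TS ((ofQuad Q).perp (Submodule.span F {v})) := quad_ts_iff.2 fun z hz => by
    have hz1 : polar Q v z = 0 := hz v (Submodule.mem_span_singleton_self v)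
    by_cases h : polar Q (g v) z = 0
    · have a1 := key (z + y₀) (by rw [polar_add_right, hz1, hy1, add_zero]) (by rwa [polar_add_right, h, zero_add])
      have a2 := key (z - y₀) (by rw [polar_sub_right, hz1, hy1, sub_zero])
        (by rwa [polar_sub_right, h, zero_sub, neg_ne_zero])
      rw [Q_add, key y₀ hy1 hy'] at a1
      rw [Q_sub, key y₀ hy1 hy'] at a2
      exact mul_left_cancel₀ h2 (by rw [ofQuad_N]; linear_combination a1 + a2)
    · exact key z hz1 h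
  have := hts.two_mul_finrank_le hQ
  have := finrank_perp_span_singleton hQ hv0
  omega

theorem exists_w_reg (p : ℕ) [Fact p.Prime] [CharP F p] [Nontrivial V] {u : orth Q} {r : ℕ} (hr : Odd r)
    (hp : r.Coprime p) (hu : u ^ r = 1) (h1 : IsUnit ((u.1 : End F V) - 1)) :
    ∃ w, Commute w u ∧ (LinearMap.det w.1.toLinearMap = 1 → spinor Q w = -1) ∧
      (LinearMap.det w.1.toLinearMap ≠ 1 → spinor Q w = -1) := by
  have := Fintype.ofFinite F
  obtain ⟨c, hc⟩ := odd_card_iff.2 h2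
  obtain ⟨D, j⟩ := H27.Sp.exists_jd (K := AlgebraicClosure F) (u.1 : End F V)
  have h0 := j.ne_zero ((Group.isUnit u.1).map (LinearEquiv.automorphismGroup.toLinearMapMonoidHom))
  have h3 := (j.pow_eq_one (p := p) h0 r).1 (orth_pow_end hu)
  have h4 := (j.add_const (-1)).ne_zero (by rwa [map_neg, map_one, ← sub_eq_add_neg])
  by_contra! H
  have P : H27.CN.PS u 1 := fun c hc => by
    rw [ite_self]
    by_contra h
    have := H c hc (fun _ => Int.units_ne_iff_eq_neg.1 h)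
    exact this.2 (Int.units_ne_iff_eq_neg.1 h)
  obtain ⟨x, hx⟩ := Multiset.exists_mem_of_ne_zero (s := D) (by
    rintro rfl
    exact finrank_pos.ne' (j.dim.trans rfl))
  refine P.reg (p := p) (by rw [Nat.card_eq_fintype_card, hc]) hQ j (fun y hy e => ?_) x hx ?_
  · obtain ⟨k, rfl⟩ := hr
    have := (h3 y hy).1
    rw [pow_succ, pow_mul, e, one_pow, one_mul] at this
    exact h4 _ (Multiset.mem_map_of_mem _ hy) (by simp [this])
  · have h5 := Nat.Coprime.eq_one_of_dvd (Nat.Coprime.pow_left _ hp.symm) (h3 x hx).2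
    have h6 := (Nat.pow_eq_one.1 h5).resolve_left (Fact.out : p.Prime).ne_one
    have := Nat.le_pow_clog (Fact.out : p.Prime).one_lt x.2
    have := j.pos x hx
    simp only [h6, pow_zero] at *
    omega

end abs

variable {ι : Type} [Fintype ι] [DecidableEq ι] {F : Type*} [Field F] [Finite F] {Q : QuadraticForm F (ι → F)}
  (hQ : QNondeg Q) [Nonempty ι] {m : ℕ} (hd : Fintype.card ι = 2 * m) (h2 : (2 : F) ≠ 0)

omit [Finite F] in
theorem gsim_polar (g : GSim (ofQuad Q)) (x y : ι → F) :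
    polar Q (g.1.1 *ᵥ x) (g.1.1 *ᵥ y) = mult hQ g * polar Q x y := (isSS_inl.1 (isSS_mult hQ g)).1 x y

include hd h2 in
theorem Dk_of_skew {s : Matrix ι ι F} (hs : IsUnit s) (h : ∀ x, polar Q x (s *ᵥ x) = 0) {g : GSim (ofQuad Q)}
    (hg : g.1.1 * s = s * g.1.1) : Dk hQ m g = 1 := by
  have e : ∀ x y, bf ((ofQuad Q).gram (Pi.basisFun F ι) * s) x y = polar Q x (s *ᵥ y) := fun x y => by
    rw [← ofQuad_B, ← gram_B _ fun _ => rfl, bf, bf, mulVec_mulVec]
  refine Dk_of_det hQ h2 hd (s := 1) ?_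
  rw [Units.val_one, Int.cast_one, one_mul]
  refine (md_alt (((isUnit_iff_isUnit_det _).2 ((nondeg_iff_det_gram _).1 hQ).isUnit).mul hs)
    (fun x => (e x x).trans (h x)) hd (mult hQ g).ne_zero).1 ⟨g.1, fun x y => ?_, rfl⟩
  rw [e, e, mulVec_mulVec, ← hg, ← mulVec_mulVec, gsim_polar hQ]

omit [Finite F] [Nonempty ι] in
theorem gsim_sq_apply {g : GSim (ofQuad Q)} {c : Fˣ} (h : g * g = scS _ c) (x : ι → F) :
    g.1.1 *ᵥ (g.1.1 *ᵥ x) = c.1 • x := by rw [mulVec_mulVec, gsim_sq h, smul_mulVec, one_mulVec]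

include hd h2 in
theorem sq_eq_mult {g : GSim (ofQuad Q)} {c : Fˣ} (h : g * g = scS _ c) (hD : Dk hQ m g = -1) :
    c = mult hQ g := by
  have h1 := congrArg (mult hQ) h
  rw [map_mul, mult_scS'] at h1
  rcases mul_self_eq_mul_self_iff.1 (congrArg Units.val h1) with e | e
  · exact Units.ext e.symm
  · rw [Dk_of_skew hQ hd h2 g.1.isUnit (fun x => ?_) rfl] at hD
    · exact absurd hD (by decide)
    have := gsim_polar hQ g x (g.1.1 *ᵥ x)
    rw [gsim_sq_apply h, polar_smul_right, polar_comm, e, smul_eq_mul] at this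
    exact mul_left_cancel₀ (mul_ne_zero h2 c.ne_zero) (by linear_combination this)

omit [Finite F] in
theorem exists_inv_of_sq {g : GSim (ofQuad Q)} (h : g * g = scS _ (mult hQ g)) (hs : IsSquare (mult hQ g).1) :
    ∃ a u, g = scS _ a * iO Q u ∧ u * u = 1 := by
  obtain ⟨a, ha⟩ := hs
  have ha0 : a ≠ 0 := fun h => (mult hQ g).ne_zero (by rw [ha, h, mul_zero])
  have e : mult hQ g = Units.mk0 a ha0 * Units.mk0 a ha0 := Units.ext ha
  obtain ⟨u, hu⟩ := exists_iO_of_mult hQ e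
  refine ⟨_, u, hu, iO_injective ?_⟩
  rw [e, hu, mul_assoc, ← mul_assoc (iO Q u), ← scS_comm, ← mul_assoc, ← mul_assoc, ← map_mul, mul_assoc,
    mul_eq_left] at h
  rw [map_mul, h, map_one]

omit [Finite F] [Nonempty ι] in
theorem comm_scS_mul {w u : orth Q} (h : Commute w u) (a : Fˣ) : Commute (iO Q w) (scS _ a * iO Q u) :=
  Commute.mul_right (scS_comm a _).symm (h.map _)

include h2 in
theorem exists_w_graph (h3 : 3 ≤ Fintype.card ι) {g : GSim (ofQuad Q)} (h : g * g = scS _ (mult hQ g)) :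
    ∃ w, dickson Q w = 1 ∧ spinor Q w = -1 ∧ Commute (iO Q w) g := by
  by_cases hs : IsSquare (mult hQ g).1
  · obtain ⟨a, u, rfl, hu⟩ := exists_inv_of_sq hQ h hs
    obtain ⟨w, h4, h5, h6⟩ := exists_w_inv h2 hQ (by simpa) hu
    exact ⟨w, h4, h5, comm_scS_mul h6 a⟩
  have hne : NotExc F (ι → F) := notExc_of_two_ne_zero h2
  obtain ⟨v, hv, hv'⟩ := exists_orth_image h2 hQ (by simpa) (g := toLin' g.1.1) hs (gsim_sq_apply h) fun x y =>
    mul_left_cancel₀ (mult hQ g).ne_zero (by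
      rw [toLin'_apply, toLin'_apply, ← gsim_polar hQ g x, gsim_sq_apply h, polar_smul_right, smul_eq_mul])
  rw [toLin'_apply] at hv'
  have hgv : Q (g.1.1 *ᵥ v) = mult hQ g * Q v := (isSS_inl.1 (isSS_mult hQ g)).2 v
  have hv2 : Q (g.1.1 *ᵥ v) ≠ 0 := hgv ▸ mul_ne_zero (mult hQ g).ne_zero hv
  have key : ∀ x, g * iO Q (refl Q x) * g⁻¹ = iO Q (refl Q (g.1.1 *ᵥ x)) := fun x => by
    rw [← cS_iS, cS_iO, cO_refl, coe_iS, actV_inl]
  refine ⟨refl Q v * refl Q (g.1.1 *ᵥ v), ?_, ?_, ?_⟩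
  · rw [map_mul, dickson_refl hQ hne hv, dickson_refl hQ hne hv2]; simp
  · rw [map_mul, spinor_refl hQ hne hv, spinor_refl hQ hne hv2, hgv, qsign_mul (mult hQ g).ne_zero hv,
      qsign_eq_neg_one.2 hs, mul_left_comm, Int.units_mul_self, mul_one]
  · have := refl_comm_of_eig (refl Q v) one_ne_zero ((refl_apply_of_orth hv').trans (one_smul _ _).symm)
    rw [Commute, SemiconjBy, eq_comm, ← mul_inv_eq_iff_eq_mul, map_mul, ← conj_mul, key, key, gsim_sq_apply h,
      refl_smul (mult hQ g).ne_zero, ← map_mul, ← map_mul, this.eq]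

variable {q : (ι → F) → F} (hq : ⇑Q = q) (h5 : 5 ≤ Fintype.card ι)

omit [Nonempty ι] in
theorem ThS_mem_cent {g h : GSim (ofQuad Q)} :
    (omData hq hQ h5).ThS h ∈ Subgroup.centralizer {(omData hq hQ h5).ThS g} ↔
      ∃ c, h * g * h⁻¹ = scS _ c * g := by
  rw [Subgroup.mem_centralizer_singleton_iff, ← mul_inv_eq_iff_eq_mul, ← mul_inv_eq_one, ← map_mul, ← map_inv,
    ← map_inv, ← map_mul, ← map_mul, FormData.ThS_eq_one]
  exact exists_congr fun c => mul_inv_eq_iff_eq_mul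

include hd h2 in
theorem graph_split {g : GSim (ofQuad Q)} (hD : Dk hQ m g = -1) (ho : orderOf ((omData hq hQ h5).ThS g) = 2) :
    (splitClassCount ((Dk hQ m).ker.map (omData hq hQ h5).ThS) (Inn (POmega F q)) ((omData hq hQ h5).ThS g) = 1 ∨
      splitClassCount ((Dk hQ m).ker.map (omData hq hQ h5).ThS) (Inn (POmega F q)) ((omData hq hQ h5).ThS g) = 2) ∧
    (spinor Q (H11.negOne Q) ≠ -1 ∨ Even m →
      splitClassCount ((Dk hQ m).ker.map (omData hq hQ h5).ThS) (Inn (POmega F q)) ((omData hq hQ h5).ThS g) = 2) := by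
  obtain ⟨c, hc⟩ := (omData hq hQ h5).ThS_eq_one.1 (show (omData hq hQ h5).ThS (g * g) = 1 by
    rw [map_mul, ← pow_two]; exact orderOf_dvd_iff_pow_eq_one.1 ho.dvd)
  obtain rfl := sq_eq_mult hQ hd h2 hc hD
  obtain ⟨a, t, S, hz, hw⟩ := exists_outStr hq hQ h5 hd h2
  rw [even_split_eq hq hQ h5 hd]
  have hle := Subgroup.map_mono (f := oPi hq hQ h5) (inf_le_left (a := (Dk hQ m).ker)
    (b := (Subgroup.centralizer {(omData hq hQ h5).ThS g}).comap (omData hq hQ h5).ThS))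
  by_cases hs : spinor Q (H11.negOne Q) = -1
  · refine ⟨relIndex_of_card_two hle (S.card_two (hz.2 hs)), fun h => ?_⟩
    have he := h.resolve_left (not_not.2 hs)
    rw [← S.card_two (hz.2 hs), ← Subgroup.relIndex_bot_left]
    congr 1
    rw [Subgroup.map_eq_bot_iff]
    rintro h ⟨h1, h3⟩
    refine (S.prod_eq_one (hz.2 hs) h).1 (Prod.ext h1 ?_)
    obtain ⟨a, u, rfl, hu⟩ := exists_inv_of_sq hQ hc (by_contra fun hn => by
      rw [Dk_of_sq hQ h2 hd hn hc, he.neg_one_pow] at hD; exact absurd hD (by decide))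
    rw [map_mul, Dk_scS hQ h5 hd, one_mul, Dk_iO hQ h5 hd] at hD
    obtain ⟨c, h4⟩ := (ThS_mem_cent hQ hq h5).1 h3
    rw [← mul_assoc h, ← scS_comm a h, ← mul_assoc (scS _ c), scS_comm c (scS _ a), mul_assoc, mul_assoc,
      mul_assoc (scS _ a), mul_right_inj, ← mul_assoc, ← cS_iS, cS_iO] at h4
    have h6 := spinor_cO hQ (notExc_five h5) (iS _ h) u
    rcases scS_mul_iO_eq hQ h4 with e | e
    · rw [e, hD, sg_neg, left_eq_mul] at h6
      exact h6
    · exfalso
      have h7 : (iO Q u).1.1.charpoly = (-(iO Q u).1.1).charpoly := by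
        have := congrArg (fun x : GSim (ofQuad Q) => x.1.1) (congrArg (iO Q) e)
        simp only [← cS_iO, cS_iS, map_mul, iO_negOne, Subgroup.coe_mul, coe_scS, Units.val_mul, coe_scal,
          Units.val_neg, Units.val_one, neg_smul, one_smul, neg_mul, one_mul, Subgroup.coe_inv] at this
        rw [← this, coe_units_inv, charpoly_units_conj]
      have h8 := det_of_sq (c := 1) (gsim_sq (c := 1) (by rw [← map_mul, hu, map_one, map_one])) hd (.inr h7)
      rw [det_iO, ← dickson_eq_det hQ (notExc_five h5), hD, he.neg_one_pow] at h8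
      exact h2 (by simp at h8; linear_combination -h8)
  · have := relIndex_of_card_four hle (S.card_four (mt hz.1 hs)) (fun h0 => ?_) fun h0 => ?_
    · exact ⟨.inr this, fun _ => this⟩
    · obtain ⟨w, h3, h4, h6⟩ := exists_w_graph hQ h2 (by omega) hc
      exact mt hz.1 hs ((hw w h3 h4).symm.trans ((Subgroup.map_eq_bot_iff _).1 h0 ⟨(Dk_iO hQ h5 hd w).trans h3,
        (ThS_mem_cent hQ hq h5).2 ⟨1, by rw [map_one, one_mul, h6.eq, mul_inv_cancel_right]⟩⟩))
    · obtain ⟨h, h3, h4⟩ := S.exists_not_comm (mt hz.1 hs) hD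
      obtain ⟨h', ⟨-, h6⟩, e⟩ := h0 ⟨h, h3, rfl⟩
      obtain ⟨c, h7⟩ := (ThS_mem_cent hQ hq h5).1 h6
      refine h4 (e ▸ ?_)
      rw [Commute, SemiconjBy, ← mul_inv_eq_iff_eq_mul, ← map_mul, ← map_inv, ← map_mul, h7, map_mul, oPi_scS,
        one_mul]

section ss
variable (p : ℕ) [Fact p.Prime] [CharP F p] {r : ℕ} (hr : Odd r) (hp : r.Coprime p) {u : orth Q} (hu : u ^ r = 1)
include hr hp hu hQ hd h2

theorem ss_facts : Squarefree (X ^ r - 1 : F[X]) ∧ aeval (u.1 : End F (ι → F)) (X ^ r - 1 : F[X]) = 0 ∧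
    ((∀ g : GSim (ofQuad Q), Commute g (iO Q u) → Dk hQ m g = 1) ∧ IsUnit ((u.1 : End F (ι → F)) - 1) ∨
      2 ≤ finrank F (LinearMap.ker ((u.1 : End F (ι → F)) - algebraMap F _ 1))) := by
  have hf : Squarefree (X ^ r - 1 : F[X]) := (X_pow_sub_one_separable_iff.2 fun h =>
    (Fact.out : p.Prime).one_lt.ne' (hp.symm.eq_one_of_dvd ((CharP.cast_eq_zero_iff F p r).1 h))).squarefree
  have h0 : aeval (u.1 : End F (ι → F)) (X ^ r - 1 : F[X]) = 0 := by
    rw [map_sub, map_pow, aeval_X, orth_pow_end hu, map_one, sub_self]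
  refine ⟨hf, h0, ?_⟩
  by_cases h : LinearMap.ker ((u.1 : End F (ι → F)) - algebraMap F _ 1) = ⊥
  · have h1 : ∀ x, u.1 x = x → x = 0 := fun x hx => (Submodule.eq_bot_iff _).1 h x (by simp [hx])
    refine .inl ⟨fun g hg => Dk_of_skew hQ hd h2 (s := (iO Q u).1.1 - (iO Q u⁻¹).1.1) ?_ (fun x => ?_) ?_, ?_⟩
    · refine mulVec_injective_iff_isUnit.1 ((injective_iff_map_eq_zero (toLin' _)).2 fun x hx => ?_)
      rw [toLin'_apply, sub_mulVec, iO_mulVec, iO_mulVec, sub_eq_zero] at hx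
      exact (injective_iff_map_eq_zero _).1 (inj_sq_of_odd hr h0 h1) x (by simp [hx, orth_inv_apply])
    · rw [sub_mulVec, iO_mulVec, iO_mulVec, polar_sub_right, orth_polar_inv, polar_comm, sub_self]
    · rw [mul_sub, sub_mul, map_inv]
      exact congrArg₂ _ (congrArg (·.1.1) hg.eq) (congrArg (·.1.1) hg.inv_right.eq)
    · rw [map_one] at h
      exact (End.isUnit_iff _).2 ⟨LinearMap.ker_eq_bot.1 h,
        LinearMap.injective_iff_surjective.1 (LinearMap.ker_eq_bot.1 h)⟩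
  · have h1 := LinearMap.finrank_range_add_finrank_ker ((u.1 : End F (ι → F)) - algebraMap F _ 1)
    obtain ⟨k, hk⟩ := even_range hQ hr hf h0
    have := Submodule.finrank_eq_zero.not.2 h
    rw [finrank_fintype_fun_eq_card] at h1
    exact .inr (by omega)

include h5 in
theorem ss_exists : (∃ w, dickson Q w = 1 ∧ spinor Q w = -1 ∧ Commute w u) ∧
    ∃ t, Dk hQ m t = 1 ∧ kS hQ t = -1 ∧ Commute t (iO Q u) := by
  obtain ⟨hf, h0, H⟩ := ss_facts hQ hd h2 p hr hp hu
  obtain ⟨μ, hμ0, hμ⟩ := exists_nonsquare' h2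
  obtain ⟨t, h3, h4⟩ : ∃ t, kS hQ t = -1 ∧ Commute t (iO Q u) := by
    have nd := scaleC_nondeg hQ tGood_quad (k := μ) rfl hμ0
    obtain ⟨e, he, he'⟩ := quad_fsim nd hQ (quad_even_iso (m := m) nd hQ (by simpa using hd) (by simpa using hd)
      (hasTS_scaleC hμ0)) (u := u.1) ⟨fun x y => congrArg (μ * ·) (u.2.1 x y), fun x => congrArg (μ * ·) (u.2.2 x)⟩
      u.2 (Sim.refl _) hr hf h0
    have : IsSS (ofQuad Q) (inl (H11.glEquiv.symm e)) μ := isSS_quad.2 fun x => by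
      rw [actV_inl, H11.glEquiv_symm_mulVec]; exact he.2 x
    refine ⟨⟨_, μ, hμ0, this⟩, (kq_eq hQ this).trans (qsign_eq_neg_one.2 hμ), gsim_ext fun x => ?_⟩
    simp only [Subgroup.coe_mul, gl_mul_mulVec, iO_mulVec, H11.glEquiv_symm_mulVec]
    exact he' x
  rcases H with ⟨H, h1⟩ | H
  · obtain ⟨w, h6, h7, h8⟩ := exists_w_reg h2 hQ p hr hp hu h1
    exact ⟨⟨w, (Dk_iO hQ h5 hd w).symm.trans (H _ (h6.map _)), (em _).elim h7 h8, h6⟩, t, H t h4, h3, h4⟩
  refine ⟨exists_w_eig h2 hQ u hf h0 (one_mul 1) H, ?_⟩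
  rcases Int.units_eq_one_or (Dk hQ m t) with e | e
  · exact ⟨t, e, h3, h4⟩
  obtain ⟨v, hv, hv'⟩ := exists_nonsingular (eig_nd hQ u hf h0 (one_mul 1)) fun h => by
    rw [h, finrank_bot] at H; omega
  refine ⟨t * iO Q (refl Q v), ?_, ?_, h4.mul_left ((refl_comm_of_eig u one_ne_zero (sub_eq_zero.1 hv)).map _)⟩
  · rw [map_mul, e, Dk_iO hQ h5 hd, dickson_refl hQ (notExc_five h5) hv']; simp
  · rw [map_mul, h3]; exact (congrArg _ (kq_iO hQ _)).trans (mul_one _)

end ss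

omit [Nonempty ι] in
theorem conjUnder_iff_of {X : Type*} [Group X] {H K : Subgroup X} {x : X} (h1 : K ≤ H)
    (h2 : ∀ h ∈ H, ∃ c, Commute c x ∧ h * c⁻¹ ∈ K) (y : X) : IsConjUnder K x y ↔ IsConjUnder H x y := by
  refine ⟨fun ⟨k, hk, e⟩ => ⟨k, h1 hk, e⟩, fun ⟨h, hh, e⟩ => ?_⟩
  obtain ⟨c, hc, hk⟩ := h2 h hh
  exact ⟨_, hk, by rw [e, mul_assoc h c⁻¹, hc.inv_left.eq]; group⟩

include hd h2 in
theorem ss_classes (p : ℕ) [Fact p.Prime] [CharP F p] {x : MulAut (POmega F q)} (hx : x ∈ pgoAut F q) {r : ℕ}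
    (hr : r.Prime) (hro : Odd r) (hp : r ≠ p) (ho : orderOf x = r) :
    (∀ y, (IsConjUnder (Inn (POmega F q)) x y ↔ IsConjUnder ((Dk hQ m).ker.map (omData hq hQ h5).ThS) x y) ∧
      (IsConjUnder (psoAut F q) x y ↔ IsConjUnder ((Dk hQ m).ker.map (omData hq hQ h5).ThS) x y)) ∧
    ∀ y, IsConjUnder (poAut F q) x y ↔ IsConjUnder (pgoAut F q) x y := by
  rw [pgoAut_eq hq hQ h5] at hx ⊢
  obtain ⟨g, rfl⟩ := hx
  obtain ⟨u, hu, e⟩ : ∃ u : orth Q, u ^ r = 1 ∧ (omData hq hQ h5).ThS g = (omData hq hQ h5).ThS (iO Q u) := by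
    obtain ⟨c, hc⟩ := (omData hq hQ h5).ThS_eq_one.1 (show (omData hq hQ h5).ThS (g ^ r) = 1 by
      rw [map_pow, ← ho, pow_orderOf_eq_one])
    have h3 := congrArg (kS hQ) hc
    rw [map_pow, Int.units_pow_eq_pow_mod_two, Nat.odd_iff.1 hro, pow_one] at h3
    obtain ⟨a, u, rfl⟩ := exists_iO_of_kq hQ (h3.trans (kq_scS hQ c))
    rw [map_mul, FormData.ThS_scS, one_mul]
    rw [(show Commute _ _ from scS_comm a _).mul_pow, ← map_pow, ← map_pow, ← eq_inv_mul_iff_mul_eq, ← map_inv,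
      ← map_mul, ← mul_one (scS _ _), ← map_one (iO Q)] at hc
    rcases scS_mul_iO_eq hQ hc with h | h
    · exact ⟨u, h, rfl⟩
    · have hn : H11.negOne Q * H11.negOne Q = 1 := orth_ext fun x => by simp [orth_mul_apply]
      refine ⟨H11.negOne Q * u, ?_, by rw [map_mul, iO_negOne, map_mul, FormData.ThS_scS, one_mul]⟩
      obtain ⟨k, rfl⟩ := hro
      rw [(show Commute (H11.negOne Q) u from orth_ext fun x => by simp [orth_mul_apply]).mul_pow, h, pow_succ,
        pow_mul, pow_two, hn, one_pow, one_mul, mul_one, hn]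
  rw [e]
  obtain ⟨⟨w, w1, w2, w3⟩, t, t1, t2, t3⟩ :=
    ss_exists hQ hd h2 h5 p hro ((Nat.coprime_primes hr Fact.out).2 hp) hu
  obtain ⟨a, t₀, S, -, hw⟩ := exists_outStr hq hQ h5 hd h2
  have key : ∀ h ∈ (Dk hQ m).ker.map (omData hq hQ h5).ThS, ∃ c, Commute c ((omData hq hQ h5).ThS (iO Q u)) ∧
      h * c⁻¹ ∈ Inn (POmega F q) := by
    rintro _ ⟨h, hh, rfl⟩
    obtain ⟨c, h3, h4, h6⟩ : ∃ c, Dk hQ m h = Dk hQ m c ∧ kS hQ h = kS hQ c ∧ Commute c (iO Q u) := by
      rcases Int.units_eq_one_or (kS hQ h) with e | e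
      · exact ⟨1, hh.trans (map_one _).symm, e.trans (map_one _).symm, .one_left _⟩
      · exact ⟨t, hh.trans t1.symm, e.trans t2.symm, t3⟩
    obtain ⟨c, h6, e⟩ : ∃ c, Commute c (iO Q u) ∧ oPi hq hQ h5 h = oPi hq hQ h5 c := by
      rcases S.cases_of h3 h4 with e | e
      · exact ⟨c, h6, e⟩
      · exact ⟨c * iO Q w, h6.mul_left (w3.map _), by rw [e, map_mul, hw w w1 w2]⟩
    refine ⟨_, h6.map (omData hq hQ h5).ThS, ?_⟩
    rw [← map_inv, ← map_mul, ← oPi_eq_one, map_mul, map_inv, e, mul_inv_cancel]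
  have i1 : Inn (POmega F q) ≤ psoAut F q := fun y hy => by
    obtain ⟨h, rfl⟩ := (omData hq hQ h5).inn_le hy
    have := oPi_ker hq hQ h5 hd ((oPi_eq_one hq hQ h5).2 hy)
    exact (ThS_mem_pso hq hQ h5 hd h2 h).1 (Prod.ext this.1 this.2)
  have i2 : psoAut F q ≤ (Dk hQ m).ker.map (omData hq hQ h5).ThS := by
    rw [psoAut_eq hq hQ h5 h2]
    refine Subgroup.map_mono ?_
    rintro _ ⟨v, hv, rfl⟩
    exact (Dk_iO hQ h5 hd v).trans hv
  refine ⟨fun y => ⟨conjUnder_iff_of (i1.trans i2) key y, conjUnder_iff_of i2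
    (fun h hh => (key h hh).imp fun c hc => ⟨hc.1, i1 hc.2⟩) y⟩, conjUnder_iff_of ?_ ?_⟩
  · rw [poAut_eq hq hQ h5]; exact Subgroup.map_le_range _ _
  · rintro _ ⟨h, rfl⟩
    obtain ⟨c, h4, h6⟩ : ∃ c, kS hQ h = kS hQ c ∧ Commute c (iO Q u) := by
      rcases Int.units_eq_one_or (kS hQ h) with e | e
      · exact ⟨1, e.trans (map_one _).symm, .one_left _⟩
      · exact ⟨t, e.trans t2.symm, t3⟩
    obtain ⟨b, v, hv⟩ := exists_iO_of_kq hQ (g := h * c⁻¹) (show kS hQ _ = 1 by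
      rw [map_mul, map_inv, h4, mul_inv_cancel])
    refine ⟨_, h6.map (omData hq hQ h5).ThS, ?_⟩
    rw [← map_inv, ← map_mul, hv, map_mul, FormData.ThS_scS, one_mul, poAut_eq hq hQ h5]
    exact ⟨_, ⟨v, rfl⟩, rfl⟩

end H22
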