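import Mathlib

/-! The Jacobi–Trudi identity and orthonormality of determinantal sums. -/

set_option autoImplicit false

namespace H22.GC

open Finset PowerSeries

variable {n : ℕ}

/-- exponent vectors -/
noncomputable abbrev toF (β : Fin n → ℕ) : Fin n →₀ ℕ := Finsupp.equivFunOnFinite.symm β

/-- the number of matrices with given row and column sums -/
noncomputable def NN (α β : Fin n → ℕ) : ℕ :=
  #{M ∈ Fintype.piFinset fun s => finsuppAntidiag univ (α s) | ∑ s, M s = toF β}

/-- complete homogeneous symmetric polynomials -/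
noncomputable def hh (n m : ℕ) : MvPolynomial (Fin n) ℤ :=
  coeff m (∏ t, PowerSeries.mk fun k => MvPolynomial.X t ^ k)

theorem prod_X_pow (β : Fin n → ℕ) : (∏ t, MvPolynomial.X t ^ β t : MvPolynomial (Fin n) ℤ) =
    MvPolynomial.monomial (toF β) 1 := by
  simp [MvPolynomial.monomial_eq, Finsupp.prod_fintype]

theorem coeff_prod_hh (α β : Fin n → ℕ) :
    MvPolynomial.coeff (toF β) (∏ s, hh n (α s)) = NN α β := by
  simp only [hh, coeff_prod, coeff_mk, prod_X_pow, Finsupp.equivFunOnFinite_symm_coe]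
  rw [prod_univ_sum]
  simp only [← MvPolynomial.monomial_sum_one, MvPolynomial.coeff_sum, MvPolynomial.coeff_monomial]
  simp [NN]

theorem coeff_prod_lin {R ι : Type*} [CommRing R] (y : ι → R) (S : Finset ι) :
    ∀ j, #S < j → coeff j (∏ l ∈ S, (1 - C (y l) * X : R⟦X⟧)) = 0 := by
  classical
  induction S using Finset.induction_on with
  | empty => intro j h; simp [coeff_one]; omega
  | insert a S ha ih =>
    intro j h
    rw [card_insert_of_notMem ha] at h
    obtain ⟨j, rfl⟩ : ∃ k, j = k + 1 := ⟨j - 1, by omega⟩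
    rw [prod_insert ha, sub_mul, one_mul, mul_assoc, map_sub, coeff_C_mul, coeff_succ_X_mul,
      ih _ (by omega), ih _ (by omega), mul_zero, sub_zero]

theorem X_pow_eq (t : Fin n) (m : ℕ) : MvPolynomial.X t ^ m =
    ∑ j : Fin n, coeff j (∏ l ∈ univ.erase t, (1 - C (MvPolynomial.X l) * X)) *
      if j ≤ m then hh n (m - j) else 0 := by
  have h1 : ∀ y : MvPolynomial (Fin n) ℤ, (1 - C y * X) * (PowerSeries.mk fun k => y ^ k) = 1 :=
    fun y => by
      ext1 k
      rcases k with _ | k <;> simp [sub_mul, mul_assoc, coeff_succ_X_mul, pow_succ', coeff_one]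
  have h2 := congrArg (coeff m) (show (PowerSeries.mk fun k => MvPolynomial.X t ^ k) =
      (∏ l ∈ univ.erase t, (1 - C (MvPolynomial.X l) * X)) *
      ∏ l, PowerSeries.mk fun k => (MvPolynomial.X l : MvPolynomial (Fin n) ℤ) ^ k by
    rw [← prod_erase_mul _ _ (mem_univ t), ← mul_assoc, ← prod_mul_distrib]; simp [h1])
  rw [coeff_mk, coeff_mul, Nat.sum_antidiagonal_eq_sum_range_succ_mk] at h2
  rw [h2, Fin.sum_univ_eq_sum_range (fun j => coeff j (∏ l ∈ univ.erase t,
    (1 - C (MvPolynomial.X l) * X)) * if j ≤ m then hh n (m - j) else 0)]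
  simp only [mul_ite, mul_zero, ← sum_filter]
  refine (sum_subset (fun j hj => ?_) fun j h3 h4 => ?_).symm
  · simp at hj ⊢; omega
  · rw [coeff_prod_lin, zero_mul]
    have := t.2
    simp at h3 h4 ⊢; omega

theorem det_X_pow (l : Fin n → ℕ) :
    (Matrix.of fun s t => MvPolynomial.X t ^ l s).det =
      (Matrix.of fun s t : Fin n => MvPolynomial.X t ^ s.1).det *
      (Matrix.of fun j s : Fin n => if j ≤ l s then hh n (l s - j) else 0).det := by
  have key : ∀ l : Fin n → ℕ, (Matrix.of fun s t => MvPolynomial.X t ^ l s).det =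
      (Matrix.of fun t j : Fin n => coeff j (∏ l ∈ univ.erase t,
        (1 - C (MvPolynomial.X l) * X))).det *
      (Matrix.of fun j s : Fin n => if j ≤ l s then hh n (l s - j) else 0).det := fun l => by
    rw [← Matrix.det_mul, ← Matrix.det_transpose]
    congr 1
    ext1 t s
    exact X_pow_eq t (l s)
  rw [key, key, Matrix.det_of_isUpperTriangular (M := Matrix.of fun j s : Fin n =>
    if j ≤ s.1 then hh n (s - j) else 0) fun i j h => if_neg (not_le.2 h)]
  simp [hh]

theorem JT {l l' : Fin n → ℕ} (h : StrictMono l) (h' : StrictMono l') :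
    ∑ κ : Equiv.Perm (Fin n), ∑ κ' : Equiv.Perm (Fin n),
      (if (∀ i, (κ i).1 ≤ l i) ∧ ∀ i, (κ' i).1 ≤ l' i then (κ.sign * κ'.sign *
        NN (fun i => l i - κ i) (fun i => l' i - κ' i) : ℤ) else 0) = if l = l' then 1 else 0 := by
  have h1 := congrArg (MvPolynomial.coeff (toF l')) (det_X_pow l)
  simp only [Matrix.det_apply', Matrix.of_apply, prod_X_pow, sum_mul_sum, MvPolynomial.coeff_sum]
    at h1
  rw [sum_comm]
  convert h1.symm using 1
  · refine sum_congr rfl fun κ' _ => sum_congr rfl fun κ _ => ?_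
    rw [mul_mul_mul_comm, ← Int.cast_mul, ← eq_intCast MvPolynomial.C, MvPolynomial.coeff_C_mul,
      MvPolynomial.coeff_monomial_mul', prod_ite_zero, one_mul, mul_comm κ.sign.1]
    by_cases h2 : ∀ i, (κ' i).1 ≤ l' i
    · rw [if_pos (show toF (fun i => (κ' i).1) ≤ toF l' from h2)]
      by_cases h3 : ∀ i, (κ i).1 ≤ l i
      · rw [if_pos ⟨h3, h2⟩, if_pos fun i _ => h3 i, ← coeff_prod_hh]
        congr 2; ext; simp
      · simp [h3]
    · rw [if_neg (show ¬ toF (fun i => (κ' i).1) ≤ toF l' from h2), if_neg fun h => h2 h.2, mul_zero]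
  · rw [sum_eq_single 1]
    · simp [MvPolynomial.coeff_monomial]
    · intro τ _ hτ
      rw [← eq_intCast MvPolynomial.C, MvPolynomial.coeff_C_mul, MvPolynomial.coeff_monomial, if_neg,
        mul_zero]
      intro e
      have e1 : l ∘ τ = l' := Finsupp.equivFunOnFinite.symm.injective e
      obtain rfl : l = l' := (h.range_inj h').1 (by rw [← e1, τ.surjective.range_comp])
      exact hτ (Equiv.ext fun i => h.injective (congrFun e1 i))
    · simp

end H22.GC
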