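import Cfsg.Agent.H22.GC1
import Cfsg.Agent.H22.GC2
import Cfsg.Agent.H5.Virtual
import Cfsg.Agent.H6.Char

/-! Unipotent characters of general linear groups. -/

set_option autoImplicit false

namespace H22.GC

open Matrix Cfsg MulAction Finset H5

variable {n : ℕ} {F : Type*} [Field F]

theorem exists_label {μ : Fin n → ℕ} (h : ∑ i, μ i = n) : ∃ (a : Fin n → Fin n) (S : Fin n → ℕ),
    Monotone a ∧ (∀ i, compLabel μ i = a i) ∧ (∀ s, S s + μ s ≤ n) ∧
      (∀ i s, a i ≤ s ↔ i < S s + μ s) ∧ ∀ i s, a i = s ↔ S s ≤ i ∧ i < S s + μ s := by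
  have hm : Monotone fun j : Fin n => ∑ k with k ≤ j, μ k := fun i j hij =>
    sum_le_sum_of_subset fun k => by simpa using fun h => h.trans hij
  have h1 : ∀ i s : Fin n, s < compLabel μ i ↔ ∑ k with k ≤ s, μ k ≤ i := fun i s =>
    Tuple.lt_card_le_iff_apply_le_of_monotone hm
  have h2 : ∀ i, compLabel μ i < n := fun i => by
    have hi := i.2
    have := (h1 i ⟨n - 1, by omega⟩).not.2 (by
      rw [filter_true_of_mem fun k _ => Fin.le_def.2 (by have := k.2; simp; omega), h]; omega)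
    simp at this; omega
  have h3 : ∀ s : Fin n, ∑ k with k < s, μ k + μ s = ∑ k with k ≤ s, μ k := fun s => by
    rw [add_comm, ← sum_insert (by simp)]
    congr 1; ext k; simp [le_iff_eq_or_lt]
  have h4 : ∀ i s : Fin n, compLabel μ i ≤ s ↔ i < ∑ k with k < s, μ k + μ s := fun i s => by
    rw [h3, ← not_lt, h1, not_le]
  refine ⟨fun i => ⟨_, h2 i⟩, fun s => ∑ k with k < s, μ k, fun i j hij =>
    Fin.mk_le_mk.2 (card_le_card fun k => by simpa using fun h => h.trans hij), fun _ => rfl, fun s => ?_, h4, fun i s => ?_⟩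
  · rw [h3]; exact (sum_le_sum_of_subset (filter_subset _ _)).trans h.le
  · rw [← h4, le_antisymm_iff, and_comm]
    refine and_congr_left fun _ => ?_
    obtain ⟨_ | s, hs⟩ := s
    · simp [Fin.lt_def, Fin.le_def]
    · exact (h1 i ⟨s, by omega⟩).trans (by simp only [Fin.lt_def, Fin.le_def, Nat.lt_succ_iff])

theorem PP_eq {μ : Fin n → ℕ} {a : Fin n → Fin n} (h : ∀ i, compLabel μ i = a i) :
    parabolicGL n F μ = PP F a :=
  Subgroup.ext fun g => forall₂_congr fun i j => by rw [h, h]; rfl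

theorem card_fib {μ S : Fin n → ℕ} {a : Fin n → Fin n} (h1 : ∀ s, S s + μ s ≤ n)
    (h : ∀ i s, a i = s ↔ S s ≤ i ∧ i < S s + μ s) (s : Fin n) : #{i | a i = s} = μ s := by
  rw [← card_map Fin.valEmbedding, ← Nat.add_sub_cancel_left (S s) (μ s), ← Nat.card_Ico]
  congr 1
  ext i
  have := h1 s
  simp only [h, mem_map, mem_filter, mem_univ, true_and, Fin.valEmbedding_apply, mem_Ico]
  exact ⟨fun ⟨j, h, e⟩ => e ▸ h, fun h => ⟨⟨i, by omega⟩, h, rfl⟩⟩

theorem inner_par [Fintype F] [DecidableEq F] {α β : Fin n → ℕ} (hα : ∑ i, α i = n)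
    (hβ : ∑ i, β i = n) : classInner (fixedPointCharacter (parabolicGL n F α))
      (fixedPointCharacter (parabolicGL n F β)) = NN α β := by
  obtain ⟨a, S, h1, h2, h3, -, h4⟩ := exists_label hα
  obtain ⟨b, S', h5, h6, h7, -, h8⟩ := exists_label hβ
  rw [PP_eq h2, PP_eq h6]
  refine .trans (by simp [classInner, fixedPointCharacter]) ((inner_GL (F := F) h1 h5).trans ?_)
  rw [NN, ← Nat.card_eq_finsetCard]
  congr 1
  refine Nat.card_congr (Equiv.subtypeEquivRight fun M => ?_)
  rw [mem_range_MM]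
  simp [card_fib h3 h4, card_fib h7 h8, mem_finsuppAntidiag, Finsupp.ext_iff]

theorem sum_sub {ν : Fin n → ℕ} (h : ∑ i, ν i = n) {κ : Equiv.Perm (Fin n)}
    (hκ : ∀ i, (κ i).1 ≤ ν i + i) : ∑ i, (ν i + i - κ i) = n := by
  have := sum_tsub_distrib univ fun i _ => hκ i
  rw [this, sum_add_distrib, h, Equiv.sum_comp κ fun i => i.1, Nat.add_sub_cancel]

theorem unip_eq (ν : Fin n → ℕ) : unipotentCharacterGL n F ν = ∑ κ : Equiv.Perm (Fin n),
    (if ∀ i, (κ i).1 ≤ ν i + i then (κ.sign : ℤ) else 0) •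
      fixedPointCharacter (parabolicGL n F fun i => ν i + i - κ i) := by
  ext g; simp [unipotentCharacterGL, ite_apply]

theorem sm {ν : Fin n → ℕ} (h : Monotone ν) : StrictMono fun i => ν i + i.1 :=
  fun _ _ hij => Nat.add_lt_add_of_le_of_lt (h hij.le) hij

theorem inner_unip [Fintype F] [DecidableEq F] {ν ν' : Fin n → ℕ} (h1 : Monotone ν)
    (h2 : ∑ i, ν i = n) (h3 : Monotone ν') (h4 : ∑ i, ν' i = n) :
    classInner (unipotentCharacterGL n F ν) (unipotentCharacterGL n F ν') =
      if ν = ν' then 1 else 0 := by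
  have := congrArg (Int.cast : ℤ → ℂ) (JT (sm h1) (sm h3))
  rw [unip_eq, unip_eq, H5.classInner_sum_left]
  simp only [H5.classInner_sum_right, H5.classInner_zsmul_left, H5.classInner_zsmul_right]
  push_cast at this
  refine .trans (sum_congr rfl fun κ _ => sum_congr rfl fun κ' _ => ?_) (this.trans ?_)
  · by_cases h5 : ∀ i, (κ i).1 ≤ ν i + i
    · by_cases h6 : ∀ i, (κ' i).1 ≤ ν' i + i
      · rw [inner_par (sum_sub h2 h5) (sum_sub h4 h6), if_pos h5, if_pos h6, if_pos ⟨h5, h6⟩]
        ring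
      · simp [h6]
    · simp [h5]
  · simp [funext_iff]

theorem card_li {V : Type*} [AddCommGroup V] [Module F V] [Finite V] [Finite F] {k : ℕ}
    (W : Fin k → Submodule F V) (h : Monotone W) :
      Nat.card {v : Fin k → V // LinearIndependent F v ∧ ∀ j, v j ∈ W j} =
        ∏ j, (Nat.card (W j) - Nat.card F ^ j.1) := by
  induction k with
  | zero => simp
  | succ k ih =>
    have := Fintype.ofFinite {v : Fin k → V // LinearIndependent F v ∧ ∀ j, v j ∈ W j.castSucc}
    have e : ∀ v : Fin (k + 1) → V, LinearIndependent F v → LinearIndependent F (Fin.init v) ∧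
        v (Fin.last k) ∉ Submodule.span F (Set.range (Fin.init v)) := fun v h =>
      linearIndependent_finSnoc.1 (by rwa [Fin.snoc_init_self])
    let E : {v : Fin (k + 1) → V // LinearIndependent F v ∧ ∀ j, v j ∈ W j} ≃
        Σ v : {v : Fin k → V // LinearIndependent F v ∧ ∀ j, v j ∈ W j.castSucc},
          ↥((W (Fin.last k) : Set V) \ Submodule.span F (Set.range v.1)) :=
      { toFun := fun v => ⟨⟨Fin.init v.1, (e _ v.2.1).1, fun _ => v.2.2 _⟩,
          v.1 _, v.2.2 _, (e _ v.2.1).2⟩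
        invFun := fun x => ⟨Fin.snoc x.1.1 x.2.1, linearIndependent_finSnoc.2 ⟨x.1.2.1, x.2.2.2⟩,
          fun j => by
            induction j using Fin.lastCases
            · rw [Fin.snoc_last]; exact x.2.2.1
            · rw [Fin.snoc_castSucc]; exact x.1.2.2 _⟩
        left_inv := fun v => Subtype.ext (Fin.snoc_init_self _)
        right_inv := fun x => Sigma.subtype_ext (Subtype.ext (Fin.init_snoc (α := fun _ => V) _ _))
          (Fin.snoc_last (α := fun _ => V) _ _) }
    rw [Fin.prod_univ_castSucc, Nat.card_congr E, Nat.card_sigma,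
      sum_congr rfl fun v _ => show _ = Nat.card (W (Fin.last k)) - Nat.card F ^ k from ?_]
    · simp only [sum_const, card_univ, ← Nat.card_eq_fintype_card, smul_eq_mul]
      rw [ih (fun j => W j.castSucc) fun i j hij => h (by simpa)]
      rfl
    · rw [Nat.card_coe_set_eq, Set.ncard_sdiff (SetLike.coe_subset_coe.2 (Submodule.span_le.2
        (Set.range_subset_iff.2 fun j => h (Fin.le_last _) (v.2.2 j))))]
      congr 1
      rw [← Nat.card_coe_set_eq, SetLike.coe_sort_coe, Module.natCard_eq_pow_finrank (K := F),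
        finrank_span_eq_card v.2.1, Fintype.card_fin]

theorem card_PP [Fintype F] {a : Fin n → Fin n} (ha : Monotone a) :
    Nat.card (PP F a) = ∏ j, (Nat.card F ^ #{i | a i ≤ a j} - Nat.card F ^ j.1) := by
  simp only [← card_supp]
  refine .trans (Nat.card_congr ?_) (card_li (F := F) (V := Fin n → F) (fun j =>
    { carrier := {x | ∀ i, ¬ a i ≤ a j → x i = 0}
      add_mem' := fun h1 h2 i h => by simp [h1 i h, h2 i h]
      zero_mem' := fun _ _ => rfl
      smul_mem' := fun c x h1 i h => by simp [h1 i h] })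
    fun i j hij x hx k h => hx k fun h' => h (h'.trans (ha hij)))
  refine (Equiv.subtypeEquiv (equiv_GL_linearindependent n) fun g => ?_).trans
    (Equiv.subtypeSubtypeEquivSubtypeInter _ _)
  exact show _ ↔ ∀ j i, ¬ a i ≤ a j → g.1 i j = 0 from
    ⟨fun h j i h' => h (not_le.1 h'), fun h i j h' => h j i (not_le.2 h')⟩

theorem geom {q : ℕ} (h : 1 < q) (m : ℕ) : (q - 1) * ∑ l ∈ range m, q ^ l = q ^ m - 1 := by
  obtain ⟨r, rfl⟩ : ∃ r, q = r + 1 := ⟨q - 1, by omega⟩
  rw [← geom_sum_mul_add, Nat.add_sub_cancel, Nat.add_sub_cancel, mul_comm]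

/-- `q`-factorials -/
abbrev QF (q r : ℕ) : ℕ := ∏ j ∈ range r, ∑ l ∈ range (j + 1), q ^ l

theorem card_par [Fintype F] {μ : Fin n → ℕ} (h : ∑ i, μ i = n) : Nat.card (parabolicGL n F μ) =
    (∏ j : Fin n, Nat.card F ^ j.1 * (Nat.card F - 1)) * ∏ i, QF (Nat.card F) (μ i) := by
  obtain ⟨a, S, h1, h2, h3, h4, h5⟩ := exists_label h
  have h6 : ∀ s, #{i | a i ≤ s} = S s + μ s := fun s => by
    simp only [h4, Fin.card_filter_val_lt, min_eq_right (h3 s)]
  rw [PP_eq h2, card_PP h1, ← prod_fiberwise univ a,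
    ← prod_fiberwise univ a fun j => _ * (Nat.card F - 1), ← prod_mul_distrib]
  refine prod_congr rfl fun s _ => ?_
  rw [QF, ← prod_nbij (s := {i | a i = s}) (fun i => S s + μ s - 1 - i) (fun i => by
    simp [h5]; omega) (fun i hi j hj => by simp [h5] at hi hj ⊢; omega) (fun k hk => by
      have := h3 s
      simp [h5] at hk ⊢
      exact ⟨⟨S s + μ s - 1 - k, by omega⟩, by simp; omega⟩) fun _ _ => rfl, ← prod_mul_distrib]
  refine prod_congr rfl fun i hi => ?_
  obtain rfl : a i = s := by simpa using hi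
  have := (h5 i _).1 rfl
  rw [h6, mul_assoc, geom Finite.one_lt_card, Nat.mul_sub_one, ← pow_add]
  congr 2; omega

theorem index_par [Fintype F] {μ : Fin n → ℕ} (h : ∑ i, μ i = n) :
    Nat.card (GL (Fin n) F ⧸ parabolicGL n F μ) * ∏ i, QF (Nat.card F) (μ i) =
      QF (Nat.card F) n := by
  have h1 := Subgroup.card_eq_card_quotient_mul_card_subgroup (parabolicGL n F μ)
  have hq := Finite.one_lt_card (α := F)
  rw [card_par h, card_GL_field, ← Nat.card_eq_fintype_card, mul_left_comm] at h1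
  refine Nat.eq_of_mul_eq_mul_left (prod_pos fun j _ => Nat.mul_pos (by positivity) (by omega))
    (h1.symm.trans ?_)
  rw [QF, ← prod_range_reflect, ← Fin.prod_univ_eq_prod_range
    fun j => ∑ l ∈ range (n - 1 - j + 1), Nat.card F ^ l, ← prod_mul_distrib]
  refine prod_congr rfl fun i _ => ?_
  rw [mul_assoc, geom hq, Nat.mul_sub_one, ← pow_add]
  congr 2; omega

theorem eval_QF (q l : ℕ) : ∀ k ≤ l, (∏ t ∈ range k, (((∑ i ∈ range l, q ^ i : ℕ) : ℂ) -
    (∑ i ∈ range t, q ^ i : ℕ))) * QF q (l - k) = q ^ (∑ t ∈ range k, t) * QF q l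
  | 0, _ => by simp
  | k + 1, h => by
    obtain ⟨m, rfl⟩ := Nat.exists_eq_add_of_le h
    have := eval_QF q _ k (by omega : k ≤ k + 1 + m)
    rw [show k + 1 + m - k = m + 1 by omega, QF, prod_range_succ] at this
    rw [prod_range_succ, sum_range_succ, pow_add, mul_right_comm ((q : ℂ) ^ _), ← this,
      Nat.add_sub_cancel_left, add_assoc, sum_range_add, add_comm 1 m]
    simp only [pow_add, ← mul_sum]
    push_cast; ring

theorem sum_sum (n : ℕ) : ∑ k ∈ range n, ∑ t ∈ range k, t = n * (n - 1) * (n - 2) / 6 := by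
  refine (Nat.div_eq_of_eq_mul_left (by norm_num) ?_).symm
  induction n with
  | zero => rfl
  | succ n ih =>
    have := sum_range_id_mul_two n
    rw [sum_range_succ, add_mul _ _ 6, ← ih]
    rcases n with _ | _ | n <;> simp at this ⊢
    nlinarith

theorem degree [Fintype F] {ν : Fin n → ℕ} (h : ∑ i, ν i = n) :
    unipotentCharacterGL n F ν 1 * (Nat.card F : ℂ) ^ (n * (n - 1) * (n - 2) / 6) *
      ∏ i : Fin n, (QF (Nat.card F) (ν i + i) : ℂ) = QF (Nat.card F) n * ∏ i : Fin n, ∏ j ∈ Ioi i,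
        (((∑ l ∈ range (ν j + j), Nat.card F ^ l : ℕ) : ℂ) -
          (∑ l ∈ range (ν i + i), Nat.card F ^ l : ℕ)) := by
  open Polynomial in
  rw [← det_vandermonde, det_eval_matrixOfPolynomials_eq_det_vandermonde _
    (fun j => ∏ t ∈ range j, (X - C ((∑ l ∈ range t, Nat.card F ^ l : ℕ) : ℂ)))
    (fun j => by rw [natDegree_finsetProd_X_sub_C_eq_card, card_range])
    (fun j => monic_prod_X_sub_C _ _), ← det_transpose, det_apply', unipotentCharacterGL,
    sum_mul, sum_mul, mul_sum]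
  refine sum_congr rfl fun κ _ => ?_
  simp only [transpose_apply, of_apply, eval_prod, eval_sub, eval_X, eval_C]
  split_ifs with h1
  · rw [← index_par (F := F) (sum_sub h h1), ← sum_sum, ← Fin.sum_univ_eq_sum_range
      fun k => ∑ t ∈ range k, t, ← Equiv.sum_comp κ, ← prod_pow_eq_pow_sum, mul_assoc,
      ← prod_mul_distrib, ← prod_congr rfl fun i _ => eval_QF _ _ _ (h1 i), prod_mul_distrib]
    simp only [fixedPointCharacter, fixedBy_one_eq_univ, Nat.card_univ]
    push_cast; ring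
  · obtain ⟨i, hi⟩ := not_forall.1 h1
    rw [zero_mul, zero_mul,
      prod_eq_zero (mem_univ i) (prod_eq_zero (mem_range.2 (not_le.1 hi)) (sub_self _))]
    simp

open ComplexOrder in
theorem irr_unip [Fintype F] {ν : Fin n → ℕ} (h1 : Monotone ν) (h2 : ∑ i, ν i = n) :
    IsIrrCharacter (GL (Fin n) F) (unipotentCharacterGL n F ν) := by
  classical
  refine H6.irr_of_gen_norm_one ?_ (by rw [inner_unip h1 h2 h1 h2, if_pos rfl]) ?_
  · rw [unip_eq]
    exact H5.isGeneralizedCharacter_sum _ _ fun _ _ =>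
      (H5.isCharacter_perm (_ ⧸ parabolicGL n F _)).isGeneralizedCharacter.zsmul _
  · have hq := Finite.one_lt_card (α := F)
    have := degree (F := F) h2
    rw [mul_assoc, ← eq_div_iff (mul_ne_zero (pow_ne_zero _ (Nat.cast_ne_zero.2 (by omega)))
      (prod_ne_zero_iff.2 fun i _ => Nat.cast_ne_zero.2
        (prod_pos fun j _ => sum_pos (fun _ _ => by positivity) (by simp)).ne'))] at this
    rw [this]
    refine div_nonneg (mul_nonneg (Nat.cast_nonneg _)
      (prod_nonneg fun i _ => prod_nonneg fun j hj => sub_nonneg.2 (Nat.cast_le.2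
        (sum_le_sum_of_subset (range_subset_range.2 ((sm h1).monotone (mem_Ioi.1 hj).le))))))
      (mul_nonneg (pow_nonneg (Nat.cast_nonneg _) _) (prod_nonneg fun i _ => Nat.cast_nonneg _))

end H22.GC
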