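import Mathlib

/-! The generic Hecke algebra: the dimension of the centre does not depend on the positive parameter. -/

set_option autoImplicit false

namespace H22.HK

open Matrix Finset Module Polynomial

theorem rank_spec {m n K : Type*} [Fintype m] [Fintype n] [Field K] (A : Matrix m n ℂ[X]) (t : ℂ) {g : ℂ[X] →+* K}
    (hg : Function.Injective g) : (A.map (evalRingHom t)).rank ≤ (A.map g).rank := by
  classical
  let f := (A.map (evalRingHom t)).mulVecLin
  let b := (finBasis ℂ (LinearMap.range f)).equivFun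
  obtain ⟨j, hj⟩ := ((LinearMap.range f).subtype ∘ₗ b.symm.toLinearMap).exists_leftInverse_of_injective
    (LinearMap.ker_eq_bot.2 (Subtype.val_injective.comp b.symm.injective))
  obtain ⟨s, hs⟩ := (b.toLinearMap ∘ₗ f.rangeRestrict).exists_rightInverse_of_surjective (by
    simp [LinearMap.range_comp])
  have e : LinearMap.toMatrix' j * A.map (evalRingHom t) * LinearMap.toMatrix' s = 1 := toLin'.injective (by
    rw [toLin'_mul, toLin'_mul, toLin'_toMatrix', toLin'_toMatrix', toLin'_one]
    refine LinearMap.ext fun x => ?_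
    have h1 := LinearMap.congr_fun hj (b (f.rangeRestrict (s x)))
    have h2 := LinearMap.congr_fun hs x
    simp only [LinearMap.comp_apply, LinearEquiv.coe_coe, b.symm_apply_apply, LinearMap.id_apply] at h1 h2 ⊢
    exact h1.trans h2)
  let M := (LinearMap.toMatrix' j).map C * A * (LinearMap.toMatrix' s).map C
  have h1 : M.det ≠ 0 := fun h => by
    have := (evalRingHom t).map_det M
    rw [h, map_zero, RingHom.mapMatrix_apply, Matrix.map_mul, Matrix.map_mul, Matrix.map_map, Matrix.map_map] at this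
    simp [Function.comp_def] at this e
    simp [e] at this
  have h2 := rank_of_det_ne_zero (A := M.map g) fun h => h1 (hg (by rw [g.map_det, map_zero]; exact h))
  rw [Fintype.card_fin, Matrix.map_mul, Matrix.map_mul] at h2
  exact h2.ge.trans ((rank_mul_le_left _ _).trans (rank_mul_le_right _ _))

/-- the properties of a Coxeter system used for the Hecke algebra -/
structure Cx (W κ : Type*) [Group W] where
  s : κ → W
  l : W → ℕ
  sq : ∀ i, s i * s i = 1
  step : ∀ i w, l (s i * w) = l w + 1 ∨ l (s i * w) + 1 = l w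
  inv : ∀ w, l w⁻¹ = l w
  one : l 1 = 0
  down : ∀ w, w ≠ 1 → ∃ i, l (s i * w) < l w
  two : ∀ i j w, s i * w = w * s j ∨ ((l (s i * (w * s j)) < l (w * s j) ↔ l (s i * w) < l w) ∧
    (l (s i * w * s j) < l (s i * w) ↔ l (w * s j) < l w))

namespace Cx

variable {W κ : Type*} [Group W] (c : Cx W κ)

theorem s_inv (i : κ) : (c.s i)⁻¹ = c.s i := inv_eq_of_mul_eq_one_right (c.sq i)

theorem ss (i : κ) (w : W) : c.s i * (c.s i * w) = w := by rw [← mul_assoc, c.sq, one_mul]

theorem ss' (i : κ) (w : W) : w * c.s i * c.s i = w := by rw [mul_assoc, c.sq, mul_one]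

theorem l_mul (i : κ) (w : W) : c.l (w * c.s i) = c.l (c.s i * w⁻¹) := by rw [← c.inv, _root_.mul_inv_rev, c.s_inv]

theorem step' (i : κ) (w : W) : c.l (w * c.s i) = c.l w + 1 ∨ c.l (w * c.s i) + 1 = c.l w := by
  rw [c.l_mul, ← c.inv w]; exact c.step i _

theorem ind {P : W → Prop} (h1 : P 1) (h2 : ∀ i w, c.l w < c.l (c.s i * w) → P w → P (c.s i * w)) (w : W) : P w := by
  induction h : c.l w using Nat.strong_induction_on generalizing w with | _ n ih
  rcases eq_or_ne w 1 with rfl | hw
  · exact h1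
  obtain ⟨i, hi⟩ := c.down w hw
  exact c.ss i w ▸ h2 i _ (by rwa [c.ss]) (ih _ (h ▸ hi) _ rfl)

theorem ind' {P : W → Prop} (h1 : P 1) (h2 : ∀ i w, c.l w < c.l (w * c.s i) → P w → P (w * c.s i)) (w : W) : P w :=
  inv_inv w ▸ c.ind (P := fun w => P w⁻¹) (by simpa) (fun i w h h' => by
    rw [_root_.mul_inv_rev, c.s_inv]; exact h2 i _ (by rwa [c.l_mul, inv_inv, c.inv]) h') w⁻¹

theorem exists_word (w : W) : ∃ L : List κ, L.length = c.l w ∧ (L.map c.s).prod = w :=
  c.ind (P := fun w => ∃ L : List κ, L.length = c.l w ∧ (L.map c.s).prod = w) ⟨[], c.one.symm, rfl⟩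
    (fun i w h ⟨L, h1, h2⟩ => ⟨i :: L, by have := c.step i w; simp; omega, by simp [h2]⟩) w

theorem l_le (L : List κ) : c.l (L.map c.s).prod ≤ L.length := by
  induction L with
  | nil => exact c.one.le
  | cons i L ih => have := c.step i (L.map c.s).prod; simp; omega

variable [Fintype W] [DecidableEq W] {R : Type*} [CommRing R] (t : R)

/-- left multiplication -/
def L (i : κ) : Matrix W W R := of fun u w =>
  (if w = c.s i * u then if c.l (c.s i * u) < c.l u then 1 else t else 0) +
    if w = u then if c.l (c.s i * u) < c.l u then t - 1 else 0 else 0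

/-- right multiplication -/
def Rt (i : κ) : Matrix W W R := of fun u w =>
  (if w = u * c.s i then if c.l (u * c.s i) < c.l u then 1 else t else 0) +
    if w = u then if c.l (u * c.s i) < c.l u then t - 1 else 0 else 0

theorem L_mulVec (i : κ) (x : W → R) (u : W) : (c.L t i *ᵥ x) u =
    if c.l (c.s i * u) < c.l u then x (c.s i * u) + (t - 1) * x u else t * x (c.s i * u) := by
  simp [L, mulVec, dotProduct, add_mul, sum_add_distrib]; split_ifs <;> simp

theorem R_mulVec (i : κ) (x : W → R) (u : W) : (c.Rt t i *ᵥ x) u =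
    if c.l (u * c.s i) < c.l u then x (u * c.s i) + (t - 1) * x u else t * x (u * c.s i) := by
  simp [Rt, mulVec, dotProduct, add_mul, sum_add_distrib]; split_ifs <;> simp

theorem LR (i j : κ) : c.L t i * c.Rt t j = c.Rt t j * c.L t i := by
  refine ext_iff_mulVec.2 fun x => funext fun u => ?_
  simp only [← mulVec_mulVec, L_mulVec, R_mulVec]
  rcases c.two i j u with h | ⟨h, h'⟩
  · simp only [← h, c.ss, show c.s i * u * c.s j = u by rw [h, c.ss']]
  · rw [mul_assoc] at h'; simp only [h, h', mul_assoc]; split_ifs <;> ring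

theorem LL (i : κ) : c.L t i * c.L t i = (t - 1) • c.L t i + t • 1 := by
  refine ext_iff_mulVec.2 fun x => funext fun u => ?_
  have := c.step i u
  simp only [← mulVec_mulVec, L_mulVec, c.ss, add_mulVec, smul_mulVec, one_mulVec, Pi.add_apply, Pi.smul_apply,
    smul_eq_mul]
  split_ifs <;> first | omega | ring

theorem L_single {i : κ} {w : W} (h : c.l w < c.l (c.s i * w)) :
    c.L t i *ᵥ Pi.single w 1 = Pi.single (c.s i * w) 1 := by
  funext u
  rw [L_mulVec]
  by_cases e : u = c.s i * w
  · subst e; simp [c.ss, h, Pi.single_eq_of_ne (show c.s i * w ≠ w from fun e => by simp [e] at h)]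
  · rw [Pi.single_eq_of_ne e, Pi.single_eq_of_ne fun e' => e (by rw [← e', c.ss])]
    split_ifs with h'
    · rw [Pi.single_eq_of_ne (by rintro rfl; omega)]; simp
    · simp

theorem R_single {i : κ} {w : W} (h : c.l w < c.l (w * c.s i)) :
    c.Rt t i *ᵥ Pi.single w 1 = Pi.single (w * c.s i) 1 := by
  funext u
  rw [R_mulVec]
  by_cases e : u = w * c.s i
  · subst e; simp [c.ss', h, Pi.single_eq_of_ne (show w * c.s i ≠ w from fun e => by simp [e] at h)]
  · rw [Pi.single_eq_of_ne e, Pi.single_eq_of_ne fun e' => e (by rw [← e', c.ss'])]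
    split_ifs with h'
    · rw [Pi.single_eq_of_ne (by rintro rfl; omega)]; simp
    · simp

theorem LR_one (i : κ) : c.L t i *ᵥ Pi.single 1 1 = c.Rt t i *ᵥ Pi.single 1 1 := by
  have := c.step i 1
  have := c.one
  rw [c.L_single t (by omega), c.R_single t (by rw [one_mul, ← mul_one (c.s i)]; omega), mul_one, one_mul]

/-- the Hecke algebra -/
def H : Subalgebra R (Matrix W W R) := Subalgebra.centralizer R (Set.range (c.Rt t))

variable {c t}

theorem H_comm {X : Matrix W W R} (h : X ∈ c.H t) (i : κ) : c.Rt t i * X = X * c.Rt t i := h _ ⟨i, rfl⟩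

theorem H_ext {X Y : Matrix W W R} (h : X ∈ c.H t) (h' : Y ∈ c.H t)
    (e : X *ᵥ Pi.single 1 1 = Y *ᵥ Pi.single 1 1) : X = Y := by
  have : ∀ w, X *ᵥ Pi.single w 1 = Y *ᵥ Pi.single w 1 := c.ind' e fun i w hw ih => by
    rw [← c.R_single t hw, mulVec_mulVec, mulVec_mulVec, ← H_comm h, ← H_comm h', ← mulVec_mulVec, ← mulVec_mulVec, ih]
  ext u w
  simpa using congrFun (this w) u

variable (c t)

theorem L_mem (i : κ) : c.L t i ∈ c.H t := by rintro _ ⟨j, rfl⟩; exact (c.LR t i j).symm

/-- the standard basis -/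
noncomputable def T (w : W) : Matrix W W R := ((c.exists_word w).choose.map (c.L t)).prod

theorem T_mem (w : W) : c.T t w ∈ c.H t := list_prod_mem fun _ h => let ⟨i, _, e⟩ := List.mem_map.1 h; e ▸ c.L_mem t i

theorem T_single (w : W) : c.T t w *ᵥ Pi.single 1 1 = Pi.single w 1 := by
  have : ∀ L : List κ, L.length = c.l (L.map c.s).prod →
      (L.map (c.L t)).prod *ᵥ Pi.single 1 1 = Pi.single (L.map c.s).prod 1 := fun L h => by
    induction L with
    | nil => exact one_mulVec _
    | cons i L ih =>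
      have := c.l_le L
      have := c.step i (L.map c.s).prod
      simp only [List.map_cons, List.prod_cons, List.length_cons] at h ⊢
      rw [← mulVec_mulVec, ih (by omega), c.L_single t (by omega)]
  obtain ⟨h1, h2⟩ := (c.exists_word w).choose_spec
  rw [T, this _ (by rwa [h2]), h2]

theorem T_one : c.T t 1 = 1 := H_ext (c.T_mem t 1) (one_mem _) (by rw [T_single, one_mulVec])

theorem T_left {i : κ} {w : W} (h : c.l w < c.l (c.s i * w)) : c.T t (c.s i * w) = c.L t i * c.T t w :=
  H_ext (c.T_mem t _) (mul_mem (c.L_mem t i) (c.T_mem t _)) (by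
    rw [← mulVec_mulVec, T_single, T_single, c.L_single t h])

theorem T_right {i : κ} {w : W} (h : c.l w < c.l (w * c.s i)) : c.T t (w * c.s i) = c.T t w * c.L t i :=
  H_ext (c.T_mem t _) (mul_mem (c.T_mem t _) (c.L_mem t i)) (by
    rw [← mulVec_mulVec, LR_one, mulVec_mulVec, ← H_comm (c.T_mem t w), ← mulVec_mulVec, T_single, T_single,
      c.R_single t h])

theorem T_left_inv {i : κ} {w : W} (h : c.l w < c.l (c.s i * w)) : c.T t (c.s i * w)⁻¹ = c.T t w⁻¹ * c.L t i := by
  rw [_root_.mul_inv_rev, c.s_inv, c.T_right t (by rwa [c.l_mul, inv_inv, c.inv])]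

/-- the averaging map -/
noncomputable def av (X : Matrix W W R) : Matrix W W R :=
  ∑ w, t ^ (univ.sup c.l - c.l w) • (c.T t w * X * c.T t w⁻¹)

theorem av_comm (X : Matrix W W R) (i : κ) : c.L t i * c.av t X = c.av t X * c.L t i := by
  have key : ∀ w, c.l w < c.l (c.s i * w) → ∀ f : W → Matrix W W R, (∀ w, f w = t ^ (univ.sup c.l - c.l w) •
      (c.T t w * X * c.T t w⁻¹)) → c.L t i * f w - f w * c.L t i +
        (c.L t i * f (c.s i * w) - f (c.s i * w) * c.L t i) = 0 := fun w h f hf => by
    have h1 := le_sup (f := c.l) (mem_univ (c.s i * w))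
    have h2 := c.step i w
    rw [hf, hf, c.T_left t h, c.T_left_inv t h, show univ.sup c.l - c.l w = univ.sup c.l - c.l (c.s i * w) + 1 by omega]
    simp only [mul_smul_comm, smul_mul_assoc, ← mul_assoc, c.LL, mul_assoc _ (c.L t i) (c.L t i), mul_add, add_mul,
      one_mul, mul_one]
    module
  rw [← sub_eq_zero, av, mul_sum, sum_mul, ← sum_sub_distrib]
  refine sum_involution (fun w _ => c.s i * w) (fun w _ => ?_) (fun w _ _ e => ?_) (by simp) fun w _ => c.ss i w
  · rcases c.step i w with h | h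
    · exact key w (by omega) _ fun _ => rfl
    · have := key (c.s i * w) (by rw [c.ss]; omega) _ fun _ => rfl
      rwa [c.ss, add_comm] at this
  · have := c.step i w; rw [e] at this; omega

theorem av_mem {X : Matrix W W R} (h : X ∈ c.H t) : c.av t X ∈ c.H t :=
  sum_mem fun _ _ => Subalgebra.smul_mem _ (mul_mem (mul_mem (c.T_mem t _) h) (c.T_mem t _)) _

/-- the matrix of the averaging map -/
noncomputable def G : Matrix W W R := of fun u v => c.av t (c.T t v) u 1

/-- the equations of the centre -/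
def D : Matrix (κ × W) W R := of fun p w => (c.L t p.1 - c.Rt t p.1) p.2 w

theorem D_mulVec {x : W → R} : c.D t *ᵥ x = 0 ↔ ∀ i, c.L t i *ᵥ x = c.Rt t i *ᵥ x := by
  simp only [funext_iff, Prod.forall]
  exact forall₂_congr fun i u => (congrFun (sub_mulVec (c.L t i) (c.Rt t i) x) u).congr_left.trans sub_eq_zero

theorem DG : c.D t * c.G t = 0 := by
  ext ⟨i, u⟩ v
  have : (c.L t i - c.Rt t i) *ᵥ (c.av t (c.T t v) *ᵥ Pi.single 1 1) = 0 := by
    rw [sub_mulVec, mulVec_mulVec, mulVec_mulVec, av_comm, H_comm (c.av_mem t (c.T_mem t v)), ← mulVec_mulVec,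
      ← mulVec_mulVec, LR_one, sub_self]
  rw [mulVec_single_one] at this; exact congrFun this u

theorem G_mulVec {x : W → R} (h : c.D t *ᵥ x = 0) : c.G t *ᵥ x = c.av t 1 *ᵥ x := by
  have h1 : (∑ v, x v • c.T t v) ∈ c.H t := sum_mem fun _ _ => Subalgebra.smul_mem _ (c.T_mem t _) _
  have h2 : (∑ v, x v • c.T t v) *ᵥ Pi.single 1 1 = x := by
    simp only [sum_mulVec, smul_mulVec, T_single]; exact (pi_eq_sum_univ' x).symm
  have h3 : ∀ i, Commute (c.L t i) (∑ v, x v • c.T t v) := fun i =>
    H_ext (mul_mem (c.L_mem t i) h1) (mul_mem h1 (c.L_mem t i)) (by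
      rw [← mulVec_mulVec, ← mulVec_mulVec, LR_one, mulVec_mulVec _ _ (c.Rt t i), ← H_comm h1, ← mulVec_mulVec, h2,
        (c.D_mulVec t).1 h])
  have h4 : ∀ w, Commute (c.T t w) (∑ v, x v • c.T t v) := fun w =>
    (Commute.list_prod_right _ _ fun _ h => let ⟨i, _, e⟩ := List.mem_map.1 h; e ▸ (h3 i).symm).symm
  have h5 : c.av t (∑ v, x v • c.T t v) = c.av t 1 * ∑ v, x v • c.T t v := by
    rw [av, av, sum_mul]
    exact sum_congr rfl fun w _ => by rw [smul_mul_assoc, mul_one, mul_assoc, ← (h4 _).eq, mul_assoc]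
  conv_rhs => rw [← h2, mulVec_mulVec, ← h5]
  simp only [av, mul_sum, sum_mul, mul_smul_comm, smul_mul_assoc, smul_sum]
  rw [sum_comm]
  funext u
  simp [G, av, mulVec, dotProduct, Pi.single_apply, Matrix.sum_apply, mul_sum, mul_comm, mul_left_comm, mul_assoc]

theorem map_L {S : Type*} [CommRing S] (f : R →+* S) (i : κ) : (c.L t i).map f = c.L (f t) i := by
  ext; simp [L, apply_ite f]

theorem map_D {S : Type*} [CommRing S] (f : R →+* S) : (c.D t).map f = c.D (f t) := by
  ext; simp [D, L, Rt, apply_ite f]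

theorem map_G {S : Type*} [CommRing S] (f : R →+* S) : (c.G t).map f = c.G (f t) := by
  have : ∀ w, f.mapMatrix (c.T t w) = c.T (f t) w := fun w => by
    rw [T, T, map_list_prod, List.map_map]; congr 2; exact funext (c.map_L t f)
  ext u v
  simp only [G, av, ← this, ← map_mul f.mapMatrix]
  simp only [map_apply, of_apply, Matrix.sum_apply, Matrix.smul_apply, map_sum, smul_eq_mul,
    RingHom.mapMatrix_apply, map_pow, map_mul f]

open ComplexOrder in
theorem av_unit {t : ℂ} (ht : 0 < t) : IsUnit (c.av t 1) := by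
  have hs : star t = t := ht.le.star_eq
  have h1 : ∀ i, (c.L t i)ᴴ * diagonal (t ^ c.l ·) = diagonal (t ^ c.l ·) * c.L t i := fun i => by
    ext u w
    have := c.step i u
    simp only [mul_diagonal, diagonal_mul, conjTranspose_apply, L, of_apply, star_add, apply_ite star, star_one, hs,
      star_sub, star_zero]
    by_cases e : w = c.s i * u
    · subst e
      have e : c.s i * u ≠ u := fun e => by rw [e] at this; omega
      simp only [c.ss, if_true, if_neg e, if_neg e.symm, add_zero]
      rcases this with h | h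
      · rw [if_pos (by omega), if_neg (by omega), h]; ring
      · rw [if_neg (by omega), if_pos (by omega), ← h]; ring
    · rw [if_neg e, if_neg fun e' => e (by rw [e', c.ss])]
      by_cases e' : w = u
      · subst e'; simp [mul_comm]
      · simp [e', Ne.symm e']
  have h2 : ∀ w, (c.T t w⁻¹)ᴴ * diagonal (t ^ c.l ·) = diagonal (t ^ c.l ·) * c.T t w :=
    c.ind (by simp [T_one]) fun i w h ih => by
      rw [c.T_left t h, c.T_left_inv t h, conjTranspose_mul, mul_assoc, ih, ← mul_assoc, h1, mul_assoc]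
  have h3 : (diagonal (t ^ c.l ·)).PosDef := .diagonal fun _ => pow_pos ht _
  refine isUnit_of_mul_isUnit_right (x := diagonal (t ^ c.l ·)) (PosDef.isUnit ?_)
  rw [av, mul_sum, ← add_sum_erase _ _ (mem_univ 1)]
  refine PosDef.add_posSemidef (by simpa [T_one] using h3.smul (pow_pos ht _)) (posSemidef_sum _ fun w _ => ?_)
  rw [mul_smul_comm, mul_one, ← mul_assoc, ← h2]
  exact (h3.posSemidef.conjTranspose_mul_mul_same _).smul (pow_pos ht _).le

open ComplexOrder in
theorem rank_le [Fintype κ] {t : ℂ} (ht : 0 < t) (t' : ℂ) : (c.D t').rank ≤ (c.D t).rank := by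
  have hg := IsFractionRing.injective ℂ[X] (FractionRing ℂ[X])
  have h1 := rank_spec (c.D X) t' hg
  have h2 := rank_spec (c.G X) t hg
  have h3 := rank_add_rank_le_card_of_mul_eq_zero (c.DG (algebraMap ℂ[X] (FractionRing ℂ[X]) X))
  have h4 := (c.D t).mulVecLin.finrank_range_add_finrank_ker
  have h5 : finrank ℂ (LinearMap.ker (c.D t).mulVecLin) ≤ (c.G t).rank :=
    LinearMap.finrank_le_finrank_of_injective (f := (c.G t).mulVecLin.rangeRestrict.domRestrict _) fun x y h =>
      Subtype.ext (mulVec_injective_of_isUnit (c.av_unit ht) (by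
        rw [← c.G_mulVec t x.2, ← c.G_mulVec t y.2]; exact congrArg Subtype.val h))
  rw [map_D, map_D] at h1
  rw [map_G, map_G] at h2
  simp only [coe_evalRingHom, eval_X, finrank_fintype_fun_eq_card] at h1 h2 h4
  rw [← rank] at h4
  omega

theorem finrank_ker_one : finrank ℂ (LinearMap.ker (c.D (1 : ℂ)).mulVecLin) = Nat.card (ConjClasses W) := by
  have := Fintype.ofFinite (ConjClasses W)
  rw [Nat.card_eq_fintype_card, ← finrank_fintype_fun_eq_card ℂ, ← LinearMap.finrank_range_of_inj
    (LinearMap.funLeft_injective_of_surjective ℂ ℂ _ (ConjClasses.mk_surjective (α := W)))]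
  refine congrArg (fun p : Submodule ℂ (W → ℂ) => finrank ℂ p) (Submodule.ext fun x => ?_)
  rw [LinearMap.mem_ker, mulVecLin_apply, D_mulVec]
  simp only [funext_iff, L_mulVec, R_mulVec, sub_self, zero_mul, add_zero, one_mul, ite_self]
  refine ⟨fun h => ?_, ?_⟩
  · have : ∀ g u, x (g * u * g⁻¹) = x u := c.ind (by simp) fun i g _ ih u => by
      rw [_root_.mul_inv_rev, c.s_inv, mul_assoc, mul_assoc, h, ← ih u]; simp [mul_assoc, c.sq]
    exact ⟨Quotient.lift x fun a b hab => let ⟨g, hg⟩ := isConj_iff.1 hab; hg ▸ (this g a).symm, rfl⟩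
  · rintro ⟨y, rfl⟩ i u
    exact congrArg y (ConjClasses.mk_eq_mk_iff_isConj.2 (isConj_iff.2 ⟨u, by group⟩))

open ComplexOrder in
theorem finrank_ker [Fintype κ] {t : ℂ} (ht : 0 < t) :
    finrank ℂ (LinearMap.ker (c.D t).mulVecLin) = Nat.card (ConjClasses W) := by
  have h1 := (c.D t).mulVecLin.finrank_range_add_finrank_ker
  have h2 := (c.D (1 : ℂ)).mulVecLin.finrank_range_add_finrank_ker
  have h3 := c.rank_le ht 1
  have h4 := c.rank_le one_pos t
  rw [← rank] at h1 h2
  rw [← c.finrank_ker_one]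
  omega

end Cx

end H22.HK
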