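import Cfsg.Agent.H22.HK1
import Cfsg.Agent.H6.Hecke
import Cfsg.Agent.H14.StCh2
import Cfsg.Agent.H14.CoxAll

/-! The number of irreducible constituents of the permutation character on the chambers of a building. -/

set_option autoImplicit false
set_option linter.unusedSectionVars false

namespace H22.HK

open Matrix Finset Module Cfsg H5 H6 MulAction
open scoped ComplexConjugate ComplexOrder

section centre

variable {G : Type*} [Group G] [Fintype G] {V : Type*} [AddCommGroup V] [Module ℂ V] [FiniteDimensional ℂ V]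

/-- the centre of the centraliser algebra -/
def Zc (ρ : Representation ℂ G V) : Submodule ℂ (End ℂ V) where
  carrier := {T | Cm ρ T ∧ ∀ S, Cm ρ S → Commute S T}
  add_mem' h h' := ⟨fun g => (h.1 g).add_right (h'.1 g), fun S a => (h.2 S a).add_right (h'.2 S a)⟩
  zero_mem' := ⟨fun _ => Commute.zero_right _, fun _ _ => Commute.zero_right _⟩
  smul_mem' _ _ h := ⟨fun g => (h.1 g).smul_right _, fun S a => (h.2 S a).smul_right _⟩

theorem density {ρ : Representation ℂ G V} {T : End ℂ V} (h : ∀ S, Cm ρ S → Commute S T) :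
    ∃ a : G → ℂ, T = ∑ g, a g • ρ g := by
  classical
  have : NeZero (Nat.card G : ℂ) := ⟨card_ne_zero_complex G⟩
  let e := ρ.asModuleEquiv
  obtain ⟨r, hr⟩ := jacobson_density (R := MonoidAlgebra ℂ G) (M := ρ.asModule)
    { toFun := fun v => e.symm (T (e v))
      map_add' := by simp
      map_smul' := fun S v => by
        have := LinearMap.congr_fun (h (e.toLinearMap ∘ₗ S.restrictScalars ℂ ∘ₗ e.symm.toLinearMap) fun g =>
          LinearMap.ext fun x => by
            change ρ g (e (S (e.symm x))) = e (S (e.symm (ρ g x)))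
            rw [ρ.asModuleEquiv_symm_map_rho, map_smul, ρ.asModuleEquiv_map_smul]; simp [e]).eq (e v)
        exact e.injective (by simpa using this.symm) } (univ.image fun i => e.symm (finBasis ℂ V i))
  refine ⟨r.coeff, (finBasis ℂ V).ext fun i => ?_⟩
  have := congrArg e (hr _ (mem_image_of_mem _ (mem_univ i)))
  rw [ρ.asModuleEquiv_map_smul] at this
  simpa [e, Representation.asAlgebraHom_def, MonoidAlgebra.lift_apply, Finsupp.sum_fintype] using this

variable {Ω : Type*} [Fintype Ω] [MulAction G Ω]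

theorem trf_inj {T : End ℂ (Ω → ℂ)} (h : ∀ S, Cm (permRep ℂ G Ω) S → Commute S T) (h0 : trf (permRep ℂ G Ω) T = 0) :
    T = 0 := by
  classical
  obtain ⟨a, e⟩ := density h
  have h1 : ∀ g : G, (LinearMap.toMatrix' (permRep ℂ G Ω g))ᴴ = LinearMap.toMatrix' (permRep ℂ G Ω g⁻¹) := fun g => by
    ext x y
    simp [Cfsg.permRep, Pi.single_apply, inv_smul_eq_iff, eq_comm (a := y)]
  refine LinearMap.toMatrix'.map_eq_zero_iff.1 (trace_conjTranspose_mul_self_eq_zero_iff.1 ?_)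
  nth_rw 1 [e]
  simp only [map_sum, map_smul, conjTranspose_sum, conjTranspose_smul, h1, sum_mul, smul_mul_assoc, trace_sum, trace_smul,
    ← LinearMap.toMatrix'_mul]
  refine sum_eq_zero fun g _ => ?_
  rw [← LinearMap.toMatrix_eq_toMatrix', ← LinearMap.trace_eq_matrix_trace, ← trf_apply, h0]; simp

theorem finrank_Zc : finrank ℂ (Zc (permRep ℂ G Ω)) =
    Nat.card {χ : IrrCharacter G // ∃ φ, IsCharacter G φ ∧ pc G Ω = χ.1 + φ} := by
  classical
  have hπ := isCharacter_character (permRep ℂ G Ω)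
  have h1 : ∀ χ : IrrCharacter G, (∃ φ, IsCharacter G φ ∧ pc G Ω = χ.1 + φ) ↔
      classInner (permRep ℂ G Ω).character χ ≠ 0 := fun χ => ⟨by
    rintro ⟨φ, h, e⟩
    obtain ⟨n, hn⟩ := h.exists_classInner_nat χ.2.isCharacter
    rw [permRep_char, e, classInner_add_left, inner_irr_self χ.2, hn]
    exact_mod_cast (by omega : 1 + n ≠ 0), fun h => ⟨_, hπ.sub_irr χ.2 h, by rw [permRep_char]; abel⟩⟩
  rw [Nat.card_eq_fintype_card, ← finrank_span_eq_card ((linearIndependent_irr G).comp _ Subtype.val_injective),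
    ← LinearMap.finrank_range_of_inj (f := (trf (permRep ℂ G Ω)).domRestrict (Zc (permRep ℂ G Ω)))
      ((injective_iff_map_eq_zero _).2 fun T h => Subtype.ext (trf_inj T.2.2 h))]
  refine congrArg (fun p : Submodule ℂ (G → ℂ) => finrank ℂ p) (le_antisymm ?_ (Submodule.span_le.2 ?_))
  · rintro _ ⟨T, rfl⟩
    rw [LinearMap.domRestrict_apply, eq_sum_irr (trf_cf T.2.1)]
    refine sum_mem fun χ _ => ?_
    by_cases h : classInner (permRep ℂ G Ω).character χ = 0
    · rw [trf_inner_zero T.2.1 χ.2 h, zero_smul]; exact zero_mem _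
    · exact Submodule.smul_mem _ _ (Submodule.subset_span ⟨⟨χ, (h1 χ).2 h⟩, rfl⟩)
  · rintro _ ⟨χ, rfl⟩
    refine ⟨(classInner (permRep ℂ G Ω).character χ.1)⁻¹ • ⟨Eid _ χ.1, cm_Eid χ.1.2.isClassFunction,
      fun S h => h.comm_Eid _⟩, ?_⟩
    rw [map_smul]
    change _ • trf _ (Eid _ _) = _
    rw [← one_mul (Eid _ _), trf_mul_Eid (fun _ => Commute.one_right _) χ.1.2,
      trf_one, smul_smul, inv_mul_cancel₀ ((h1 _).1 χ.2), one_smul]
    rfl

end centre

/-- a building with a strongly transitive group -/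
structure Bld {W κ : Type*} [Group W] (c : Cx W κ) (G Ω : Type*) [Group G] [MulAction G Ω] (q : ℕ) where
  r : Ω → Ω → W
  inv : ∀ (g : G) x y, r (g • x) (g • y) = r x y
  tr : ∀ x y x' y', r x y = r x' y' → ∃ g : G, g • x = x' ∧ g • y = y'
  surj : ∀ w, ∃ x y, r x y = w
  symm : ∀ x y, r y x = (r x y)⁻¹
  one : ∀ x y, r x y = 1 ↔ x = y
  mul : ∀ i x y z, r x y = c.s i → r x z = c.s i * r y z ∨ (r x z = r y z ∧ c.l (c.s i * r y z) < c.l (r y z))
  card : ∀ i x, Nat.card {y // r x y = c.s i} = q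
  pos : 0 < q

namespace Bld

variable {W κ G Ω : Type*} [Group W] {c : Cx W κ} [Group G] [MulAction G Ω] {q : ℕ} (B : Bld c G Ω q)

theorem symm' {i : κ} {x y : Ω} (h : B.r x y = c.s i) : B.r y x = c.s i := by rw [B.symm, h, c.s_inv]

theorem up {i : κ} {x y z : Ω} (h : B.r x y = c.s i) (h' : ¬ c.l (c.s i * B.r y z) < c.l (B.r y z)) :
    B.r x z = c.s i * B.r y z := (B.mul i x y z h).resolve_right fun a => h' a.2

theorem exu {i : κ} {x z : Ω} (h : c.l (c.s i * B.r x z) < c.l (B.r x z)) :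
    ∃! y, B.r x y = c.s i ∧ B.r y z = c.s i * B.r x z := by
  obtain ⟨y, z', e⟩ := B.surj (c.s i * B.r x z)
  obtain ⟨⟨x', e'⟩⟩ := (Nat.card_pos_iff.1 (B.card i y ▸ B.pos)).1
  obtain ⟨g, rfl, rfl⟩ := B.tr x' z' x z (by rw [B.up (B.symm' e') (by rw [e, c.ss]; omega), e, c.ss])
  refine ⟨g • y, ⟨by rw [B.inv, B.symm' e'], by rw [B.inv, e]⟩, fun y' ⟨h1, h2⟩ => ?_⟩
  rcases B.mul i y' _ (g • y) (B.symm' h1) with h3 | h3
  · rwa [B.inv, B.symm' e', c.sq, B.one] at h3
  · rw [B.inv, B.symm' e'] at h3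
    have := B.up (z := g • z') h3.1 (by rw [B.inv, e, c.ss]; omega)
    rw [h2, B.inv g y, e, c.ss] at this
    rw [this] at h; omega

variable [Fintype W] [DecidableEq W] [Fintype Ω] [DecidableEq Ω]

/-- the matrix of a function on the Weyl group -/
def Φ : (W → ℂ) →ₗ[ℂ] Matrix Ω Ω ℂ where
  toFun a := of fun x y => a (B.r x y)
  map_add' _ _ := rfl
  map_smul' _ _ := rfl

theorem Φ_apply (a : W → ℂ) (x y : Ω) : B.Φ a x y = a (B.r x y) := rfl

theorem Φ_inj : Function.Injective B.Φ := fun a b h => funext fun w => by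
  obtain ⟨x, y, rfl⟩ := B.surj w
  exact congrFun₂ h x y

theorem Φ_L (i : κ) (a : W → ℂ) : B.Φ (Pi.single (c.s i) 1) * B.Φ a = B.Φ (c.L q i *ᵥ a) := by
  ext x z
  have h1 : (univ.filter fun y => B.r x y = c.s i).card = q := by
    rw [← Fintype.card_subtype, ← Nat.card_eq_fintype_card, B.card i x]
  simp only [Φ_apply, mul_apply, c.L_mulVec, Pi.single_apply, ite_mul, one_mul,
    zero_mul, ← sum_filter]
  split_ifs with h
  · obtain ⟨y, ⟨h2, h3⟩, h4⟩ := B.exu h
    have h5 : y ∈ univ.filter fun y => B.r x y = c.s i := by simpa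
    rw [← add_sum_erase _ _ h5, h3, sum_congr rfl (g := fun _ => a (B.r x z)) fun y' hy => ?_, sum_const,
      card_erase_of_mem h5, h1, nsmul_eq_mul, Nat.cast_pred B.pos]
    simp only [mem_erase, mem_filter, mem_univ, true_and] at hy
    rw [((B.mul i y' x z (B.symm' hy.2)).resolve_left fun e => hy.1 (h4 _ ⟨hy.2, e⟩)).1]
  · rw [sum_congr rfl (g := fun _ => a (c.s i * B.r x z)) fun y hy => by rw [B.up (B.symm' (mem_filter.1 hy).2) h],
      sum_const, h1, nsmul_eq_mul]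

theorem Φ_R (i : κ) (a : W → ℂ) : B.Φ a * B.Φ (Pi.single (c.s i) 1) = B.Φ (c.Rt q i *ᵥ a) := by
  have h1 : ∀ a : W → ℂ, (B.Φ a)ᵀ = B.Φ fun w => a w⁻¹ := fun a => by ext x y; exact congrArg a (B.symm _ _)
  rw [← transpose_transpose (_ * _), transpose_mul, h1, h1, show (fun w => Pi.single (M := fun _ => ℂ) (c.s i) 1 w⁻¹) =
    Pi.single (c.s i) 1 by ext w; simp [Pi.single_apply, inv_eq_iff_eq_inv, c.s_inv], Φ_L, h1]
  congr 1
  ext w
  simp [c.L_mulVec, c.R_mulVec, c.l_mul, c.inv, c.s_inv]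

theorem cm_iff {X : Matrix Ω Ω ℂ} : Cm (permRep ℂ G Ω) (toLin' X) ↔ X ∈ LinearMap.range B.Φ := by
  refine ⟨fun h => ?_, ?_⟩
  · choose x y e using B.surj
    refine ⟨fun w => X (x w) (y w), Matrix.ext fun a b => ?_⟩
    obtain ⟨g, h1, h2⟩ := B.tr _ _ _ _ (e (B.r a b))
    have := congrFun (LinearMap.congr_fun (h g).eq (Pi.single (y (B.r a b)) 1)) a
    simpa [Φ_apply, Cfsg.permRep, mulVec, dotProduct, Pi.single_apply, inv_smul_eq_iff, h2, inv_smul_eq_iff.2 h1.symm] using this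
  · rintro ⟨a, rfl⟩ g
    refine LinearMap.ext fun f => funext fun x => ?_
    change ∑ y, a (B.r (g⁻¹ • x) y) * f y = ∑ y, a (B.r x y) * f (g⁻¹ • y)
    exact Fintype.sum_equiv (toPerm g) _ _ fun y => by rw [toPerm_apply, inv_smul_smul, ← B.inv g, smul_inv_smul]

include B in
theorem card_eq [Fintype κ] [Fintype G] :
    Nat.card {χ : IrrCharacter G // ∃ φ, IsCharacter G φ ∧ pc G Ω = χ.1 + φ} = Nat.card (ConjClasses W) := by
  rw [← finrank_Zc, ← c.finrank_ker (t := q) (by exact_mod_cast B.pos), (Submodule.equivMapOfInjective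
    (toLin'.toLinearMap ∘ₗ B.Φ) (toLin'.injective.comp B.Φ_inj) _).finrank_eq]
  refine congrArg (fun p : Submodule ℂ (End ℂ (Ω → ℂ)) => finrank ℂ p) (le_antisymm ?_ ?_)
  · rintro T ⟨h1, h2⟩
    obtain ⟨X, rfl⟩ := toLin'.surjective T
    obtain ⟨a, rfl⟩ := B.cm_iff.1 h1
    refine ⟨a, (c.D_mulVec _).2 fun i => B.Φ_inj ?_, rfl⟩
    rw [← Φ_L, ← Φ_R]
    exact toLin'.injective (by rw [toLin'_mul, toLin'_mul]; exact h2 _ (B.cm_iff.2 ⟨_, rfl⟩))
  · rintro _ ⟨a, h, rfl⟩
    refine ⟨B.cm_iff.2 ⟨a, rfl⟩, fun S hS => ?_⟩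
    obtain ⟨X, rfl⟩ := toLin'.surjective S
    obtain ⟨b, rfl⟩ := B.cm_iff.1 hS
    have h1 : ∀ w, Commute (B.Φ (Pi.single w 1)) (B.Φ a) := c.ind (by
      rw [show B.Φ (Pi.single 1 1) = 1 by ext; simp [Φ_apply, Pi.single_apply, B.one, one_apply]]
      exact Commute.one_left _) fun i w hw ih => by
        rw [← c.L_single (q : ℂ) hw, ← Φ_L]
        exact Commute.mul_left (by rw [Commute, SemiconjBy, Φ_L, Φ_R, (c.D_mulVec _).1 h]) ih
    have h2 : Commute (B.Φ b) (B.Φ a) := by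
      rw [pi_eq_sum_univ' b, map_sum]
      exact Commute.sum_left _ _ _ fun w _ => by rw [map_smul]; exact (h1 w).smul_left _
    exact h2.map toLinAlgEquiv'

end Bld

open H14 H14.RootSys H14.St H14.PreSt

variable {ι κ : Type*} [Fintype κ] [DecidableEq κ] [Fintype ι] [DecidableEq ι] (R : RootSys ι κ)

theorem len_sr_lt {w : Equiv.Perm ι} (hw : w ∈ R.W) (i : κ) :
    R.len (R.sr i * w) < R.len w ↔ ¬ R.pos (w⁻¹ (R.simple i)) := by
  refine ⟨fun h h' => ?_, fun h => ?_⟩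
  · have := R.len_sr_mul_of_pos (R.W_le_Aut hw) h'; omega
  · have := R.len_sr_mul_of_neg (R.W_le_Aut hw) h; omega

theorem len_sr_lt' {w : Equiv.Perm ι} (hw : w ∈ R.W) (i : κ) :
    R.len (w * R.sr i) < R.len w ↔ ¬ R.pos (w (R.simple i)) := by
  refine ⟨fun h h' => ?_, fun h => ?_⟩
  · have := R.len_mul_sr_of_pos (R.W_le_Aut hw) h'; omega
  · have := R.len_mul_sr_of_neg (R.W_le_Aut hw) h; omega

/-- the Weyl group as a Coxeter group -/
noncomputable def cxW : Cx R.W κ where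
  s i := ⟨R.sr i, R.sr_mem_W i⟩
  l w := R.len w
  sq i := Subtype.ext (R.refl_mul_self _)
  step i w := (em _).imp (R.len_sr_mul_of_pos (R.W_le_Aut w.2)) (R.len_sr_mul_of_neg (R.W_le_Aut w.2))
  inv w := R.len_inv (R.W_le_Aut w.2)
  one := R.len_one
  down w h := (R.exists_neg_of_ne_one (inv_mem w.2) fun e => h (Subtype.ext (inv_eq_one.1 e))).imp fun i hi =>
    (len_sr_lt R w.2 i).2 hi.2
  two i j w := by
    have hw := R.W_le_Aut w.2
    by_cases h : R.sr i = R.refl (w.1 (R.simple j))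
    · exact Or.inl (Subtype.ext (by simp [h, Aut.refl_conj hw]))
    have h1 : w.1 (R.simple j) ≠ R.simple i := fun e => h (by rw [e])
    have h2 : w.1 (R.simple j) ≠ R.neg (R.simple i) := fun e => h (by rw [e, refl_neg_left])
    refine Or.inr ⟨(len_sr_lt R (w * _).2 i).trans ((not_congr ?_).trans (len_sr_lt R w.2 i).symm),
      (len_sr_lt' R (_ * w).2 j).trans ((not_congr (R.pos_sr_iff h1 h2)).trans (len_sr_lt' R w.2 j).symm)⟩
    simp only [Subgroup.coe_mul, _root_.mul_inv_rev, refl_inv, Equiv.Perm.mul_apply]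
    exact R.pos_sr_iff (fun e => h1 (by simp [← e])) fun e => h2 (by
      rw [Equiv.Perm.inv_eq_iff_eq, Aut.neg hw] at e; simp [e])

variable {R} {C : Chev R} {K G : Type*} [Field K] [Finite K] [Group G] {S : St C K G} (hS : S.Sep)
  (hG : S.U Set.univ = ⊤)

include hS hG in
theorem cl_out (g h : G) : S.cl ((g : G ⧸ S.B).out⁻¹ * (h : G ⧸ S.B).out) = S.cl (g⁻¹ * h) := by
  obtain ⟨a, e⟩ := QuotientGroup.mk_out_eq_mul S.B g
  obtain ⟨b, e'⟩ := QuotientGroup.mk_out_eq_mul S.B h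
  rw [e, e']
  exact Cell.cl_eq hS (by simpa [mul_assoc] using ((cl_spec hG (g⁻¹ * h)).mul_left (inv_mem a.2)).mul_right b.2)

/-- the building of a group with root elements -/
noncomputable def bld : Bld (cxW R) G (G ⧸ S.B) (Nat.card K) where
  r x y := ⟨S.cl (x.out⁻¹ * y.out), (cl_spec hG _).mem_W⟩
  inv g x y := by
    obtain ⟨x, rfl⟩ := QuotientGroup.mk_surjective x
    obtain ⟨y, rfl⟩ := QuotientGroup.mk_surjective y
    simp [cl_out hS hG, mul_assoc]
  tr x y x' y' h := by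
    have h1 := cl_spec hG (x.out⁻¹ * y.out)
    obtain ⟨n, hn⟩ := exists_NW_of_W (S := S.toPreSt) h1.mem_W
    obtain ⟨b, hb, u, hu, e⟩ := h1.exists_eq hn
    obtain ⟨b', hb', u', hu', e'⟩ := (cl_spec hG (x'.out⁻¹ * y'.out)).exists_eq (Subtype.mk.inj h ▸ hn)
    have key : ∀ (g : G) (x y : G ⧸ S.B), (g * x.out)⁻¹ * y.out ∈ S.B → g • x = y := fun g x y h => by
      rw [← x.out_eq, ← y.out_eq]; exact QuotientGroup.eq.2 h
    refine ⟨x'.out * b' * b⁻¹ * x.out⁻¹, key _ _ _ (by simpa [mul_assoc] using mul_mem hb (inv_mem hb')), key _ _ _ ?_⟩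
    rw [mul_assoc, e, inv_mul_eq_iff_eq_mul.1 e']
    simpa [mul_assoc] using U_le_B (mul_mem (inv_mem hu) hu')
  surj w := by
    obtain ⟨n, hn⟩ := exists_NW_of_W (S := S.toPreSt) w.2
    exact ⟨(1 : G), n, Subtype.ext (by simpa [cl_out hS hG] using (cell_of_NW hn).cl_eq hS)⟩
  symm x y := Subtype.ext (Cell.cl_eq hS (by simpa using (cl_spec hG (x.out⁻¹ * y.out)).inv))
  one x y := by
    rw [Subtype.ext_iff, ← Quotient.out_equiv_out]
    exact (⟨fun h => h ▸ cl_spec hG _, Cell.cl_eq hS⟩ : S.cl _ = 1 ↔ _).trans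
      (cell_one_iff.trans QuotientGroup.leftRel_apply.symm)
  mul i x y z h := by
    have hn : (_, R.sr i) ∈ _ := n_mem_NW (S := S.toPreSt) (R.simple i) one_ne_zero
    obtain ⟨b, hb, u, hu, e⟩ := (cl_spec hG (x.out⁻¹ * y.out)).exists_eq (Subtype.mk.inj h ▸ hn)
    have e' : x.out⁻¹ * z.out = b * (S.n (R.simple i) 1 * (u * (y.out⁻¹ * z.out))) := by
      rw [← mul_assoc, ← mul_assoc, ← e]; group
    refine (((cl_spec hG (y.out⁻¹ * z.out)).mul_left (U_le_B hu)).n_mul_of_pos i hn).imp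
      (fun h => Subtype.ext ?_) fun h => ⟨Subtype.ext ?_, (len_sr_lt R (cl_spec hG _).mem_W i).2 h.1⟩
    · exact e' ▸ (h.mul_left hb).cl_eq hS
    · exact e' ▸ (h.2.mul_left hb).cl_eq hS
  card i x := by
    have := fx_cell_one hS hG (R.sr_mem_W i)
    rw [← mul_one (R.sr i), R.len_sr_mul_of_pos (one_mem _) (R.pos_simple i), len_one, mul_one, pow_one] at this
    refine Eq.trans (Nat.card_congr ((toPerm x.out⁻¹).subtypeEquiv fun y => ?_)) this
    have e : ((x.out⁻¹ * y.out : G) : G ⧸ S.B) = x.out⁻¹ • y := by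
      conv_rhs => rw [← y.out_eq]
      rfl
    refine ⟨fun h => ⟨_, Subtype.mk.inj h, e, by simp⟩, fun ⟨g, h1, h2, _⟩ => Subtype.ext (Eq.trans ?_ h1)⟩
    simpa using cl_mul hS hG g (QuotientGroup.eq.1 (h2.trans e.symm))
  pos := Nat.card_pos

include hS hG in
theorem card_constituents [Finite G] {W : Type*} [Group W] (e : R.W ≃* W) :
    Nat.card {χ : IrrCharacter G // ∃ φ, IsCharacter G φ ∧ fixedPointCharacter S.B = χ.1 + φ} =
      Nat.card (ConjClasses W) := by
  classical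
  have := Fintype.ofFinite G
  have := Fintype.ofFinite (G ⧸ S.B)
  refine (bld hS hG).card_eq.trans (Nat.card_congr (Quotient.congr e.toEquiv fun a b => ?_))
  exact ⟨e.toMonoidHom.map_isConj, fun h => e.symm_apply_apply a ▸ e.symm_apply_apply b ▸ e.symm.toMonoidHom.map_isConj h⟩

end H22.HK
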