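import Mathlib
/-! A group of order `2p³` with Kronecker-quiver modules. -/
set_option autoImplicit false
namespace H22.Kron
open Matrix

/-- the generalized dihedral group of `R³` -/
@[ext] structure HH (R : Type) where
  v : Fin 3 → R
  e : ℤˣ

variable {R : Type} [Field R]

instance : Mul (HH R) := ⟨fun a b => ⟨a.v + a.e • b.v, a.e * b.e⟩⟩
instance : One (HH R) := ⟨⟨0, 1⟩⟩
instance : Inv (HH R) := ⟨fun a => ⟨-(a.e • a.v), a.e⟩⟩
@[simp] theorem mul_v (a b : HH R) : (a * b).v = a.v + a.e • b.v := rfl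
@[simp] theorem mul_e (a b : HH R) : (a * b).e = a.e * b.e := rfl
@[simp] theorem one_v : (1 : HH R).v = 0 := rfl
@[simp] theorem one_e : (1 : HH R).e = 1 := rfl

instance : Group (HH R) := Group.ofLeftAxioms
  (fun a b c => by ext1 <;> simp [add_assoc, mul_assoc, mul_smul]) (fun a => by ext1 <;> simp)
  fun a => HH.ext (neg_add_cancel _) (Int.units_mul_self _)

/-- as a product -/
def eqv : HH R ≃ (Fin 3 → R) × ℤˣ := ⟨fun a => (a.v, a.e), fun a => ⟨a.1, a.2⟩, fun _ => rfl, fun _ => rfl⟩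

/-- the three arrows -/
def MM (m : ℕ) (v : Fin 3 → R) : Matrix (Fin (m + 1)) (Fin m) R := of fun i j =>
  (if i.1 = j.1 then v 0 else 0) + (if i.1 = j.1 + 1 then v 1 else 0) + (if i.1 = 2 ∧ j.1 = 0 then v 2 else 0)

/-- the block matrix -/
def BB (m : ℕ) (a : HH R) : Matrix (Fin m ⊕ Fin (m + 1)) (Fin m ⊕ Fin (m + 1)) R :=
  fromBlocks 1 0 (MM m a.v) (a.e • 1)

theorem BB_mul (m : ℕ) (a b : HH R) : BB m (a * b) = BB m a * BB m b := by
  have : MM m (a.v + a.e • b.v) = MM m a.v + a.e • MM m b.v := by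
    ext i j; simp only [MM, of_apply, Matrix.add_apply, Matrix.smul_apply, Pi.add_apply, Pi.smul_apply]
    split_ifs <;> simp <;> abel
  simp [BB, fromBlocks_multiply, this, smul_smul, mul_comm]

theorem BB_det {m : ℕ} (hm : Odd m) (a : HH R) : (BB m a).det = 1 := by
  rcases Int.units_eq_one_or a.e with h | h <;> simp [BB, h, det_neg, hm.add_one.neg_one_pow]

theorem BB_trace {m : ℕ} (hm : (m : R) = 0) (a : HH R) : (BB m a).trace ≠ 0 := by
  rcases Int.units_eq_one_or a.e with h | h <;> simp [BB, h, trace, hm]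

theorem BB_scalar (h2 : (2 : R) ≠ 0) {m : ℕ} (hm : 2 ≤ m) {a : HH R} {c : R} (h : BB m a = c • 1) : a = 1 := by
  have h0 := congrFun₂ h (.inl ⟨0, by omega⟩) (.inl ⟨0, by omega⟩)
  have h1 := congrFun₂ h (.inr 0) (.inr 0)
  have h3 := fun i : Fin 3 => congrFun₂ h (.inr ⟨i, by omega⟩) (.inl ⟨0, by omega⟩)
  refine HH.ext (funext fun i => ?_) ((Int.units_eq_one_or a.e).resolve_right fun e => h2 ?_)
  · have := h3 i; fin_cases i <;> simpa [BB, MM] using this
  · simp [BB, e] at h0 h1; linear_combination h0 - h1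

theorem BB_cent (h2 : (2 : R) ≠ 0) {m : ℕ} {g : Matrix (Fin m ⊕ Fin (m + 1)) (Fin m ⊕ Fin (m + 1)) R}
    (h : ∀ a, g * BB m a = BB m a * g) : ∃ c : R, g = c • 1 := by
  rw [← fromBlocks_toBlocks g] at h ⊢
  generalize g.toBlocks₁₁ = a, g.toBlocks₁₂ = b, g.toBlocks₂₁ = c, g.toBlocks₂₂ = d at h ⊢
  have z : MM m (0 : Fin 3 → R) = 0 := by ext; simp [MM]
  have h1 := h ⟨0, -1⟩
  simp only [BB, z, fromBlocks_multiply, fromBlocks_inj] at h1
  have k : ∀ x : R, -x = x → x = 0 := fun x hx => (mul_eq_zero.1 (by linear_combination -hx)).resolve_left h2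
  obtain rfl : b = 0 := by ext i j; exact k _ (by simpa using congrFun₂ h1.2.1 i j)
  obtain rfl : c = 0 := by ext i j; exact k _ (by simpa using (congrFun₂ h1.2.2.1 i j).symm)
  have h3 : ∀ v i j, ∑ k, d i k * MM m v k j = ∑ k, MM m v i k * a k j := fun v i j => by
    simpa [BB, fromBlocks_multiply, Matrix.mul_apply] using congrFun₂ (h ⟨v, 1⟩) (.inr i) (.inl j)
  have hX : ∀ i j, d i j.castSucc = ∑ k : Fin m, if i.1 = k.1 then a k j else 0 := fun i j => by
    simpa [MM, show ∀ k : Fin (m + 1), k.1 = j.1 ↔ k = j.castSucc from fun _ => by simp [Fin.ext_iff]]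
      using h3 ![1, 0, 0] i j
  have hY : ∀ i j, d i j.succ = ∑ k : Fin m, if i.1 = k.1 + 1 then a k j else 0 := fun i j => by
    simpa [MM, show ∀ k : Fin (m + 1), k.1 = j.1 + 1 ↔ k = j.succ from fun _ => by simp [Fin.ext_iff]]
      using h3 ![0, 1, 0] i j
  have h4 : ∀ i j, d i.castSucc j.castSucc = a i j := fun i j => by simp [hX, Fin.val_inj]
  have h5 : ∀ i j, d i.succ j.succ = a i j := fun i j => by simp [hY, Fin.val_inj]
  have h6 : ∀ k i j : ℕ, ∀ (hi : i + k ≤ m) (hj : j + k ≤ m),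
      d ⟨i + k, by omega⟩ ⟨j + k, by omega⟩ = d ⟨i, by omega⟩ ⟨j, by omega⟩ := fun k i j => by
    induction k with
    | zero => exact fun _ _ => rfl
    | succ k ih => exact fun hi hj => ((h5 ⟨i + k, by omega⟩ ⟨j + k, by omega⟩).trans
        (h4 _ _).symm).trans (ih (by omega) (by omega))
  have h7 : d = d 0 0 • 1 := by
    ext ⟨i, hi⟩ ⟨j, hj⟩
    rcases lt_trichotomy i j with h | rfl | h
    · obtain ⟨j, rfl⟩ : ∃ k, j = k + 1 + i := ⟨j - i - 1, by omega⟩
      have := (h6 i 0 (j + 1) (by omega) (by omega)).trans (hY 0 ⟨j, by omega⟩)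
      simpa [one_apply, h.ne] using this
    · simpa using h6 i 0 0 (by omega) (by omega)
    · have := (h6 (m - i) i j (by omega) (by omega)).symm.trans (hX _ ⟨j + (m - i), by omega⟩)
      rw [this, Finset.sum_eq_zero fun k _ => if_neg (by have := k.2; simp; omega)]
      simp [one_apply, h.ne']
  refine ⟨d 0 0, ?_⟩
  rw [← fromBlocks_one, fromBlocks_smul, ← h7, show a = d 0 0 • 1 from ?_]; simp
  ext i j; rw [← h4, h7]; simp [one_apply]

/-- the representation -/
def rho {m : ℕ} (hm : Odd m) : HH R →* Matrix.SpecialLinearGroup (Fin (m + (m + 1))) R :=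
  MonoidHom.mk' (fun a => ⟨reindex finSumFinEquiv finSumFinEquiv (BB m a), by simp [BB_det hm]⟩)
    fun a b => Subtype.ext ((congrArg (reindex finSumFinEquiv finSumFinEquiv) (BB_mul m a b)).trans
      (submatrix_mul_equiv _ _ _ finSumFinEquiv.symm _).symm)

theorem rho_val {m : ℕ} (hm : Odd m) (a : HH R) :
    (rho hm a).1 = (BB m a).submatrix finSumFinEquiv.symm finSumFinEquiv.symm := rfl

theorem psl_eq {ι : Type*} [Fintype ι] [DecidableEq ι] {a b : Matrix.SpecialLinearGroup ι R}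
    (h : (a : Matrix.ProjectiveSpecialLinearGroup ι R) = b) : ∃ c : R, b.1 = c • a.1 := by
  obtain ⟨c, -, hc⟩ := Matrix.SpecialLinearGroup.mem_center_iff.1 (QuotientGroup.eq.1 h)
  refine ⟨c, ?_⟩
  conv_lhs => rw [← mul_inv_cancel_left a b, Matrix.SpecialLinearGroup.coe_mul, ← hc]
  simp [← Matrix.smul_one_eq_diagonal]

theorem comm_of_trace {ι : Type*} [Fintype ι] [DecidableEq ι] {a g : Matrix.SpecialLinearGroup ι R}
    (h : (a * g : Matrix.ProjectiveSpecialLinearGroup ι R) = g * a) (ha : a.1.trace ≠ 0) : g.1 * a.1 = a.1 * g.1 := by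
  obtain ⟨c, hc⟩ := psl_eq (a := a) (b := g * a * g⁻¹) (by simpa [eq_mul_inv_iff_mul_eq] using h)
  have h4 := congrArg Matrix.trace hc
  rw [Matrix.SpecialLinearGroup.coe_mul, Matrix.trace_mul_comm, ← Matrix.SpecialLinearGroup.coe_mul,
    inv_mul_cancel_left, Matrix.trace_smul, smul_eq_mul, eq_comm, mul_eq_right₀ ha] at h4
  rw [h4, one_smul] at hc
  have h5 : g * a = a * g := mul_inv_eq_iff_eq_mul.1 (Subtype.ext hc)
  exact congrArg Subtype.val h5

end H22.Kron
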