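import Cfsg.Agent.H26.O7A
import Cfsg.Agent.H11.O7a
import Cfsg.Agent.H8.EAG2b
import Cfsg.Agent.H11.SL
import Cfsg.Agent.H1.Layer

/-! S5815: the automorphism group of the octonions is generated by any class of involutions. -/

set_option autoImplicit false

open Module QuadraticMap H12 Cfsg Subgroup H26.O7 H11.O7 H8 Matrix Cfsg.Lie
open scoped MatrixGroups
namespace H22.O7
universe u
variable {F : Type u} [Field F]

theorem zsq (x : S F) : zornMul x x = (x 0 + x 7) • x - Nm F x • oneZ F := by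
  apply fin8_ext <;> simp [zornMul_eq, oneZ, Nm_apply] <;> ring

theorem aut_inv (g : autZ F) (x : S F) : g.1 x 0 + g.1 x 7 = x 0 + x 7 ∧ Nm F (g.1 x) = Nm F x := by
  have h := autZ_mul g x x
  rw [zsq, zsq, map_sub, map_smul, map_smul, autZ_one] at h
  by_cases e : g.1 x 0 + g.1 x 7 = x 0 + x 7
  · exact ⟨e, by simpa [e, oneZ] using congrFun h.symm 0⟩
  have : g.1 x = ((Nm F (g.1 x) - Nm F x) / (g.1 x 0 + g.1 x 7 - (x 0 + x 7))) • oneZ F := by
    rw [div_eq_inv_mul, mul_smul, eq_inv_smul_iff₀ (sub_ne_zero.2 e)]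
    linear_combination (norm := module) -h
  rw [← autZ_one g, ← map_smul, g.1.injective.eq_iff] at this
  rw [this, map_smul, autZ_one]
  exact ⟨rfl, rfl⟩

/-- the vector of a traceless octonion -/
def un : S F →ₗ[F] V F where
  toFun s := Sum.elim (fun _ => s 0) (Sum.elim ![s 1, s 2, s 3] ![s 4, s 5, s 6])
  map_add' a b := by ext (_ | i | i) <;> [rfl; fin_cases i <;> rfl; fin_cases i <;> rfl]
  map_smul' a b := by ext (_ | i | i) <;> [rfl; fin_cases i <;> rfl; fin_cases i <;> rfl]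

theorem emb_un {s : S F} (h : s 0 + s 7 = 0) : emb (un s) = s :=
  fin8_ext rfl rfl rfl rfl rfl rfl rfl (neg_eq_of_add_eq_zero_right h)

theorem un_emb (x : V F) : un (emb x) = x := by ext (_ | i | i) <;> [rfl; fin_cases i <;> rfl; fin_cases i <;> rfl]

theorem emb_aut (g : autZ F) (x : V F) : emb (un (g.1 (emb x))) = g.1 (emb x) :=
  emb_un ((aut_inv g _).1.trans (add_neg_cancel _))

/-- the action on traceless octonions -/
def gz0 : autZ F →* End F (V F) where
  toFun g := un ∘ₗ g.1.toLinearMap ∘ₗ L.flip (oneZ F)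
  map_one' := LinearMap.ext fun x => by simp [L_one, un_emb]
  map_mul' g h := LinearMap.ext fun x => by simp [L_one, emb_aut]

/-- the action on traceless octonions -/
noncomputable def gz : autZ F →* Au F (V F) :=
  (LinearMap.GeneralLinearGroup.generalLinearEquiv F _).toMonoidHom.comp gz0.toHomUnits

theorem emb_gz (g : autZ F) (x : V F) : emb (gz g x) = g.1 (emb x) := by
  rw [← emb_aut, ← L_one x]; rfl

theorem lift_gz (g : autZ F) : Lift (gz g) g.1 :=
  ⟨fun x s => by rw [H26.O7.L_apply, H26.O7.L_apply, emb_gz, autZ_mul], fun s => (aut_inv g s).2⟩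

theorem Nm_emb (x : V F) : Nm F (emb x) = -Q F x := by rw [← L_one, Nm_L, Nm_one, mul_one]

theorem gz_orth (g : autZ F) : gz g ∈ orth (Q F) :=
  mem_orth.2 fun x => neg_injective (by rw [← Nm_emb, ← Nm_emb, emb_gz, (aut_inv g _).2])

theorem dec1 (h2 : (2 : F) ≠ 0) (s : S F) : ∃ (c : F) (x : V F), s = c • oneZ F + emb x :=
  ⟨(s 0 + s 7) / 2, un (s - ((s 0 + s 7) / 2) • oneZ F), by
    rw [emb_un (by simp [oneZ]; field_simp; ring), add_sub_cancel]⟩

theorem gz_inj (h2 : (2 : F) ≠ 0) : Function.Injective (gz (F := F)) := (injective_iff_map_eq_one _).2 fun g h =>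
  Subtype.ext (LinearEquiv.ext fun s => by
    obtain ⟨c, x, rfl⟩ := dec1 h2 s
    rw [map_add, map_smul, autZ_one, ← emb_gz, h]; rfl)

theorem ex_idem [Finite F] (h2 : (2 : F) ≠ 0) {t : autZ F} (ht : t * t = 1) : ∃ x, Idem x ∧ t.1 x = x := by
  have e : ∀ x, gz t (gz t x) = x := fun x => by rw [← LinearEquiv.mul_apply, ← map_mul, ht, map_one]; rfl
  have r : rk (gz t) ≤ 4 := by
    by_cases h : Ng (gz t) = ⊥
    · rw [← finrank_Ng h2 e, h, finrank_bot]; omega
    obtain ⟨a, ha, qa⟩ := exists_nonsingular (nd_Ng' h2 (Q_nd h2) (gz_orth t) e) h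
    have := rk_anti h2 (b := t.1) (fun s => congrArg (fun g : autZ F => g.1 s) ht) (L_inj qa) fun s => by
      rw [(lift_gz t).1, mem_Ng.1 ha, map_neg, LinearMap.neg_apply]
    rw [finrank_S] at this
    refine le_trans ((Submodule.equivMapOfInjective (L.flip (oneZ F)) (fun x y e => emb_inj (by
      simpa [L_one] using e)) _).finrank_eq.le.trans (Submodule.finrank_mono ?_)) (by omega : rk t.1 ≤ 4)
    rintro _ ⟨_, ⟨x, rfl⟩, rfl⟩
    exact ⟨emb x, by simp [L_one, emb_gz]⟩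
  have := rk_add_fix (gz t)
  rw [finrank_V] at this
  obtain ⟨x, hx, qx⟩ := exists_Q_eq_of_nondegOn (Q_nd h2) (nd_fix' h2 (Q_nd h2) (gz_orth t) e) (by omega) one_ne_zero
  refine ⟨(2⁻¹ : F) • (oneZ F + emb x), ⟨?_, ?_⟩, by rw [map_smul, map_add, autZ_one, ← emb_gz, mem_fix.1 hx]⟩
  · simp [oneZ, emb]; field_simp; ring
  · rw [Q_apply] at qx
    simp [oneZ, emb]; field_simp; linear_combination -qx

/-- block matrices -/
def slL (A B : Matrix (Fin 3) (Fin 3) F) : S F →ₗ[F] S F where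
  toFun x := ![x 0, A 0 0 * x 1 + A 0 1 * x 2 + A 0 2 * x 3, A 1 0 * x 1 + A 1 1 * x 2 + A 1 2 * x 3,
    A 2 0 * x 1 + A 2 1 * x 2 + A 2 2 * x 3, B 0 0 * x 4 + B 1 0 * x 5 + B 2 0 * x 6,
    B 0 1 * x 4 + B 1 1 * x 5 + B 2 1 * x 6, B 0 2 * x 4 + B 1 2 * x 5 + B 2 2 * x 6, x 7]
  map_add' x y := by apply fin8_ext <;> simp <;> ring
  map_smul' c x := by apply fin8_ext <;> simp <;> ring

theorem slL_apply (A B : Matrix (Fin 3) (Fin 3) F) (x : S F) : slL A B x =
  ![x 0, A 0 0 * x 1 + A 0 1 * x 2 + A 0 2 * x 3, A 1 0 * x 1 + A 1 1 * x 2 + A 1 2 * x 3,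
    A 2 0 * x 1 + A 2 1 * x 2 + A 2 2 * x 3, B 0 0 * x 4 + B 1 0 * x 5 + B 2 0 * x 6,
    B 0 1 * x 4 + B 1 1 * x 5 + B 2 1 * x 6, B 0 2 * x 4 + B 1 2 * x 5 + B 2 2 * x 6, x 7] := rfl

/-- `SL₃` acting on the octonions -/
def sl0 : SL(3, F) →* End F (S F) where
  toFun A := slL A.1 (A⁻¹).1
  map_one' := LinearMap.ext fun x => by apply fin8_ext <;> simp [slL_apply]
  map_mul' A B := LinearMap.ext fun x => by
    rw [_root_.mul_inv_rev]
    change slL (A.1 * B.1) ((B⁻¹).1 * (A⁻¹).1) x = _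
    apply fin8_ext <;> simp only [End.mul_apply, slL_apply, mul_apply, Fin.sum_univ_three, cons_val] <;> ring

theorem sl0_apply (A : SL(3, F)) (x : S F) : sl0 A x = slL A.1 (adjugate A.1) x := rfl

/-- `SL₃` in `G₂` -/
noncomputable def sl : SL(3, F) →* autZ F :=
  ((LinearMap.GeneralLinearGroup.generalLinearEquiv F _).toMonoidHom.comp sl0.toHomUnits).codRestrict _
    fun A x y => by
      change sl0 A _ = zornMul (sl0 A x) (sl0 A y)
      have d := A.2
      rw [det_fin_three] at d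
      apply fin8_ext <;> simp [sl0_apply, slL_apply, zornMul_eq, adjugate_fin_three] <;> grind

theorem sl_apply (A : SL(3, F)) (x : S F) : (sl A).1 x = slL A.1 (adjugate A.1) x := rfl

theorem stab_sl {g : autZ F} (h : g.1 (e0 F) = e0 F) : ∃ A, g = sl A := by
  have k : ∀ A, (sl A).1 (e0 F) = e0 F := fun A => by apply fin8_ext <;> simp [sl_apply, slL_apply, e0]
  refine ⟨stabSL F ⟨g, h⟩, congrArg Subtype.val (stabSL_inj (a₁ := ⟨g, h⟩) (a₂ := ⟨_, k _⟩) ?_)⟩
  generalize stabSL F ⟨g, h⟩ = A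
  refine Subtype.ext (Matrix.ext fun i j => ?_)
  change _ = pr3 ((sl A).1 (in3 (Pi.single j 1))) i
  fin_cases i <;> fin_cases j <;> simp [sl_apply, slL_apply, pr3_apply, in3_apply]

theorem sl_xv (A : SL(3, F)) (v : Fin 3 → F) : sl A * xv v = xv (A.1 *ᵥ v) * sl A :=
  Subtype.ext (LinearEquiv.ext fun x => by
    change (sl A).1 (xvL v x) = xvL _ ((sl A).1 x)
    have d := A.2
    rw [det_fin_three] at d
    apply fin8_ext <;> simp [sl_apply, slL_apply, xvL_apply, adjugate_fin_three, mulVec, dotProduct,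
      Fin.sum_univ_three] <;> grind)

theorem tr_idem {N : Subgroup (autZ F)} (h1 : ∀ v, xv v ∈ N) (h2 : sw F ∈ N) {x : S F} (h : Idem x) :
    ∃ g ∈ N, g.1 x = e0 F := by
  have h7 : ∀ x : S F, Idem x → x 7 = 0 → ∃ g ∈ N, g.1 x = e0 F := fun x hx h7 => by
    have h0 : x 0 = 1 := by simpa [h7] using hx.1
    have h : x 1 * x 4 + x 2 * x 5 + x 3 * x 6 = 0 := by simpa [h7] using hx.2.symm
    refine ⟨sw F * xv ![-x 4, -x 5, -x 6] * sw F * xv ![-x 1, -x 2, -x 3],
      mul_mem (mul_mem (mul_mem h2 (h1 _)) h2) (h1 _), ?_⟩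
    change swL (xvL _ (swL (xvL _ x))) = _
    have e1 : xvL ![-x 1, -x 2, -x 3] x = ![1, 0, 0, 0, x 4, x 5, x 6, 0] := by
      apply fin8_ext <;> simp [xvL_apply, h0, h7] <;> grind
    rw [e1]
    apply fin8_ext <;> simp [xvL_apply, swL_apply, e0] <;> ring
  have hs : ∀ g ∈ N, (g.1 x) 7 = 0 → ∃ g ∈ N, g.1 x = e0 F := fun g hg e =>
    let ⟨k, hk, e'⟩ := h7 _ (idem_smul g h) e; ⟨k * g, mul_mem hk hg, e'⟩
  by_cases h4 : x 4 = 0
  · by_cases h5 : x 5 = 0
    · by_cases h6 : x 6 = 0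
      · have := h.2
        simp only [h4, h5, h6, mul_zero, add_zero, mul_eq_zero] at this
        exact this.elim (hs _ h2) (h7 x h)
      · exact hs _ (h1 ![0, 0, -x 7 / x 6]) (show xvL _ x 7 = 0 by simp [xvL_apply]; field_simp; ring)
    · exact hs _ (h1 ![0, -x 7 / x 5, 0]) (show xvL _ x 7 = 0 by simp [xvL_apply]; field_simp; ring)
  · exact hs _ (h1 ![-x 7 / x 4, 0, 0]) (show xvL _ x 7 = 0 by simp [xvL_apply]; field_simp; ring)

theorem inv_conj [Finite F] (h2 : (2 : F) ≠ 0) {t : autZ F} (ht : t * t = 1) : ∃ k A, k * t * k⁻¹ = sl A := by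
  obtain ⟨x, hx, e⟩ := ex_idem h2 ht
  obtain ⟨k, -, hk⟩ := tr_idem (N := ⊤) (fun _ => trivial) trivial hx
  refine ⟨k, stab_sl ?_⟩
  change k.1 (t.1 (k.1.symm _)) = _
  rw [← hk, LinearEquiv.symm_apply_apply, e]

theorem top_of [Finite F] (h2 : (2 : F) ≠ 0) {N : Subgroup (autZ F)} (hN : N.Normal) (h : ∀ A, sl A ∈ N) :
    N = ⊤ := by
  have a : sw F ∈ N := by
    obtain ⟨k, A, e⟩ := inv_conj h2 (t := sw F) (Subtype.ext (LinearEquiv.ext swL_swL))
    have := hN.conj_mem _ (e ▸ h A) k⁻¹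
    rwa [show k⁻¹ * (k * sw F * k⁻¹) * k⁻¹⁻¹ = sw F by group] at this
  have b : ∀ v, xv v ∈ N := fun v => by
    obtain ⟨w, rfl⟩ : ∃ w : Fin 3 → F, v = -w + -w := ⟨(-2⁻¹ : F) • v, by ext; simp; field_simp; ring⟩
    obtain ⟨A, hA⟩ : ∃ A : SL(3, F), A.1 *ᵥ w = -w := by
      by_cases h0 : w 0 = 0
      · exact ⟨⟨!![1, 0, 0; 0, -1, 0; 0, 0, -1], by simp [det_fin_three]⟩, by
          ext i; fin_cases i <;> simp [mulVec, dotProduct, Fin.sum_univ_three, h0]⟩
      · exact ⟨⟨!![-1, 0, 0; -2 * w 1 / w 0, 1, 0; 0, 0, -1], by simp [det_fin_three]⟩, by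
          ext i; fin_cases i <;> simp [mulVec, dotProduct, Fin.sum_univ_three]; field_simp; ring⟩
    have e1 : xv w * xv (-w) = 1 := Subtype.ext (LinearEquiv.ext (xvL_neg w))
    have e2 : xv (-w + -w) = xv (-w) * xv (-w) := Subtype.ext (LinearEquiv.ext fun x => by
      change xvL _ x = xvL _ (xvL _ x)
      apply fin8_ext <;> simp [xvL_apply] <;> ring)
    have := mul_mem (h A) (hN.conj_mem _ (inv_mem (h A)) (xv w))
    rwa [← mul_assoc, ← mul_assoc, sl_xv, hA, mul_inv_cancel_right, inv_eq_of_mul_eq_one_right e1, ← e2] at this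
  refine eq_top_iff.2 fun g _ => ?_
  obtain ⟨k, hk, e⟩ := tr_idem b a (idem_smul g (x := e0 F) (by simp [Idem, e0]))
  obtain ⟨A, hA⟩ := stab_sl (g := k * g) e
  exact (mul_mem_cancel_left hk).1 (hA ▸ h A)

theorem g2s' [Finite F] (h2 : (2 : F) ≠ 0) : commutator (autZ F) = ⊤ ∧
    ∀ N : Subgroup (autZ F), N.Normal → ∀ t ∈ N, t * t = 1 → t ≠ 1 → N = ⊤ := by
  have p := H11.sl_commutator_eq_top (F := F) (ι := Fin 3) (by simp)
  refine ⟨top_of h2 inferInstance fun A => ?_, fun N hN t ht t2 t1 => top_of h2 hN fun A => ?_⟩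
  · have : sl A ∈ (commutator SL(3, F)).map sl := mem_map_of_mem _ (p ▸ mem_top A)
    rw [_root_.commutator_def, map_commutator] at this
    exact commutator_mono le_top le_top this
  obtain ⟨k, B, e⟩ := inv_conj h2 t2
  have hB : B ∈ N.comap sl := by rw [mem_comap, ← e]; exact hN.conj_mem _ ht k
  rcases (H1.isQuasisimple_iff.1 ⟨⟨p⟩, H11.psl_simple_of_perfect p⟩).2.2 (N.comap sl) (hN.comap _) with h | h
  · exact mem_comap.1 (h ▸ mem_top A)
  obtain ⟨r, r3, hr⟩ := Matrix.SpecialLinearGroup.mem_center_iff.1 (h hB)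
  have e2 : sl B * sl B = 1 := by rw [← e, show k * t * k⁻¹ * (k * t * k⁻¹) = k * (t * t) * k⁻¹ by group, t2]; simp
  have := congrArg (fun g : autZ F => g.1 (Pi.single 1 1) 1) e2
  simp [sl_apply, slL_apply, ← hr] at this
  obtain rfl : r = 1 := by simp only [Fintype.card_fin] at r3; linear_combination r3 - r * this
  rw [show B = 1 from Subtype.ext (by simpa using hr.symm), map_one] at e
  exact absurd (by simpa using e) t1

theorem g2s : G2S.{u} := fun F _ _ h => g2s' fun e => by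
  have : CharP F 2 := (CharP.charP_iff_prime_eq_zero Nat.prime_two).2 e
  exact Nat.not_odd_iff.2 (FiniteField.even_card_iff_char_two.1 (ringChar.eq F 2)) h

end H22.O7
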