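import Cfsg.Agent.H22.O7B
import Cfsg.Agent.S0205

/-! S5815: groups fixing a spinor. -/

set_option autoImplicit false

open Module QuadraticMap H12 Cfsg Subgroup H26.O7 H11.O7 H8 Matrix Cfsg.Lie
namespace H22.O7
universe u v

section
variable {K : Type u} [Field K] {G : Type v} [Group G] {R : Rp K G}

theorem L_left (h2 : (2 : K) ≠ 0) {s : S K} (hs : Nm K s ≠ 0) {x : V K} (h : L x s = 0) : x = 0 :=
  Q_nd h2 x fun y => by
    have := polar_LL x y s
    rw [h, polar_zero_left, eq_comm, mul_eq_zero, neg_eq_zero] at this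
    exact this.resolve_right hs

theorem ns_of (hi : R.Irr) {s : S K} (s0 : s ≠ 0) (h : ∀ g, g ∈ R.Fx s) : Nm K s ≠ 0 := fun e => by
  rcases hi (LinearMap.ker (L.flip s)) (fun g x hx => by
    obtain ⟨b, h1, h2⟩ := h g
    change L _ s = 0
    rw [← h2, ← h1.1, show L x s = 0 from hx, map_zero]) with k | k
  · have := two_mul_finrank_le_of_singular Nm_nd (W := LinearMap.range (L.flip s)) (by
      rintro _ ⟨x, rfl⟩
      rw [LinearMap.flip_apply, Nm_L, e, mul_zero])
    rw [LinearMap.finrank_range_of_inj (LinearMap.ker_eq_bot.1 k), finrank_V, finrank_S] at this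
    omega
  · have a : L (Pi.single (.inl ()) 1 : V K) s = 0 := (k ▸ trivial : _ ∈ LinearMap.ker (L.flip s))
    have := L_L (Pi.single (.inl ()) 1 : V K) s
    rw [a, map_zero, Q_apply] at this
    exact s0 (by simpa using this.symm)

theorem decS (h2 : (2 : K) ≠ 0) {s : S K} (hs : Nm K s ≠ 0) (t : S K) : ∃ (c : K) (x : V K), t = c • s + L x s := by
  have := (LinearMap.injective_iff_surjective_of_finrank_eq_finrank (f := (LinearMap.toSpanSingleton K _ s).coprod
    (L.flip s)) (by simp)).1 ((injective_iff_map_eq_zero _).2 fun ⟨c, x⟩ e => by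
      replace e : c • s + L x s = 0 := e
      have := congrArg (polar (Nm K) · s) e
      simp only [polar_add_left, polar_L_self, polar_smul_left, polar_self', polar_zero_left, smul_eq_mul, add_zero,
        mul_eq_zero, h2, hs, or_false] at this
      rw [this, zero_smul, zero_add] at e
      rw [this, L_left h2 hs e]; rfl) t
  obtain ⟨⟨c, x⟩, e⟩ := this
  exact ⟨c, x, e.symm⟩

theorem line (hp : commutator G = ⊤) (hi : R.Irr) {s t : S K} (hs : Nm K s ≠ 0) (h : ∀ g, g ∈ R.Fx s)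
    (h' : ∀ g, g ∈ R.Fx t) : ∃ c : K, t = c • s := by
  let T : Subgroup G :=
    { carrier := {g | ∃ b, Lift (R.ρ g) b ∧ b s = s ∧ b t = t}
      one_mem' := ⟨1, by rw [map_one]; exact lift_one, rfl, rfl⟩
      mul_mem' := by
        rintro g h ⟨b, h1, h2, h2'⟩ ⟨c, h3, h4, h4'⟩
        exact ⟨b * c, by rw [map_mul]; exact h1.mul h3, (congrArg b h4).trans h2, (congrArg b h4').trans h2'⟩
      inv_mem' := by
        rintro g ⟨b, h1, h2, h3⟩
        exact ⟨b⁻¹, by rw [map_inv]; exact h1.inv, b.symm_apply_eq.2 h2.symm, b.symm_apply_eq.2 h3.symm⟩ }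
  have sq : ∀ g, g * g ∈ T := fun g => by
    obtain ⟨b, h1, h2⟩ := h g
    obtain ⟨c, h3, h4⟩ := h' g
    refine ⟨b * b, by rw [map_mul]; exact h1.mul h1, (congrArg b h2).trans h2, ?_⟩
    rcases lift_uniq R.two h3 h1 with rfl | rfl
    · exact (congrArg b h4).trans h4
    · change -c (-c t) = t
      rw [map_neg, neg_neg, h4, h4]
  have top : ⊤ ≤ T := hp ▸ commutator_le.2 fun x _ y _ => by
    rw [commutatorElement_def, show x * y * x⁻¹ * y⁻¹ = x * x * (x⁻¹ * y * (x⁻¹ * y)) * (y⁻¹ * y⁻¹) by group]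
    exact mul_mem (mul_mem (sq _) (sq _)) (sq _)
  obtain ⟨c, x, rfl⟩ := decS R.two hs t
  suffices x = 0 from ⟨c, by rw [this, map_zero, LinearMap.zero_apply, add_zero]⟩
  refine hi.fixed fun g => ?_
  obtain ⟨b, h1, h2, h3⟩ := top (mem_top g)
  rw [map_add, map_smul, h1.1, h2, add_right_inj, ← sub_eq_zero, ← LinearMap.sub_apply, ← map_sub] at h3
  exact sub_eq_zero.1 (L_left R.two hs h3)

theorem om_of {f : G →* Au K (V K)} (h : ∀ g, f g ∈ orth (Q K)) (hp : commutator G = ⊤) (g : G) :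
    f g ∈ OmegaV (Q K) := by
  have : f.codRestrict _ h g ∈ (commutator G).map (f.codRestrict _ h) := mem_map_of_mem _ (hp ▸ mem_top g)
  rw [_root_.commutator_def, map_commutator] at this
  exact (mem_OmegaV (g := ⟨_, h g⟩)).2 (commutator_mono le_top le_top this)

end

theorem kl1 : KL1.{u} := fun F _ _ G _ R R' hb hp hi ⟨s, s0, hs⟩ => by
  let K := AlgebraicClosure F
  let φ := algebraMap F K
  obtain ⟨i, hi0⟩ := Function.ne_iff.1 s0
  obtain ⟨l, hl⟩ := Module.Projective.exists_dual_ne_zero F hi0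
  have mL : ∀ (x : V F) (t : S F), L (φ ∘ x) (φ ∘ t) = φ ∘ L x t := fun x t => by
    refine fin8_ext ?_ ?_ ?_ ?_ ?_ ?_ ?_ ?_ <;> simp [H26.O7.L_apply, zm0, zm1, zm2, zm3, zm4, zm5, zm6, zm7, -neg_mul] <;>
      simp
  have mN : ∀ t : S F, Nm K (φ ∘ t) = φ (Nm F t) := fun t => by simp [Nm_apply]
  have key : ∀ g, ∃ b₀ b, Lift (R.ρ g) b₀ ∧ Lift (R'.ρ g) b ∧ b₀ (l ∘ s) = l ∘ s ∧ ∀ t, b (φ ∘ t) = φ ∘ b₀ t := by
    intro g
    obtain ⟨b₀, h0⟩ := lift_om R.two (om_of R.iso hp g)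
    obtain ⟨b, h1, h2⟩ := hs g
    set A := LinearMap.toMatrix' b₀.toLinearMap
    have eA : ∀ t, b₀ t = A *ᵥ t := fun t => by simp [A]
    have e1 : ∀ t, toLin' (A.map φ) (φ ∘ t) = φ ∘ b₀ t := fun t => funext fun j => by
      rw [toLin'_apply, eA, ← RingHom.map_mulVec]; rfl
    have e2 : ∀ t : S K, l ∘ toLin' (A.map φ) t = b₀ (l ∘ t) := fun t => funext fun j => by
      simp [eA, mulVec, dotProduct, φ, ← Algebra.smul_def]
    have sg : ∀ {κ : Type} [DecidableEq κ] (i : κ), (Pi.single i 1 : κ → K) = φ ∘ Pi.single i 1 := fun i =>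
      funext fun j => by by_cases h : j = i <;> simp [h]
    have e3 : L.compr₂ (toLin' (A.map φ)) = (L ∘ₗ (R'.ρ g).toLinearMap).compl₂ (toLin' (A.map φ)) :=
      LinearMap.ext_basis (Pi.basisFun K _) (Pi.basisFun K _) fun i j => by
        simp only [Pi.basisFun_apply, LinearMap.compr₂_apply, LinearMap.compl₂_apply, LinearMap.comp_apply]
        rw [sg i, sg j, mL, e1, e1, h0.1, ← mL]
        exact congrArg (L · _) (hb g _).symm
    obtain ⟨c, hc⟩ := comm_scalar R'.two (b⁻¹.toLinearMap ∘ₗ toLin' (A.map φ)) fun x t => by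
      have : toLin' (A.map φ) (L x t) = L (R'.ρ g x) (toLin' (A.map φ) t) := congr($e3 x t)
      simp only [LinearMap.comp_apply, LinearEquiv.coe_coe, this, h1.inv.1, inv_apply_apply]
    have e4 : ∀ t, toLin' (A.map φ) t = c • b t := fun t => by
      rw [← map_smul, ← hc]; exact (b.apply_symm_apply _).symm
    have := mN (b₀ (oneZ F))
    rw [← e1, e4, Q_smul, h1.2, mN, h0.2, Nm_one, map_one, mul_one, mul_self_eq_one_iff] at this
    rcases this with rfl | rfl
    · exact ⟨b₀, b, h0, h1, by rw [← e2, e4, one_smul, h2], fun t => by rw [← e1, e4, one_smul]⟩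
    · refine ⟨_, b, h0.neg, h1, ?_, fun t => ?_⟩
      · change -b₀ _ = _
        rw [← e2, e4, h2]
        ext; simp
      · change _ = φ ∘ (-b₀ t)
        rw [← map_neg, ← e1, e4, show φ ∘ (-t) = -(φ ∘ t) by ext; simp, map_neg, neg_one_smul, neg_neg]
  refine ⟨l ∘ s, fun e => ns_of hi (s := φ ∘ l ∘ s) (fun e => hl (φ.injective ((congrFun e i).trans
    (map_zero φ).symm))) (fun g => ?_) (by rw [mN, e, map_zero]), fun g => ?_⟩ <;> obtain ⟨b₀, b, h0, h1, h2, h3⟩ := key g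
  exacts [⟨b, h1, by rw [h3, h2]⟩, ⟨b₀, h0, h2⟩]

section
variable {F : Type u} [Field F]

/-- similarities -/
def Sm (γ : Au F (V F)) (β : Au F (S F)) : Prop :=
  (∀ x t, β (L x t) = L (γ x) (β t)) ∧ ∃ μ, μ ≠ 0 ∧ ∀ t, Nm F (β t) = μ * Nm F t

theorem Sm.inv {γ : Au F (V F)} {β : Au F (S F)} (h : Sm γ β) : Sm γ⁻¹ β⁻¹ :=
  ⟨fun x s => β.injective (by rw [h.1, apply_inv_apply, apply_inv_apply, apply_inv_apply]), by
    obtain ⟨μ, m0, hm⟩ := h.2
    exact ⟨μ⁻¹, inv_ne_zero m0, fun t => by rw [eq_inv_mul_iff_mul_eq₀ m0, ← hm, apply_inv_apply]⟩⟩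

theorem Sm.cj {γ g : Au F (V F)} {β b : Au F (S F)} (h : Sm γ β) (k : Lift g b) :
    Lift (γ * g * γ⁻¹) (β * b * β⁻¹) :=
  ⟨fun x s => by simp only [LinearEquiv.mul_apply, h.inv.1, k.1, h.1], fun s => by
    obtain ⟨μ, -, hm⟩ := h.2
    rw [LinearEquiv.mul_apply, LinearEquiv.mul_apply, hm, k.2, ← hm, apply_inv_apply]⟩

theorem LL {a y : V F} (ha : Q F a ≠ 0) (hy : Q F y ≠ 0) (x : V F) (t : S F) :
    (Le ha * Le hy) (L x t) = L ((refl (Q F) a * refl (Q F) y).1 x) ((Le ha * Le hy) t) := by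
  change L a (L y (L x t)) = L ((refl (Q F) a).1 ((refl (Q F) y).1 x)) (L a (L y t))
  rw [L_refl hy, L_refl ha, map_neg, map_neg, map_neg, neg_neg]

theorem NN {a y : V F} (ha : Q F a ≠ 0) (hy : Q F y ≠ 0) (t : S F) :
    Nm F ((Le ha * Le hy) t) = Q F a * Q F y * Nm F t := by
  change Nm F (L a (L y t)) = _
  rw [Nm_L, Nm_L]; ring

theorem ex_sm (h2 : (2 : F) ≠ 0) {s : S F} (hs : Nm F s ≠ 0) :
    ∃ γ ∈ orth (Q F), ∃ β, Sm γ β ∧ ∃ c : F, c ≠ 0 ∧ β (oneZ F) = c • s := by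
  let τ : V F →ₗ[F] F := (LinearMap.proj (R := F) (φ := fun _ : Fin 8 => F) 0 + LinearMap.proj 7) ∘ₗ L.flip s
  obtain ⟨a, ha, qa⟩ : ∃ a ∈ LinearMap.ker τ, Q F a ≠ 0 := by
    by_contra! k
    have := two_mul_finrank_le_of_singular (Q_nd h2) k
    have := τ.finrank_range_add_finrank_ker
    have := (LinearMap.range τ).finrank_le
    rw [finrank_V, finrank_self] at *
    omega
  have e : emb (un (L a s)) = L a s := emb_un ha
  have qy : Q F (un (L a s)) ≠ 0 := fun k => by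
    have := Nm_emb (un (L a s))
    rw [e, Nm_L, k] at this
    simp [qa, hs, -H11.coe_qOdd] at this
  refine ⟨_, (refl (Q F) a * refl (Q F) _).2, Le qa * Le qy, ⟨LL qa qy, _, mul_ne_zero qa qy, NN qa qy⟩, _, qa, ?_⟩
  change L a (L _ _) = _
  rw [L_one, e, L_L]

theorem aut_of (h2 : (2 : F) ≠ 0) {g : Au F (V F)} {b : Au F (S F)} (h : Lift g b) (e : b (oneZ F) = oneZ F) :
    b ∈ autZ F := fun x y => by
  obtain ⟨c, x, rfl⟩ := dec1 h2 x
  have k : ∀ (x : V F) y, zornMul (c • oneZ F + emb x) y = c • y + L x y := fun x y => by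
    rw [H26.O7.L_apply]
    generalize emb x = z
    apply fin8_ext <;> simp only [zornMul_eq, oneZ, Pi.add_apply, Pi.smul_apply, smul_eq_mul, cons_val] <;> ring
  rw [k, map_add, map_add, map_smul, map_smul, e, ← L_one, h.1, h.1, e, L_one, k]

end

theorem kl2 (bc : BC.{u, u}) : KL2.{u} := fun F _ _ H P h s hs hP => by
  obtain ⟨hi, hsim, hna, -⟩ := (bc F F).2 H P h
  replace hi := hi h.rp fun _ _ => rfl
  have h2 := h.two
  have hp : commutator P = ⊤ := map_injective P.subtype_injective (by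
    rw [map_subtype_commutator, h.core.perfect, ← MonoidHom.range_eq_map, range_subtype])
  obtain ⟨γ, hγ, β, hβ, c, c0, hc⟩ := ex_sm h2 hs
  let ψ : autZ F →* GL ι F := (glEquiv ι F).symm.toMonoidHom.comp ((MulAut.conj γ).toMonoidHom.comp gz)
  have eψ : ∀ θ, glEquiv ι F (ψ θ) = γ * gz θ * γ⁻¹ := fun θ => (glEquiv ι F).apply_symm_apply _
  have iψ : Function.Injective ψ := (glEquiv ι F).symm.injective.comp ((MulAut.conj γ).injective.comp (gz_inj h2))
  have a1 : ∀ g b, Lift (glEquiv ι F g) b → b s = s → g ∈ ψ.range := fun g b h1 e => by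
    have k := hβ.inv.cj h1
    have k' := aut_of h2 k (by rw [inv_inv, LinearEquiv.mul_apply, LinearEquiv.mul_apply, hc, map_smul, e, ← hc,
      inv_apply_apply])
    refine ⟨⟨_, k'⟩, (glEquiv ι F).injective ?_⟩
    rw [eψ, (lift_gz ⟨_, k'⟩).eq k]; group
  have a2 : ∀ θ, ∃ b, Lift (glEquiv ι F (ψ θ)) b ∧ b s = s := fun θ =>
    ⟨_, eψ θ ▸ hβ.cj (lift_gz θ), smul_right_injective _ c0 (by
      dsimp only
      rw [← map_smul, ← hc, LinearEquiv.mul_apply, LinearEquiv.mul_apply, inv_apply_apply, autZ_one])⟩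
  have a3 : H ≤ ψ.range := fun g hg => by
    obtain ⟨b, hb⟩ := lift_om h2 (h.om hg)
    obtain ⟨d, hd⟩ := line hp hi hs hP (t := b s) fun p => by
      obtain ⟨e, e1, e2⟩ := hP ⟨g⁻¹ * p * g, by simpa using h.core.normal _ (inv_mem hg) _ p.2⟩
      refine ⟨b * e * b⁻¹, ?_, by rw [LinearEquiv.mul_apply, LinearEquiv.mul_apply, inv_apply_apply, e2]⟩
      convert (hb.mul e1).mul hb.inv using 1
      change glEquiv ι F p = _ * glEquiv ι F (g⁻¹ * p * g) * _
      rw [map_mul, map_mul, map_inv]; group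
    have := hb.2 s
    rw [hd, Q_smul, mul_eq_right₀ hs, mul_self_eq_one_iff] at this
    rcases this with rfl | rfl
    · exact a1 g b hb (by rw [hd, one_smul])
    · exact a1 g _ hb.neg (show -b s = s by rw [hd, neg_one_smul, neg_neg])
  have a4 : ψ.range ≤ Geo.omegaGL (quadFormOdd 3 F) := by
    rintro _ ⟨θ, rfl⟩
    rw [← H11.coe_qOdd, omegaGL_eq]
    exact om_of (f := (glEquiv ι F).toMonoidHom.comp ψ) (fun θ => (eψ θ).symm ▸
      mul_mem (mul_mem hγ (gz_orth θ)) (inv_mem hγ)) (g2s' h2).1 θ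
  have a5 : ψ.range = H := (h.mx.2 _ a3 a4).resolve_right fun e => by
    let x : V F := Pi.single (.inl ()) 1
    let y : V F := Pi.single (.inr (.inl 0)) 1
    have qx : Q F x = 1 := by simp [x, Q_apply]
    have qy : Q F (x + y) = 1 := by simp [x, y, Q_apply]
    have nx := qx.trans_ne one_ne_zero
    have ny := qy.trans_ne one_ne_zero
    have : (glEquiv ι F).symm (refl (Q F) x * refl (Q F) (x + y)).1 ∈ ψ.range := by
      rw [e, ← H11.coe_qOdd, omegaGL_eq]
      change glEquiv ι F _ ∈ OmegaV (Q F)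
      rw [MulEquiv.apply_symm_apply]
      exact mem_OmegaV.2 (refl_mul_refl_mem_commutator (Q_nd h2) nx ny (by rw [qx, qy]; exact ⟨1, rfl⟩))
    obtain ⟨θ, e⟩ := this
    obtain ⟨b, b1, b2⟩ := a2 θ
    rw [e, MulEquiv.apply_symm_apply] at b1
    have k : ∀ d : F, L x (L (x + y) s) = d • s → False := fun d e => by
      have := congrArg (L x) e
      rw [L_L, qx, one_smul, map_smul, ← LinearMap.smul_apply, ← map_smul, ← sub_eq_zero, ← LinearMap.sub_apply,
        ← map_sub] at this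
      simpa [x, y] using congrFun (L_left h2 hs this) (.inr (.inl 0))
    rcases lift_uniq h2 b1 ⟨LL nx ny, fun t => by rw [NN, qx, qy, one_mul, one_mul]⟩ with e' | e'
    · exact k 1 ((congrArg (· s) e').trans (by rw [b2, one_smul]))
    · exact k (-1) ((congrArg (· s) e').trans (show -b s = _ by rw [b2, neg_one_smul]))
  have : Fact (Nat.Prime 2) := ⟨Nat.prime_two⟩
  obtain ⟨t, ht⟩ := exists_prime_orderOf_dvd_card' (G := P) 2 (even_iff_two_dvd.1 (Nat.not_odd_iff_even.1 fun o =>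
    (H1.Quasisimple.not_isSolvable (H1.isQuasisimple_of_isSimpleGroup hna)) (Cfsg.Agent.S0205.result o)))
  obtain ⟨θ, hθ⟩ := a3 (h.core.le t.2)
  have top := (g2s' h2).2 (P.comap ψ) ⟨fun n hn g => by
    rw [mem_comap, map_mul, map_mul, map_inv]; exact h.core.normal _ (a5 ▸ ⟨g, rfl⟩) _ hn⟩ θ
    (by rw [mem_comap, hθ]; exact t.2) (iψ (by
      rw [map_mul, map_one, hθ, ← _root_.sq, ← ht, ← coe_pow, pow_orderOf_eq_one, coe_one])) fun e => by
      rw [e, map_one, eq_comm, OneMemClass.coe_eq_one] at hθ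
      simp [hθ] at ht
  have a6 : P = ψ.range := le_antisymm (h.core.le.trans a3) (by
    rintro _ ⟨θ, rfl⟩; exact mem_comap.1 (top ▸ mem_top θ))
  exact ⟨(MulEquiv.subgroupCongr a6).trans ((MonoidHom.ofInjective iψ).symm.trans (g2Equiv F).symm)⟩

end H22.O7
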