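import Mathlib

/-! Shintani descent, abstractly. -/

set_option autoImplicit false

namespace H22.Shin

variable {X : Type*} [Group X] (σ : MulAut X)

theorem prod_range (a : X) (d : ℕ) :
    ((List.range d).map (fun i => (σ ^ i) (a * (σ a)⁻¹))).prod = a * ((σ ^ d) a)⁻¹ := by
  induction d with
  | zero => simp
  | succ d ih =>
    rw [List.range_succ, List.map_append, List.prod_append, ih]
    simp [pow_succ, mul_assoc]

theorem pow_comm (e : ℕ) (x : X) : (σ ^ e) (σ x) = σ ((σ ^ e) x) := by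
  rw [← MulAut.mul_apply, ← MulAut.mul_apply, ← pow_succ, pow_succ']

variable {σ}

theorem mem_fix {τ : MulAut X} {x : X} :
    x ∈ (MulEquiv.toMonoidHom τ).eqLocus (MonoidHom.id X) ↔ τ x = x := Iff.rfl

theorem fix_pow {x : X} (h : σ x = x) (e : ℕ) : (σ ^ e) x = x := by
  induction e with
  | zero => rfl
  | succ e ih => rw [pow_succ, MulAut.mul_apply, h, ih]

theorem fix_iff (e : ℕ) (a : X) :
    (σ ^ e) (a * (σ a)⁻¹) = a * (σ a)⁻¹ ↔ σ (((σ ^ e) a)⁻¹ * a) = ((σ ^ e) a)⁻¹ * a := by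
  rw [map_mul, map_inv, pow_comm, map_mul, map_inv]
  constructor <;> intro h
  · calc _ = ((σ ^ e) a)⁻¹ * ((σ ^ e) a * (σ ((σ ^ e) a))⁻¹) * σ a := by group
      _ = _ := by rw [h]; group
  · calc _ = (σ ^ e) a * ((σ ((σ ^ e) a))⁻¹ * σ a) * (σ a)⁻¹ := by group
      _ = _ := by rw [h]; group

theorem conj_iff (e : ℕ) (a b k : X) :
    ((σ ^ e) k = k ∧ b * (σ b)⁻¹ = k * (a * (σ a)⁻¹) * (σ k)⁻¹) ↔
      (σ (b⁻¹ * k * a) = b⁻¹ * k * a ∧
        ((σ ^ e) b)⁻¹ * b = (b⁻¹ * k * a) * (((σ ^ e) a)⁻¹ * a) * (b⁻¹ * k * a)⁻¹) := by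
  have h1 : b * (σ b)⁻¹ = k * (a * (σ a)⁻¹) * (σ k)⁻¹ ↔ σ (b⁻¹ * k * a) = b⁻¹ * k * a := by
    simp only [map_mul, map_inv]
    constructor <;> intro h
    · calc _ = b⁻¹ * (b * (σ b)⁻¹) * σ k * σ a := by group
        _ = _ := by rw [h]; group
    · calc _ = b * ((σ b)⁻¹ * σ k * σ a) * (σ a)⁻¹ * (σ k)⁻¹ := by group
        _ = _ := by rw [h]; group
  rw [h1, and_comm]
  refine and_congr_right fun h => ?_
  have h2 := fix_pow h e
  simp only [map_mul, map_inv] at h2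
  have h3 : ((σ ^ e) b)⁻¹ = b⁻¹ * k * a * ((σ ^ e) a)⁻¹ * ((σ ^ e) k)⁻¹ := by rw [← h2]; group
  rw [h3]
  constructor <;> intro h4
  · rw [h4]; group
  · have : ((σ ^ e) k)⁻¹ = k⁻¹ := by
      calc _ = (b⁻¹ * k * a * ((σ ^ e) a)⁻¹)⁻¹ * (b⁻¹ * k * a * ((σ ^ e) a)⁻¹ * ((σ ^ e) k)⁻¹ * b) *
            b⁻¹ := by group
        _ = _ := by rw [h4]; group
    exact inv_injective this

theorem pow_formula {e : ℕ} {a : X} (h : σ (((σ ^ e) a)⁻¹ * a) = ((σ ^ e) a)⁻¹ * a) (d : ℕ) :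
    (((σ ^ e) ^ d) a)⁻¹ * a = (((σ ^ e) a)⁻¹ * a) ^ d := by
  induction d with
  | zero => simp
  | succ d ih =>
    have h1 := congrArg (σ ^ e) ih
    rw [map_pow, fix_pow h e, map_mul, map_inv, ← MulAut.mul_apply, ← pow_succ'] at h1
    rw [pow_succ _ d, pow_succ (((σ ^ e) a)⁻¹ * a), ← h1, pow_succ]; group

end H22.Shin
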