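import Cfsg.Agent.H22.GC3

/-! The Steinberg character of the general linear group as a Moebius function. -/

set_option autoImplicit false

namespace H22.StV

open Finset Matrix Cfsg Module

section abs
variable {L : Type*} [PartialOrder L] [Fintype L] [DecidableLE L] (d : L → ℕ)

/-- chains of given type -/
def Ch {n : ℕ} (μ : Fin n → ℕ) (a : L) (U : Fin (n + 1) → L) : Prop :=
  U 0 = a ∧ ∀ s : Fin n, U s.castSucc ≤ U s.succ ∧ d (U s.succ) = d (U s.castSucc) + μ s

/-- number of chains -/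
noncomputable def nC {n : ℕ} (μ : Fin n → ℕ) (a : L) : ℂ := Nat.card {U // Ch d μ a U}

omit [Fintype L] [DecidableLE L] in
theorem nC_zero (μ : Fin 0 → ℕ) (a : L) : nC d μ a = 1 := by
  rw [nC, Nat.cast_eq_one, Nat.card_eq_one_iff_exists]
  exact ⟨⟨fun _ => a, rfl, fun s => s.elim0⟩, fun U => Subtype.ext (funext fun i => Fin.fin_one_eq_zero i ▸ U.2.1)⟩

theorem nC_succ {n : ℕ} (μ : Fin (n + 1) → ℕ) (a : L) :
    nC d μ a = ∑ b with a ≤ b ∧ d b = d a + μ 0, nC d (Fin.tail μ) b := by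
  classical
  simp only [nC, Nat.card_eq_fintype_card, Fintype.card_subtype, ← Nat.cast_sum, Nat.cast_inj]
  rw [card_eq_sum_card_fiberwise (f := fun U => U 1) (t := univ.filter fun b => a ≤ b ∧ d b = d a + μ 0)
    fun U hU => by
      obtain ⟨rfl, h⟩ := (mem_filter.1 hU).2
      simpa using h 0]
  refine sum_congr rfl fun b hb => card_bij' (fun U _ => Fin.tail U) (fun U _ => Fin.cons a U) ?_ ?_ ?_ ?_
  · simp only [mem_filter, mem_univ, true_and]
    exact fun U h => ⟨h.2, fun s => h.1.2 s.succ⟩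
  · simp only [mem_filter, mem_univ, true_and] at hb ⊢
    rintro U ⟨rfl, h⟩
    exact ⟨⟨rfl, Fin.cases hb h⟩, rfl⟩
  · simp only [mem_filter, mem_univ, true_and]
    rintro U ⟨⟨rfl, -⟩, -⟩
    exact Fin.cons_self_tail U
  · exact fun U _ => Fin.tail_cons _ _

/-- alternating sums -/
noncomputable def sC (n c : ℕ) (a : L) : ℂ := ∑ e : Equiv.Perm (Fin n), if ∀ i, (e i).1 ≤ 1 + i then
  ((e.sign : ℤ) : ℂ) * nC d (fun i => 1 + i - e i + if (e i).1 = 0 then c else 0) a else 0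

variable (hd : StrictMono d)
include hd

theorem sC_succ (n c : ℕ) (a : L) :
    sC d (n + 2) c a = ∑ b with a ≤ b ∧ d b = d a + (c + 1), sC d (n + 1) 0 b - sC d (n + 1) (c + 1) a := by
  rw [sC, ← Equiv.Perm.decomposeFin.symm.sum_comp, Fintype.sum_prod_type, Fin.sum_univ_succ, Fin.sum_univ_succ,
    sum_eq_zero (s := univ) (f := fun p : Fin n => _) fun p _ => sum_eq_zero fun e _ => if_neg fun h => by
      have := h 0; simp at this, add_zero, sub_eq_add_neg]
  congr 1
  · simp only [sC]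
    rw [sum_comm]
    refine sum_congr rfl fun e _ => ?_
    simp only [Fin.forall_fin_succ (n := n + 1), nC_succ d (n := n + 1), Equiv.Perm.decomposeFin.symm_sign]
    simp [Fin.tail_def, mul_sum, ← add_assoc, add_comm c]
  · rw [sC, ← sum_neg_distrib]
    refine sum_congr rfl fun e _ => ?_
    have h1 : ∀ i, ((Equiv.Perm.decomposeFin.symm (Fin.succ 0, e)) i.succ).1 = if (e i).1 = 0 then 0 else (e i).1 + 1 := by
      intro i
      rw [Equiv.Perm.decomposeFin_symm_apply_succ]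
      induction e i using Fin.cases with
      | zero => simp
      | succ j =>
        rw [Equiv.swap_apply_of_ne_of_ne (Fin.succ_ne_zero _) ((Fin.succ_injective _).ne (Fin.succ_ne_zero _))]; rfl
    simp only [Fin.forall_fin_succ (n := n + 1), nC_succ d (n := n + 1), Equiv.Perm.decomposeFin.symm_sign,
      Fin.tail_def, h1]
    rw [sum_eq_single a (fun b hb h => absurd (mem_filter.1 hb).2.2 (by
      simpa using (hd ((mem_filter.1 hb).2.1.lt_of_ne' h)).ne')) (by simp)]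
    rw [neg_ite, neg_zero]
    refine if_congr ((and_iff_right (by simp)).trans (forall_congr' fun i => by
      rw [Fin.val_succ]; split_ifs <;> omega)) ?_ rfl
    rw [if_neg (Fin.succ_ne_zero _), ← neg_mul]
    congr 2
    · simp
    · funext i; rw [Fin.val_succ]; by_cases h : (e i).1 = 0 <;> simp [h] <;> omega

variable [OrderTop L] {m : L → ℂ} (h1 : m ⊤ = 1) (h2 : ∀ a ≠ ⊤, ∑ b with a ≤ b, m b = 0)
include h1 h2

theorem sC_eq (n : ℕ) : ∀ c a, d a + c + n + 1 = d ⊤ →
    sC d (n + 1) c a = (-1) ^ n * ∑ b with a ≤ b ∧ d a + c < d b, m b := by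
  classical
  induction n with
  | zero =>
    intro c a h
    have e : ∀ b, d a + c < d b ↔ b = ⊤ := fun b =>
      ⟨fun h' => by_contra fun n => by have := hd (lt_top_iff_ne_top.2 n); omega, fun e => by rw [e]; omega⟩
    have e' : ∀ b, d b = d a + (1 + c) ↔ b = ⊤ := fun b => by rw [← e]; have := hd.monotone (le_top (a := b)); omega
    have e'' : univ.filter (fun b => a ≤ b ∧ b = ⊤) = {⊤} := by ext; simp +contextual
    simp [sC, nC_succ, nC_zero, e, e', e'', h1]
  | succ n ih =>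
    intro c a h
    rw [sC_succ d hd, ih (c + 1) a (by omega), sum_congr rfl (g := fun b => (-1) ^ (n + 1) * m b) fun b hb => ?_, ← mul_sum,
      pow_succ, mul_neg_one, sub_eq_add_neg, ← neg_mul, ← mul_add, ← sum_union (disjoint_filter.2 (by omega)),
      ← filter_or]
    · congr 2; ext b; simp only [mem_filter, ← and_or_left]
      exact and_congr_right fun _ => and_congr_right fun _ => by omega
    obtain ⟨-, h3⟩ := (mem_filter.1 hb).2
    have h4 := h2 b fun e => by rw [e] at h3; omega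
    rw [← add_sum_erase _ _ (a := b) (by simp), add_eq_zero_iff_neg_eq] at h4
    rw [ih 0 b (by omega), pow_succ, mul_assoc, neg_one_mul, h4]
    congr 2; ext x
    simp only [mem_filter, mem_erase, mem_univ, true_and, add_zero]
    exact ⟨fun h => ⟨by rintro rfl; omega, h.1⟩, fun h => ⟨h.2, hd (h.2.lt_of_ne' h.1)⟩⟩

omit h1 h2

theorem sC_mu [OrderBot L] (h0 : d ⊥ = 0) {M : L → ℂ} (h3 : M ⊥ = 1) (h4 : ∀ a ≠ ⊥, ∑ b with b ≤ a, M b = 0) :
    sC d (d ⊤) 0 ⊥ = (-1) ^ d ⊤ * M ⊤ := by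
  classical
  let _ : LocallyFiniteOrder L := Fintype.toLocallyFiniteOrder
  have h2 : ∀ a, ∑ b with a ≤ b, IncidenceAlgebra.mu ℂ b ⊤ = if a = (⊤ : L) then 1 else 0 := fun a => by
    rw [← IncidenceAlgebra.sum_Icc_mu_left]; congr 1; ext; simp
  have h5 : IncidenceAlgebra.mu ℂ ⊥ (⊤ : L) = M ⊤ := by
    have : ∑ a, ∑ b with a ≤ b, M a * IncidenceAlgebra.mu ℂ b ⊤ = ∑ b, ∑ a with a ≤ b,
      M a * IncidenceAlgebra.mu ℂ b ⊤ := sum_comm' (by simp)
    simp only [← mul_sum, ← sum_mul, h2] at this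
    rw [eq_comm, sum_eq_single ⊥ (fun b _ h => by rw [h4 b h, zero_mul]) (by simp)] at this
    rw [sum_eq_single ⊥ (fun b hb h => absurd (by simpa using hb) h) (by simp)] at this
    simpa [h3] using this
  rcases h : d ⊤ with _ | n
  · have : (⊤ : L) = ⊥ := by_contra fun e => by have := hd (bot_lt_iff_ne_bot.2 e); omega
    simp [sC, nC_zero, this, h3]
  have h6 := h2 ⊥
  rw [if_neg fun e => by rw [← e] at h; omega, ← add_sum_erase _ _ (a := ⊥) (by simp), add_eq_zero_iff_neg_eq] at h6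
  rw [sC_eq d hd (by simp) (fun a ha => (h2 a).trans (if_neg ha)) n 0 ⊥ (by omega), pow_succ, mul_assoc, neg_one_mul,
    ← h5, h6]
  congr 2; ext x
  simp only [mem_filter, mem_erase, mem_univ, true_and, add_zero, bot_le, and_true]
  exact ⟨by rintro h rfl; omega, fun h => hd (bot_lt_iff_ne_bot.2 h)⟩

end abs

section flags
variable {n : ℕ} {F : Type*} [Field F] [Finite F] (a : Fin n → Fin n)

/-- translates of the standard flag -/
def fl (g : GL (Fin n) F) (t : ℕ) : Submodule F (Fin n → F) :=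
  (⨅ i, ⨅ (_ : t ≤ a i), LinearMap.ker (LinearMap.proj i)).map (toLin' g.1)

omit [Finite F] in
theorem mem_fl {g : GL (Fin n) F} {t : ℕ} {v : Fin n → F} : v ∈ fl a g t ↔ ∀ i, t ≤ a i → ((g⁻¹).1 *ᵥ v) i = 0 := by
  simp only [fl, Submodule.mem_map, Submodule.mem_iInf, LinearMap.mem_ker, LinearMap.proj_apply, toLin'_apply]
  exact ⟨by rintro ⟨y, h, rfl⟩; simpa using h, fun h => ⟨_, h, by simp⟩⟩

omit [Finite F] in
theorem fl_eq_iff {g g' : GL (Fin n) F} : (∀ t : Fin (n + 1), fl a g t = fl a g' t) ↔ g⁻¹ * g' ∈ GC.PP F a := by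
  refine ⟨fun h i j hij => ?_, fun h t => Submodule.ext fun v => ?_⟩
  · simpa [mul_apply, mulVec, dotProduct, Pi.single_apply] using (mem_fl a).1 ((h (a j).succ).ge ((mem_fl a (v := g'.1 *ᵥ Pi.single j 1)).2 fun k hk => by
      rw [mulVec_mulVec, Units.inv_mul, one_mulVec, Pi.single_eq_of_ne (by rintro rfl; simp at hk)])) i hij
  · rw [mem_fl, mem_fl, ← GC.PP_iff h t ((g'⁻¹).1 *ᵥ v)]; simp

theorem finrank_fl (g : GL (Fin n) F) (t : ℕ) : finrank F (fl a g t) = #{i | a i < t} := by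
  refine Nat.pow_right_injective (Finite.one_lt_card (α := F)) ?_
  refine natCard_eq_pow_finrank.symm.trans (.trans (Nat.card_congr ((toLin'OfInv g.mul_inv g.inv_mul).toEquiv.subtypeEquiv
    fun v => (mem_fl a).trans ?_)) (GC.card_supp fun i => (a i : ℕ) < t))
  simp

theorem exists_fl (ha : Monotone a) {U : Fin (n + 1) → Submodule F (Fin n → F)} (h1 : Monotone U)
    (h2 : ∀ t, finrank F (U t) = #{i | (a i : ℕ) < t}) : ∃ g, ∀ t : Fin (n + 1), fl a g t = U t := by
  have h3 := GC.card_li (F := F) (fun j => U (a j).succ) fun i j h => h1 (Fin.succ_le_succ_iff.2 (ha h))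
  obtain ⟨⟨v, v1, v2⟩⟩ := (Nat.card_pos_iff.1 (h3 ▸ prod_pos fun j _ => Nat.sub_pos_of_lt (by
    rw [natCard_eq_pow_finrank (K := F) (V := U _), h2]
    refine Nat.pow_lt_pow_right Finite.one_lt_card ((Nat.lt_succ_self _).trans_le ((Fin.card_Iic j).ge.trans
      (card_le_card fun i hi => ?_)))
    simpa [Nat.lt_succ_iff] using ha (mem_Iic.1 hi)))).1
  obtain ⟨g, hg⟩ := (linearIndependent_cols_iff_isUnit (A := (Matrix.of v)ᵀ)).1 v1
  refine ⟨g, fun t => Submodule.eq_of_le_of_finrank_eq ?_ ((finrank_fl a g t).trans (h2 t).symm)⟩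
  rintro _ ⟨y, hy, rfl⟩
  rw [toLin'_apply, hg, mulVec_transpose, vecMul_eq_sum]
  refine Submodule.sum_mem _ fun j _ => ?_
  by_cases h : t.1 ≤ a j
  · rw [show y j = 0 by simpa using (Submodule.mem_iInf _).1 ((Submodule.mem_iInf _).1 hy j) h, zero_smul]
    exact zero_mem _
  · exact Submodule.smul_mem _ _ (h1 (show (a j).succ ≤ t from Nat.succ_le_of_lt (not_le.1 h)) (v2 j))

theorem fix_eq {L : Type*} [PartialOrder L] [OrderBot L] (r : L ↪o Submodule F (Fin n → F)) {x : GL (Fin n) F}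
    (hr : ∀ U, U ∈ Set.range r ↔ ∀ v ∈ U, x.1 *ᵥ v ∈ U) {μ : Fin n → ℕ} (hμ : ∑ i, μ i = n) :
    fixedPointCharacter (parabolicGL n F μ) x = nC (fun U => finrank F (r U)) μ ⊥ := by
  obtain ⟨a, S, ha, h1, h2, -, h3⟩ := GC.exists_label hμ
  have hb : r ⊥ = ⊥ := by
    obtain ⟨U, hU⟩ := (hr ⊥).2 (by simp)
    exact le_bot_iff.1 (hU ▸ r.monotone bot_le)
  have hc : ∀ s : Fin n, #{i | (a i : ℕ) < s.succ} = #{i | (a i : ℕ) < s.castSucc} + μ s := fun s => by
    rw [← GC.card_fib h2 h3, ← card_union_of_disjoint (disjoint_filter.2 fun i _ h e => by simp [e] at h), ← filter_or]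
    simp [le_iff_lt_or_eq, Fin.ext_iff]
  have hx : ∀ g t v, x.1 *ᵥ v ∈ fl a (x * g) t ↔ v ∈ fl a g t := fun g t v => by simp [mem_fl]
  have hf : ∀ g : GL (Fin n) F, (g : GL (Fin n) F ⧸ GC.PP F a) ∈ MulAction.fixedBy _ x ↔
      ∀ t : Fin (n + 1), fl a g t ∈ Set.range r := fun g => by
    rw [MulAction.mem_fixedBy, MulAction.Quotient.smul_mk, QuotientGroup.eq, ← fl_eq_iff]
    refine forall_congr' fun t => ((hr _).trans ⟨fun h => ?_, fun h v hv => h ▸ (hx g t v).2 hv⟩).symm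
    refine Submodule.eq_of_le_of_finrank_eq (fun v hv => ?_) ((finrank_fl a _ t).trans (finrank_fl a g t).symm)
    simpa using h ((x⁻¹).1 *ᵥ v) ((hx g t _).1 (by simpa using hv))
  rw [GC.PP_eq h1, fixedPointCharacter, nC]
  have : ∀ q : MulAction.fixedBy (GL (Fin n) F ⧸ GC.PP F a) x, ∀ t : Fin (n + 1), ∃ U, r U = fl a q.1.out t :=
    fun q => (hf _).1 (by rw [QuotientGroup.out_eq']; exact q.2)
  choose U hU using this
  congr 1
  refine Nat.card_eq_of_bijective (fun q => ⟨U q, r.injective ?_, fun s => ⟨r.le_iff_le.1 ?_, ?_⟩⟩)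
    ⟨fun q q' h => Subtype.ext ?_, fun ⟨W, w1, w2⟩ => ?_⟩
  · rw [hU, hb, ← Submodule.finrank_eq_zero, finrank_fl]; simp
  · rw [hU, hU]
    exact fun v hv => (mem_fl a).2 fun i hi => (mem_fl a).1 hv i (le_trans (Nat.le_succ _) hi)
  · show finrank F (r (U q _)) = finrank F (r (U q _)) + _
    rw [hU, hU, finrank_fl, finrank_fl, hc]
  · rw [← QuotientGroup.out_eq' q.1, ← QuotientGroup.out_eq' q'.1, QuotientGroup.eq, ← fl_eq_iff]
    exact fun t => by rw [← hU, ← hU]; exact congrArg (fun z => r (z.1 t)) h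
  · obtain ⟨g, hg⟩ := exists_fl a ha (U := r ∘ W) (r.monotone.comp (Fin.monotone_iff_le_succ.2 fun s => (w2 s).1))
      (Fin.induction (by simp [w1, hb]) fun s ih => by rw [hc, ← ih]; exact (w2 s).2)
    refine ⟨⟨g, (hf g).2 fun t => ⟨_, (hg t).symm⟩⟩, Subtype.ext (funext fun t => r.injective ?_)⟩
    exact (hU _ t).trans (((fl_eq_iff a).2 (QuotientGroup.eq.1 (QuotientGroup.out_eq' _)) t).trans (hg t))

theorem st_eq {L : Type*} [PartialOrder L] [OrderBot L] (r : L ↪o Submodule F (Fin n → F)) {x : GL (Fin n) F}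
    (hr : ∀ U, U ∈ Set.range r ↔ ∀ v ∈ U, x.1 *ᵥ v ∈ U) :
    unipotentCharacterGL n F (fun _ => 1) x = sC (fun U => finrank F (r U)) n 0 ⊥ := by
  refine sum_congr rfl fun e _ => ?_
  split_ifs with h
  · rw [fix_eq r hr (GC.sum_sub (by simp) h)]; simp
  · rfl

end flags

end H22.StV
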