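import Cfsg.Agent.H22.StV1
import Cfsg.Agent.H22.GLc2

/-! Values of the Steinberg character of the general linear group at semisimple elements. -/

set_option autoImplicit false

namespace H22.StV

open Finset Module Polynomial UniqueFactorizationMonoid Submodule

section compl
variable {R M : Type*} [Ring R] [AddCommGroup M] [Module R M] {S U W : Submodule R M}

/-- internal direct sums -/
noncomputable def sumEq (h1 : Disjoint S U) (h2 : S ⊔ U = W) : (S × U) ≃ₗ[R] W :=
  (LinearEquiv.ofInjective (S.subtype.coprod U.subtype) (LinearMap.ker_eq_bot.1 (by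
    rw [LinearMap.ker_coprod_of_disjoint_range _ _ (by simpa using h1)]; simp))).trans
      (LinearEquiv.ofEq _ _ (by rw [LinearMap.range_coprod]; simpa using h2))

theorem sumEq_apply (h1 : Disjoint S U) (h2 : S ⊔ U = W) (x : S × U) : (sumEq h1 h2 x : M) = x.1 + x.2 := rfl

theorem card_compl (h1 : Disjoint S U) (h2 : S ⊔ U = W) :
    Nat.card {U' // Disjoint S U' ∧ S ⊔ U' = W} = Nat.card (U →ₗ[R] S) := by
  have h3 : ∀ φ : U →ₗ[R] S, S ⊔ LinearMap.range (U.subtype + S.subtype ∘ₗ φ) = W := fun φ => by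
    refine h2 ▸ le_antisymm (sup_le le_sup_left ?_) (sup_le le_sup_left fun u hu => ?_)
    · rintro _ ⟨u, rfl⟩
      exact add_mem (mem_sup_right u.2) (mem_sup_left (φ u).2)
    · simpa using sub_mem (mem_sup_right (S := S) (LinearMap.mem_range_self (U.subtype + S.subtype ∘ₗ φ) ⟨u, hu⟩))
        (mem_sup_left (φ ⟨u, hu⟩).2)
  have h4 : ∀ φ : U →ₗ[R] S, Disjoint S (LinearMap.range (U.subtype + S.subtype ∘ₗ φ)) := fun φ => disjoint_def.2 (by
    rintro _ hx ⟨u, rfl⟩
    have : u = 0 := Subtype.ext (disjoint_def.1 h1 u ((S.add_mem_iff_left (φ u).2).1 hx) u.2)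
    simp [this])
  refine (Nat.card_eq_of_bijective (fun φ => ⟨_, h4 φ, h3 φ⟩) ⟨fun φ ψ h => LinearMap.ext fun u => ?_,
    fun ⟨U', a1, a2⟩ => ?_⟩).symm
  · obtain ⟨u', e⟩ := (Subtype.ext_iff.1 h).le (LinearMap.mem_range_self _ u)
    change (u' : M) + ψ u' = u + φ u at e
    have : u' = u := Subtype.ext (sub_eq_zero.1 (disjoint_def.1 h1 _ (by
      rw [show (u' : M) - u = φ u - ψ u' by linear_combination (norm := module) e]
      exact sub_mem (φ u).2 (ψ u').2) (sub_mem u'.2 u.2)))
    exact Subtype.ext (add_left_cancel (this ▸ e)).symm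
  · refine ⟨-(LinearMap.fst _ _ _ ∘ₗ (sumEq a1 a2).symm.toLinearMap ∘ₗ inclusion (h2 ▸ le_sup_right)),
      Subtype.ext (eq_of_le_of_inf_le_of_le_sup (z := S) ?_ (a1.symm.le_bot.trans bot_le) ?_)⟩
    · rintro _ ⟨u, rfl⟩
      have := sumEq_apply a1 a2 ((sumEq a1 a2).symm (inclusion (h2 ▸ le_sup_right) u))
      rw [LinearEquiv.apply_symm_apply] at this
      exact (congrArg (· ∈ U') ((eq_sub_of_add_eq' this.symm).trans (sub_eq_add_neg _ _))).mp (Subtype.prop _)
    · exact le_sup_right.trans (a2.trans ((h3 _).symm.trans (sup_comm _ _))).le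

end compl

variable {F : Type*} [Field F] [Finite F] {V : Type*} [AddCommGroup V] [Module F V] [FiniteDimensional F V]

theorem card_hom_tors {M : Type*} [AddCommGroup M] [Module F[X] M] [Module.Finite F[X] M] (hM : IsTorsion F[X] M)
    {f : F[X]} (hf : f ≠ 0) : Nat.card (M →ₗ[F[X]] F[X] ⧸ F[X] ∙ f) = Nat.card (torsionBy F[X] M f) := by
  classical
  obtain ⟨ι, _, p, hp, e, ⟨φ⟩⟩ := equiv_directSum_of_isTorsion hM
  have ψ := φ.trans (DirectSum.linearEquivFunOnFintype _ _ _)
  rw [card_tors_congr ψ, card_tors_pi, Nat.card_congr (ψ.arrowCongr (.refl _ _)).toEquiv,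
    ← Nat.card_congr (LinearMap.lsum _ _ ℕ).toEquiv, Nat.card_pi]
  exact prod_congr rfl fun i _ => by
    rw [card_hom_quot, card_tors_quot hf, card_tors_quot (pow_ne_zero _ (hp i).ne_zero), dg_comm]

omit [Finite F] in
theorem key {A : End F V} {W : Type*} [AddCommGroup W] [Module F W] [FiniteDimensional F W] {B : End F W}
    (h : Sim B A) : A.charpoly = B.charpoly := by
  obtain ⟨e, he⟩ := h
  rw [← e.charpoly_conj]; congr 1; ext x; simp [he]

theorem HasType.charpoly {s : Multiset F[X]} (hs : ∀ a ∈ s, a.Monic) : ∀ {V : Type*} [AddCommGroup V] [Module F V]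
    [FiniteDimensional F V] {A : End F V}, HasType A s → A.charpoly = s.prod := by
  suffices ∃ A : End F (Fin (s.map natDegree).sum → F), HasType A s ∧ A.charpoly = s.prod from
    fun {_ _ _ _ _} h => let ⟨A, h1, h2⟩ := this; (key (h1.sim h)).trans h2
  induction s using Multiset.induction with
  | empty =>
    obtain ⟨A, h⟩ := exists_of_type (F := F) (V := Fin 0 → F) (s := 0) (by simp) (by simp)
    exact ⟨A, h, A.charpoly_monic.natDegree_eq_zero.1 (A.charpoly_natDegree.trans (finrank_fin_fun F))⟩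
  | cons a s ih =>
    obtain ⟨A, h1, h2⟩ := ih fun b hb => hs b (Multiset.mem_cons_of_mem hb)
    have ha := hs a (Multiset.mem_cons_self _ _)
    obtain ⟨B, hB⟩ := exists_of_type (V := Fin ((a ::ₘ s).map natDegree).sum → F) (fun b hb => (hs b hb).ne_zero)
      (by simp)
    have := (AdjoinRoot.powerBasis ha.ne_zero).finite
    refine ⟨B, hB, (key (((hasType_mulR ha.ne_zero).prod h1).sim hB)).trans ?_⟩
    rw [LinearMap.charpoly_prodMap, h2, Multiset.prod_cons, ← LinearMap.charpoly_toMatrix _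
      (AdjoinRoot.powerBasis ha.ne_zero).basis]
    exact congrArg (· * _) ((charpoly_leftMulMatrix (AdjoinRoot.powerBasis ha.ne_zero)).trans
      (AdjoinRoot.minpoly_powerBasis_gen_of_monic ha))

variable [DecidableEq F]

theorem type_nf {A : End F V} {g : F[X]} (hg : Squarefree g) (h : aeval A g = 0) :
    (∀ a ∈ normalizedFactors A.charpoly, a.Monic ∧ Irreducible a) ∧ HasType A (normalizedFactors A.charpoly) := by
  obtain ⟨s, h1, h2⟩ := exists_ssType hg h
  rw [HasType.charpoly (fun a ha => (h1 a ha).1) h2, normalizedFactors_prod_eq s fun a ha => (h1 a ha).2.1,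
    Multiset.map_congr rfl fun a ha => (h1 a ha).1.normalize_eq_self, Multiset.map_id']
  exact ⟨fun a ha => ⟨(h1 a ha).1, (h1 a ha).2.1⟩, h2⟩

/-- the value of the character -/
noncomputable def wt (q : ℂ) (s : Multiset F[X]) : ℂ := ∏ f ∈ s.toFinset,
  (-1 : ℂ) ^ ((f.natDegree - 1) * s.count f) * q ^ (f.natDegree * s.count f * (s.count f - 1) / 2)

omit [Finite F] in
theorem wt_cons (q : ℂ) (f : F[X]) (s : Multiset F[X]) :
    wt q (f ::ₘ s) = (-1) ^ (f.natDegree - 1) * q ^ (f.natDegree * s.count f) * wt q s := by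
  have e : ∀ d m : ℕ, d * m * (m - 1) / 2 = d * m.choose 2 := fun d m => by
    rw [Nat.choose_two_right, mul_assoc, Nat.mul_div_assoc _ (Nat.even_mul_pred_self m).two_dvd]
  rw [wt, wt, Multiset.toFinset_cons, prod_subset (subset_insert f s.toFinset) fun x _ h => by
    simp [Multiset.count_eq_zero.2 (by simpa using h)], ← mul_prod_erase _ _ (mem_insert_self f _),
    ← mul_prod_erase _ _ (mem_insert_self f _), prod_congr rfl fun x hx => by
      rw [Multiset.count_cons_of_ne (ne_of_mem_erase hx)], Multiset.count_cons_self, e, e, Nat.choose_succ_succ',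
    Nat.choose_one_right]
  ring

variable {M : Type*} [AddCommGroup M] [Module F M] [Module F[X] M] [IsScalarTower F F[X] M] [FiniteDimensional F M]

/-- the Moebius function -/
noncomputable def mb (U : Submodule F[X] M) : ℂ :=
  have : FiniteDimensional F U := .of_injective (U.subtype.restrictScalars F) U.subtype_injective
  (-1) ^ finrank F U * wt (Nat.card F) (normalizedFactors (mulX F U).charpoly)

theorem mb_sum [IsSemisimpleModule F[X] M] [Fintype (Submodule F[X] M)] [DecidableLE (Submodule F[X] M)] {g : F[X]} (hg : Squarefree g)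
    (h : ∀ x : M, g • x = 0) {W : Submodule F[X] M} (hW : W ≠ ⊥) : ∑ U with U ≤ W, mb U = 0 := by
  classical
  have fd : ∀ U : Submodule F[X] M, FiniteDimensional F U := fun U =>
    .of_injective (U.subtype.restrictScalars F) U.subtype_injective
  have ty := fun U : Submodule F[X] M => type_nf (A := mulX F U) hg (LinearMap.ext fun x =>
    (aeval_mulX _ g x).trans (Subtype.ext (h x)))
  have fd' : ∀ U : Submodule F[X] M, Module.Finite F[X] U := fun U => .of_restrictScalars_finite F _ _
  obtain ⟨S, hS, hle⟩ := (eq_bot_or_exists_atom_le W).resolve_left hW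
  obtain ⟨f, f1, f2, ⟨e⟩⟩ : ∃ f : F[X], f.Monic ∧ Irreducible f ∧ Nonempty (S ≃ₗ[F[X]] F[X] ⧸ F[X] ∙ f) := by
    obtain ⟨I, hI, e⟩ := isSimpleModule_iff_quot_maximal.1 (isSimpleModule_iff_isAtom.2 hS)
    obtain ⟨f, rfl⟩ := (IsPrincipalIdealRing.principal I).principal
    have h0 : f ≠ 0 := fun e => Ring.ne_bot_of_isMaximal_of_not_isField hI (Polynomial.not_isField F) (by simp [e])
    refine ⟨normalize f, monic_normalize h0, (associated_normalize f).irreducible
      ((Ideal.span_singleton_prime h0).1 hI.isPrime).irreducible, ?_⟩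
    rwa [show F[X] ∙ normalize f = F[X] ∙ f from Ideal.span_singleton_eq_span_singleton.2 (normalize_associated f)]
  have := fd_quot f1.ne_zero
  have tS : HasType (mulX F S) {f} := fun a => card_pow_inj (F := F) (by
    rw [pow_kd_mulX, card_tors_congr e, card_tors_quot f1.ne_zero]; simp)
  have key : ∀ U U', Disjoint S U ∧ S ⊔ U = U' →
      normalizedFactors (mulX F U').charpoly = f ::ₘ normalizedFactors (mulX F U).charpoly ∧
        finrank F U' = f.natDegree + finrank F U := fun U U' hU => by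
    have h1 := (tS.prod (ty U).2).of_sim (sim_mulX (sumEq hU.1 hU.2))
    refine ⟨type_unique (fun a ha => pp_of_irreducible ((ty U').1 a ha).1 ((ty U').1 a ha).2) (fun a ha => ?_)
      fun a => ((ty U').2 a).symm.trans (h1 a), by simp [h1.finrank, (ty U).2.finrank]⟩
    rcases Multiset.mem_cons.1 ha with rfl | ha
    exacts [pp_of_irreducible f1 f2, pp_of_irreducible ((ty U).1 a ha).1 ((ty U).1 a ha).2]
  rw [← sum_fiberwise_of_maps_to (g := (S ⊔ ·)) (t := univ.filter fun U' => S ≤ U' ∧ U' ≤ W) fun U hU => by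
    simpa [hle] using hU]
  refine sum_eq_zero fun U' hU' => ?_
  obtain ⟨u1, u2⟩ := (mem_filter.1 hU').2
  obtain ⟨U, a1, a2⟩ : ∃ U, Disjoint S U ∧ S ⊔ U = U' := by
    obtain ⟨T, hT⟩ := exists_isCompl S
    exact ⟨T ⊓ U', hT.disjoint.mono_right inf_le_left, by rw [← sup_inf_assoc_of_le _ u1, hT.sup_eq_top, top_inf_eq]⟩
  have e1 : (univ.filter (· ≤ W)).filter (S ⊔ · = U') = insert U' (univ.filter fun U => Disjoint S U ∧ S ⊔ U = U') := by
    ext T
    simp only [mem_filter, mem_univ, true_and, mem_insert, ← hS.not_le_iff_disjoint]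
    refine ⟨fun h => (em _).imp (fun h' => by rw [← h.2, sup_eq_right.2 h']) fun h' => ⟨h', h.2⟩, ?_⟩
    rintro (rfl | ⟨-, rfl⟩)
    exacts [⟨u2, sup_eq_right.2 u1⟩, ⟨le_sup_right.trans u2, rfl⟩]
  rw [e1, sum_insert (by simp [← hS.not_le_iff_disjoint, u1]), sum_congr rfl (g := fun _ => mb U) fun T hT => by
    have h1 := key T U' (mem_filter.1 hT).2
    have h2 := key U U' ⟨a1, a2⟩
    rw [mb, mb, (Multiset.cons_inj_right f).1 (h1.1.symm.trans h2.1), add_left_cancel (h1.2.symm.trans h2.2)],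
    sum_const, ← Fintype.card_subtype, ← Nat.card_eq_fintype_card, card_compl a1 a2,
    Nat.card_congr (LinearEquiv.congrRight e).toEquiv, card_hom_tors (fun x =>
      ⟨⟨g, mem_nonZeroDivisors_of_ne_zero hg.ne_zero⟩, Subtype.ext (h x)⟩) f1.ne_zero, ← pow_kd_mulX, (ty U).2 f,
    mb, mb, (key U U' ⟨a1, a2⟩).1, (key U U' ⟨a1, a2⟩).2, wt_cons, Multiset.map_congr rfl (g := fun a => if f = a then f.natDegree else 0) fun a ha => by
      split_ifs with e
      exacts [e ▸ dg_of_dvd dvd_rfl, dg_of_coprime (f2.coprime_iff_not_dvd.2 fun n => e (eq_of_monic_of_associated f1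
        ((ty U).1 a ha).1 (f2.associated_of_dvd ((ty U).1 a ha).2 n)))]]
  obtain ⟨k, hk⟩ := Nat.exists_eq_succ_of_ne_zero f2.natDegree_pos.ne'
  rw [Multiset.sum_map_eq_nsmul_single f fun i hi _ => if_neg hi.symm, if_pos rfl, hk]
  simp only [nsmul_eq_mul, smul_eq_mul, Nat.cast_pow, Nat.succ_eq_add_one, Nat.add_sub_cancel, pow_add, pow_one,
    mul_comm (Multiset.count _ _)]
  have : ((-1 : ℂ) ^ k) ^ 2 = 1 := by rw [← pow_mul, mul_comm, pow_mul]; simp
  generalize wt (F := F) _ _ = w
  generalize (Nat.card F : ℂ) ^ _ = z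
  linear_combination (-(-1) ^ finrank F U * z * w) * this

theorem main {n : ℕ} (p : ℕ) [Fact p.Prime] [CharP F p] (x : GL (Fin n) F) (hx : (orderOf x).Coprime p) :
    Cfsg.unipotentCharacterGL n F (fun _ => 1) x = wt (Nat.card F) (normalizedFactors x.1.charpoly) := by
  classical
  have hg := sqfree_X_pow (F := F) hx
  have h0 : aeval (glE x) (X ^ orderOf x - 1 : F[X]) = 0 := by
    rw [map_sub, map_pow, aeval_X, ← map_pow, pow_orderOf_eq_one, map_one, map_one, sub_self]
  have : IsSemisimpleModule F[X] (AEval' (glE x)) := End.isSemisimple_of_squarefree_aeval_eq_zero hg h0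
  let r : Submodule F[X] (AEval' (glE x)) ↪o Submodule F (Fin n → F) :=
    (AEval.mapSubmodule F _ (glE x)).symm.toOrderEmbedding.trans (OrderEmbedding.subtype _)
  have : Finite (AEval' (glE x)) := Module.finite_of_finite F
  have := Fintype.ofFinite (Submodule F[X] (AEval' (glE x)))
  have e : ∀ U, finrank F (r U) = finrank F U := fun U => by
    obtain ⟨U, rfl⟩ := (AEval.mapSubmodule F _ (glE x)).surjective U
    rw [← (AEval.equiv_mapSubmodule _ U.1 U.2).finrank_eq]
    exact congrArg (fun W => finrank F W.1) ((AEval.mapSubmodule F _ (glE x)).symm_apply_apply U)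
  have e1 : finrank F (r ⊤) = n := by rw [e, topEquiv.restrictScalars F |>.finrank_eq]; exact finrank_fin_fun F
  have := sC_mu (fun U => finrank F (r U)) (fun U W h => finrank_lt_finrank_of_lt (r.strictMono h))
    (by rw [e, finrank_eq_zero_of_subsingleton]) (M := mb) (by
      rw [mb, (LinearMap.charpoly_monic _).natDegree_eq_zero.1 ((LinearMap.charpoly_natDegree _).trans
        (finrank_eq_zero_of_subsingleton _ _)), finrank_eq_zero_of_subsingleton]; simp [wt]) fun W hW => mb_sum hg (fun y => by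
      rw [← aeval_mulX _ _ (F := F), (sim_aeval _).aeval_eq_zero h0]; rfl) hW
  rw [st_eq r (x := x) fun U => ⟨by rintro ⟨W, rfl⟩; exact ((AEval.mapSubmodule F _ (glE x)).symm W).2, fun h =>
    ⟨AEval.mapSubmodule F _ (glE x) ⟨U, h⟩, congrArg Subtype.val
      ((AEval.mapSubmodule F _ (glE x)).symm_apply_apply _)⟩⟩]
  rw [e1, mb, ← e, e1, ← mul_assoc, ← mul_pow, (key ((sim_aeval (glE x)).trans
    (sim_mulX topEquiv.symm))).trans (Matrix.charpoly_toLin' x.1)] at this
  simpa using this

end H22.StV
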