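import Cfsg.Agent.H12.F2Quad

/-! The symmetric group acting on the even-weight module modulo the all-one vector over the field of two elements. -/

set_option autoImplicit false

namespace H22.SO2

open Module Matrix H12 QuadraticMap

local notation "F" => ZMod 2

theorem exists_isom_hom {G V K : Type*} {κ : Type} [Fintype κ] [DecidableEq κ] [Group G] [Field K] [AddCommGroup V]
    [Module K V] (ρ : G →* End K V) (hρ : Function.Injective ρ) {Q : V → K} (h : ∀ σ v, Q (ρ σ v) = Q v)
    (g : V ≃ₗ[K] (κ → K)) {q : (κ → K) → K} (hg : ∀ v, Q v = q (g v)) :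
    ∃ φ : G →* Cfsg.isometryGroup K q, Function.Injective φ := by
  let b := Basis.ofEquivFun g
  let ψ : G →* Matrix κ κ K := (LinearMap.toMatrixAlgEquiv b).toMulEquiv.toMonoidHom.comp ρ
  refine ⟨ψ.toHomUnits.codRestrict _ fun σ => (H11.mem_isometryGroup _ _).2 fun v => ?_, fun σ τ e => ?_⟩
  · obtain ⟨v, rfl⟩ := g.surjective v
    exact (congrArg q (LinearMap.toMatrix_mulVec_repr b b (ρ σ) v)).trans ((hg _).symm.trans ((h σ v).trans (hg v)))
  · exact hρ ((LinearMap.toMatrixAlgEquiv b).injective (congrArg (fun x => x.1.1) e))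

/-- the second elementary symmetric function -/
def qe (n : ℕ) : QuadraticForm F (Fin n → F) := ∑ i, ∑ j, if i < j then proj i j else 0

variable {n : ℕ}

theorem qe_apply (x : Fin n → F) : qe n x = ∑ i, ∑ j, if i < j then x i * x j else 0 := by
  simp only [qe, _root_.sum_apply]
  refine Finset.sum_congr rfl fun i _ => Finset.sum_congr rfl fun j _ => ?_
  split_ifs <;> simp

theorem qe_cons (a : F) (x : Fin n → F) : qe (n + 1) (Fin.cons a x) = qe n x + a * ∑ i, x i := by
  simp [qe_apply, Fin.sum_univ_succ, Finset.mul_sum, add_comm]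

theorem polar_qe (x y : Fin n → F) : polar (qe n) x y = (∑ i, x i) * (∑ i, y i) + x ⬝ᵥ y := by
  induction n with
  | zero => simp [polar, qe_apply]
  | succ n ih =>
    obtain ⟨a, x, rfl⟩ : ∃ a x', x = Fin.cons a x' := ⟨_, _, (Fin.cons_self_tail x).symm⟩
    obtain ⟨b, y, rfl⟩ : ∃ a x', y = Fin.cons a x' := ⟨_, _, (Fin.cons_self_tail y).symm⟩
    have e : (Fin.cons a x + Fin.cons b y : Fin (n + 1) → F) = Fin.cons (a + b) (x + y) :=
      funext (Fin.cases rfl fun _ => rfl)
    have := ih x y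
    simp only [polar, e, qe_cons, Pi.add_apply, Finset.sum_add_distrib, Fin.sum_cons, dotProduct,
      Fin.sum_univ_succ, Fin.cons_zero, Fin.cons_succ] at this ⊢
    have h2 : (2 : F) = 0 := rfl
    linear_combination this - a * b * h2

theorem qe_single (i : Fin n) (a : F) : qe n (Pi.single i a) = 0 := by
  rw [qe_apply]
  refine Finset.sum_eq_zero fun j _ => Finset.sum_eq_zero fun k _ => ?_
  split_ifs with h
  · by_cases e : j = i
    · subst e; simp [h.ne']
    · simp [e]
  · rfl

theorem qe_perm (σ : Equiv.Perm (Fin n)) (x : Fin n → F) : qe n (x ∘ σ) = qe n x := by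
  induction x using Pi.single_induction with
  | zero => rfl
  | add x y hx hy =>
    rw [show (x + y) ∘ σ = x ∘ σ + y ∘ σ from rfl, Q_add, Q_add, hx, hy, polar_qe, polar_qe, comp_equiv_dotProduct_comp_equiv]
    simp only [Function.comp, Equiv.sum_comp]
  | single i a =>
    rw [qe_single, show Pi.single i a ∘ σ = Pi.single (σ.symm i) a from funext fun j => by
      simp [Pi.single_apply, Equiv.eq_symm_apply], qe_single]

theorem qe_one (k : ℕ) : qe (4 * k) 1 = 0 := by
  have e : ∀ n, qe (n + 1) 1 = qe n 1 + n := fun n => by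
    rw [show (1 : Fin (n + 1) → F) = Fin.cons 1 1 from funext (Fin.cases rfl fun _ => rfl), qe_cons]; simp
  induction k with
  | zero => simp [qe_apply]
  | succ k ih =>
    rw [show 4 * (k + 1) = 4 * k + 1 + 1 + 1 + 1 from rfl, e, e, e, e, ih]
    have h2 : (2 : F) = 0 := rfl
    push_cast; linear_combination (8 * k + 3) * h2

/-- sign character -/
def sg (a : F) : ℤ := if a = 0 then 1 else -1

theorem sum_cons (f : (Fin (n + 1) → F) → ℤ) : ∑ x, f x = ∑ x, f (Fin.cons 0 x) + ∑ x, f (Fin.cons 1 x) := by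
  rw [← (Fin.consEquiv fun _ => F).sum_comp, Fintype.sum_prod_type]
  exact Fin.sum_univ_two _

theorem sums (n : ℕ) : (∑ x, sg (qe (n + 1) x) = ∑ x, sg (qe n x) + ∑ x, sg (qe n x + ∑ i, x i)) ∧
    ∑ x, sg (qe (n + 1) x + ∑ i, x i) = ∑ x, sg (qe n x + ∑ i, x i) - ∑ x, sg (qe n x) := by
  simp only [sum_cons, qe_cons, Fin.sum_cons, zero_mul, add_zero, one_mul, zero_add, true_and, sub_eq_add_neg,
    ← Finset.sum_neg_distrib]
  refine congrArg _ (Finset.sum_congr rfl fun x _ => ?_)
  generalize qe n x = a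
  generalize ∑ i, x i = b
  revert a b; decide

theorem sums' (k : ℕ) : ∑ x, sg (qe (4 * k) x) = (-4) ^ k ∧ ∑ x, sg (qe (4 * k) x + ∑ i, x i) = (-4) ^ k := by
  induction k with
  | zero => simp [qe_apply, sg]
  | succ k ih =>
    rw [show 4 * (k + 1) = 4 * k + 1 + 1 + 1 + 1 from rfl]
    simp only [(sums _).1, (sums _).2, ih.1, ih.2, pow_succ]
    constructor <;> ring

theorem sum_sg {V : Type*} [Fintype V] (q : V → F) : ∑ x, sg (q x) = 2 * Nat.card {x // q x = 0} - Nat.card V := by
  rw [Nat.card_eq_fintype_card, Nat.card_eq_fintype_card, Fintype.card_subtype, Finset.card_filter, Fintype.card,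
    Finset.card_eq_sum_ones]
  push_cast
  rw [Finset.mul_sum, ← Finset.sum_sub_distrib]
  refine Finset.sum_congr rfl fun x _ => ?_
  rw [sg]; split_ifs <;> rfl

/-- embedding in the even-weight module -/
def em (n : ℕ) : (Fin n → F) →ₗ[F] (Fin (n + 2) → F) where
  toFun x := Fin.cons 0 (Fin.cons (∑ i, x i) x)
  map_add' x y := funext (Fin.cases rfl (Fin.cases (by simp [Finset.sum_add_distrib]) fun _ => rfl))
  map_smul' a x := funext (Fin.cases (mul_zero a).symm (Fin.cases (by simp [Finset.mul_sum]) fun _ => rfl))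

/-- projection modulo the all-one vector -/
def pr (n : ℕ) : (Fin (n + 2) → F) →ₗ[F] (Fin n → F) where
  toFun y i := y i.succ.succ + y 0
  map_add' x y := funext fun i => add_add_add_comm _ _ _ _
  map_smul' a x := funext fun i => (mul_add a _ _).symm

theorem sum_em (x : Fin n → F) : ∑ i, em n x i = 0 := by
  simp [em, Fin.sum_univ_succ, CharTwo.add_self_eq_zero]

theorem pr_em (x : Fin n → F) : pr n (em n x) = x := funext fun _ => add_zero _

theorem pr_one (c : F) : pr n (c • 1) = 0 := funext fun _ => CharTwo.add_self_eq_zero _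

theorem em_pr (hn : Even n) {y : Fin (n + 2) → F} (h : ∑ i, y i = 0) : em n (pr n y) = y + y 0 • 1 := by
  refine funext (Fin.cases (by simp [em, CharTwo.add_self_eq_zero]) (Fin.cases ?_ fun i => by simp [em, pr]))
  simp only [Fin.sum_univ_succ, Fin.succ_zero_eq_one] at h
  have h2 : (2 : F) = 0 := rfl
  simp [em, pr, Finset.sum_add_distrib, (ZMod.natCast_eq_zero_iff_even).2 hn]
  linear_combination h - (y 0 + y 1) * h2

theorem sum_perm (σ : Equiv.Perm (Fin (n + 2))) (x : Fin n → F) : ∑ i, (em n x ∘ σ) i = 0 :=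
  (Equiv.sum_comp σ _).trans (sum_em x)

/-- the representation -/
def rho (hn : Even n) : Equiv.Perm (Fin (n + 2)) →* End F (Fin n → F) where
  toFun σ := pr n ∘ₗ LinearMap.funLeft F F σ.symm ∘ₗ em n
  map_one' := LinearMap.ext pr_em
  map_mul' σ τ := LinearMap.ext fun x => by
    show _ = pr n (em n (pr n (em n x ∘ τ.symm)) ∘ σ.symm)
    rw [em_pr hn (sum_perm _ x)]
    exact (add_zero _).symm.trans ((congrArg _ (pr_one _).symm).trans (map_add (pr n) _ _).symm)

theorem em_rho (hn : Even n) (σ : Equiv.Perm (Fin (n + 2))) (x : Fin n → F) :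
    em n (rho hn σ x) = em n x ∘ σ.symm + em n x (σ.symm 0) • 1 := em_pr hn (sum_perm σ.symm x)

theorem exists_out {s : Finset (Fin (n + 2))} (h : s.card < n + 2) : ∃ i, i ∉ s :=
  (Finset.exists_mem_notMem_of_card_lt_card (t := Finset.univ) (by simpa)).imp fun _ h => h.2

theorem sum_pair (i j : Fin n) : ∑ l, (Pi.single i 1 + Pi.single j 1 : Fin n → F) l = 0 := by
  simp [Finset.sum_add_distrib, CharTwo.add_self_eq_zero]

theorem rho_injective (hn : Even n) (h3 : 3 ≤ n) : Function.Injective (rho hn) := by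
  refine (injective_iff_map_eq_one _).2 fun σ h => inv_eq_one.1 (Equiv.ext fun i => by_contra fun hi => ?_)
  change σ.symm i ≠ i at hi
  obtain ⟨j, hj⟩ := exists_out (s := {i, σ.symm i}) (Finset.card_le_two.trans_lt (by omega))
  obtain ⟨l, hl⟩ := exists_out (s := {i, j, σ i, σ j}) (Finset.card_le_four.trans_lt (by omega))
  have := em_rho hn σ (pr n (Pi.single i 1 + Pi.single j 1))
  rw [h, End.one_apply, em_pr hn (sum_pair i j)] at this
  have h1 := congrFun this i
  have h2 := congrFun this l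
  simp only [Finset.mem_insert, Finset.mem_singleton, not_or, ← ne_eq] at hj
  simp only [Finset.mem_insert, Finset.mem_singleton, not_or, ← ne_eq, ← Equiv.symm_apply_eq] at hl
  simp only [Pi.add_apply, Function.comp, Pi.single_eq_same, Pi.single_eq_of_ne hi, Pi.single_eq_of_ne hj.1.symm,
    Pi.single_eq_of_ne hj.2.symm,
    Pi.single_eq_of_ne hl.1, Pi.single_eq_of_ne hl.2.1, Pi.single_eq_of_ne hl.2.2.1, Pi.single_eq_of_ne hl.2.2.2,
    Pi.smul_apply, Pi.one_apply] at h1 h2
  rw [← h2] at h1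
  simp at h1

/-- the quadratic form -/
def q0 (n : ℕ) : QuadraticForm F (Fin n → F) := (qe (n + 2)).comp (em n)

theorem q0_apply (x : Fin n → F) : q0 n x = qe n x + ∑ i, x i := by
  show qe _ (Fin.cons _ (Fin.cons _ _)) = _
  rw [qe_cons, qe_cons, zero_mul, add_zero, ← pow_two, ZMod.pow_card]

theorem q0_rho (k : ℕ) (hn : Even (4 * k + 2)) (σ : Equiv.Perm (Fin (4 * k + 2 + 2))) (x : Fin (4 * k + 2) → F) :
    q0 _ (rho hn σ x) = q0 _ x := by
  rw [q0, QuadraticMap.comp_apply, em_rho, Q_add, qe_perm, QuadraticMap.map_smul,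
    show qe (4 * k + 2 + 2) 1 = 0 from qe_one (k + 1), polar_smul_right, polar_qe, dotProduct_one, sum_perm, QuadraticMap.comp_apply]
  simp

theorem q0_nondeg (hn : Even n) : QNondeg (q0 n) := fun x hx => by
  have key : ∀ i, x i = ∑ l, x l := fun i => by
    have : qe _ (em n _) - qe _ (em n x) - qe _ (em n (Pi.single i 1)) = 0 := hx _
    rw [map_add, ← polar, polar_qe, sum_em, zero_mul, zero_add] at this
    simp [em, dotProduct, Fin.sum_univ_succ, Pi.single_apply] at this
    exact (CharTwo.add_eq_zero.1 this).symm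
  have h : ∑ l, x l = 0 := by
    rw [Finset.sum_congr rfl fun i _ => key i]; simp [(ZMod.natCast_eq_zero_iff_even).2 hn]
  exact funext fun i => (key i).trans h

theorem main (k : ℕ) (hk : 1 ≤ k) :
    (Odd k → ∃ φ : Equiv.Perm (Fin (4 * k + 4)) →* Cfsg.isometryGroup F (Cfsg.quadFormPlus (2 * k + 1) F),
      Function.Injective φ) ∧
    (Even k → ∃ φ : Equiv.Perm (Fin (4 * k + 4)) →* Cfsg.isometryGroup F (Cfsg.quadFormMinus (2 * k) F 1 1),
      Function.Injective φ) := by
  have hn : Even (4 * k + 2) := ⟨2 * k + 1, by ring⟩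
  have h1 := sum_sg (q0 (4 * k + 2))
  simp only [q0_apply] at h1
  rw [(sums _).2, (sums _).2, (sums _).1, (sums' k).1, (sums' k).2] at h1
  simp only [← q0_apply] at h1
  have h3 : (0 : ℤ) < 4 ^ k := by positivity
  have h4 : (2 : ℤ) ^ (2 * k) = 4 ^ k := by rw [pow_mul]; rfl
  have h5 : (Nat.card (Fin (4 * k + 2) → F) : ℤ) = 2 * 2 ^ (2 * (2 * k) + 1) := by
    simp [← mul_assoc, pow_succ]; ring
  rcases f2_plus_or_minus (q0_nondeg hn) (k := 2 * k) (by simp; ring) with ⟨g, hg⟩ | ⟨g, hg⟩
  · refine ⟨fun _ => exists_isom_hom _ (rho_injective hn (by omega)) (q0_rho k hn) g hg, fun h => ?_⟩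
    rw [card_zero_of_plus g hg, h.neg_pow] at h1
    omega
  · refine ⟨fun h => ?_, fun _ => exists_isom_hom _ (rho_injective hn (by omega)) (q0_rho k hn) g hg⟩
    rw [card_zero_of_minus g hg, h.neg_pow] at h1
    omega

end H22.SO2
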